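import Cfsg.Agent.ChevF.E7W

set_option autoImplicit false

/-!
Frames of type E7 from frames of type E6 (helper19).
-/

namespace Cfsg.Agent.ChevF

open Cfsg.Lie Cfsg.Agent.Chev Cfsg.Agent.ChevGrp Cfsg.Agent.Steinb Cfsg.Agent.Mult Matrix

lemma G6 : Good chevE6 := good_of_mem hE6
lemma G7 : Good chevE7 := good_of_mem hE7

variable {K L : Type*} [Field K] [Field L]

theorem exists_φ67 (K : Type*) [Field K] : ∃ φ : chevE6.SteinbergGroup K →* chevE7.SteinbergGroup K,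
    ∀ r < chevE6.nroots, ∀ t, φ (chevE6.stGen K r t) = (stOf G7 K).x (ioP P67 r) t :=
  exists_emb' G6 G7 emb67 (stOf G7 K)

/-- the homomorphism between the Steinberg groups -/
noncomputable def φ67 (K : Type*) [Field K] : chevE6.SteinbergGroup K →* chevE7.SteinbergGroup K := (exists_φ67 K).choose

lemma φ67_x {r : ℕ} (hr : r < chevE6.nroots) (t : K) : φ67 K ((stOf G6 K).x r t) = (stOf G7 K).x (ioP P67 r) t :=
  (exists_φ67 K).choose_spec r hr t

lemma φ67_stMap (σ : K →+* L) (g : chevE6.SteinbergGroup K) : stMap G7 σ (φ67 K g) = φ67 L (stMap G6 σ g) := by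
  have h : (stMap G7 σ).comp (φ67 K) = (φ67 L).comp (stMap G6 σ) := by
    apply st_ext G6
    intro r hr t
    rw [MonoidHom.comp_apply, MonoidHom.comp_apply, φ67_x hr, stMap_x G7 σ (emb67.lt r hr), stMap_x G6 σ hr, φ67_x hr]
  exact DFunLike.congr_fun h g

lemma φ67_nr {i : ℕ} (hi : i < chevE6.rank) (c : K) :
    φ67 K ((stOf G6 K).nr (chevE6.simple i) c) = (stOf G7 K).nr (chevE7.simple i) c := by
  have hp := G6.simple_lt i hi
  unfold PreSt.nr
  rw [map_mul, map_mul, φ67_x hp, φ67_x (neg_lt G6.toGood1 hp), emb67.neg _ hp, emb67.simple i hi]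

lemma rank6 : chevE6.rank = 6 := rfl
lemma rank7 : chevE7.rank = 7 := rfl

lemma φ67_T {k : chevE6.SteinbergGroup K} (hk : k ∈ (stOf G6 K).T) : φ67 K k ∈ (stOf G7 K).T := by
  have h : (stOf G6 K).T ≤ ((stOf G7 K).T).comap (φ67 K) := by
    unfold PreSt.T
    rw [Subgroup.closure_le]
    rintro _ ⟨i, c, hi, hc, rfl⟩
    rw [SetLike.mem_coe, Subgroup.mem_comap, PreSt.hr, map_mul, φ67_nr hi, φ67_nr hi]
    have hi7 : i < chevE7.rank := by rw [rank6] at hi; rw [rank7]; omega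
    exact (stOf G7 K).hr_mem_T hi7 hc
  exact h hk

variable (E₆ : DData chevE6) (E : DData chevE7)

lemma φ67_nd (l : List (Fin 6)) : φ67 K ((stR E₆ G6 (sp_of_mem hE6) K).nd l) =
    (stR E G7 (sp_of_mem hE7) K).nd (l.map Fin.castSucc) := by
  induction l with
  | nil =>
    have h1 : (stR E₆ G6 (sp_of_mem hE6) K).nd [] = 1 := RGrp.nd_nil _
    have h2 : (stR E G7 (sp_of_mem hE7) K).nd (([] : List (Fin 6)).map Fin.castSucc) = 1 := RGrp.nd_nil _
    exact (congrArg (φ67 K) h1).trans ((map_one _).trans h2.symm)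
  | cons i l ih =>
    have h1 : (stR E₆ G6 (sp_of_mem hE6) K).nd (i :: l) = (stOf G6 K).nr (chevE6.simple i) 1 * (stR E₆ G6 (sp_of_mem hE6) K).nd l :=
      RGrp.nd_cons (R := stR E₆ G6 (sp_of_mem hE6) K) i l
    have h2 : (stR E G7 (sp_of_mem hE7) K).nd ((i :: l).map Fin.castSucc) = (stOf G7 K).nr (chevE7.simple i) 1 *
        (stR E G7 (sp_of_mem hE7) K).nd (l.map Fin.castSucc) :=
      RGrp.nd_cons (R := stR E G7 (sp_of_mem hE7) K) i.castSucc (l.map Fin.castSucc)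
    exact (congrArg (φ67 K) h1).trans ((map_mul _ _ _).trans ((congrArg₂ (· * ·) (φ67_nr i.2 1) ih).trans h2.symm))

/-- frames of type E7 from frames of type E6 -/
theorem frame67 {σ : K →+* K} {g n : GL chevE6.Idx K} (hg : g ∈ chevE6.group K) (hn : n ∈ (chev E₆ (good_of_mem hE6) K).N)
    {u : Equiv.Perm (Fin chevE6.nroots)} (hact : (chev E₆ (good_of_mem hE6) K).Act n u) (hgn : g⁻¹ * glMap chevE6.Idx σ g = n) :
    ∃ l : List (Fin 6), u = wd6 E₆ l ∧ ∃ g' ∈ chevE7.group K, ∃ n' ∈ (chev E (good_of_mem hE7) K).N,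
      (chev E (good_of_mem hE7) K).Act n' (wd7 E (l.map Fin.castSucc)) ∧ g'⁻¹ * glMap chevE7.Idx σ g' = n' := by
  have S6 := sp_of_mem hE6
  have S7 := sp_of_mem hE7
  have h1 : g ∈ (stOf G6 K).θ.range := by
    rw [(stOf G6 K).range_θ (stOf_gen G6)]; exact hg
  obtain ⟨gh, hgh⟩ := h1
  obtain ⟨nh, hnh⟩ : ∃ nh, nh = gh⁻¹ * stMap G6 σ gh := ⟨_, rfl⟩
  have h2 : (stOf G6 K).θ nh = n := by
    rw [hnh, map_mul, map_inv, θ_stMap, hgh, hgn]
  obtain ⟨h3, h4⟩ := lift_N E₆ hE6 S6 (g := nh) (by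
    have : (stOf (good_of_mem hE6) K).θ nh = n := h2
    rw [this]; exact hn) (by
    have : (stOf (good_of_mem hE6) K).θ nh = n := h2
    rw [this]; exact hact)
  obtain ⟨l, k, hk, e⟩ := RGrp.exists_nd h3
  obtain ⟨l', hl'⟩ : ∃ l' : List (Fin 6), l' = l := ⟨l, rfl⟩
  have hu : u = wd6 E₆ l' := by
    rw [e] at h4
    have := ((RGrp.act_nd (R := stR E₆ (good_of_mem hE6) S6 K) l).mul (RGrp.act_H hk)).unique h4
    rw [mul_one] at this
    rw [hl']
    exact this.symm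
  refine ⟨l', hu, (stOf G7 K).θ (φ67 K gh), ?_, (stOf G7 K).θ (φ67 K nh), ?_, ?_, ?_⟩
  · have : (stOf G7 K).θ (φ67 K gh) ∈ (stOf G7 K).θ.range := ⟨_, rfl⟩
    rw [(stOf G7 K).range_θ (stOf_gen G7)] at this
    exact this
  · have e1 : φ67 K nh = (stR E G7 S7 K).nd (l'.map Fin.castSucc) * φ67 K k := by
      have e2 : φ67 K nh = φ67 K ((stR E₆ G6 S6 K).nd l') * φ67 K k := by
        rw [hl', ← map_mul]; exact congrArg (φ67 K) e
      rw [e2]
      exact congrArg (· * φ67 K k) (φ67_nd E₆ E l')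
    rw [e1, map_mul]
    have e3 := φ67_T hk
    rw [← (stOf G7 K).tor_range S7] at e3
    obtain ⟨c, hc⟩ := e3
    refine mul_mem ?_ (RGrp.H_le_N _ ?_)
    · have : (stOf G7 K).θ ((stR E G7 S7 K).nd (l'.map Fin.castSucc)) = (chev E G7 K).nd (l'.map Fin.castSucc) := θ_nd E G7 S7 _
      rw [this]; exact RGrp.nd_mem_N _
    · rw [← hc]; exact tor_mem_diag hE7 S7 c
  · have e1 : φ67 K nh = (stR E G7 S7 K).nd (l'.map Fin.castSucc) * φ67 K k := by
      have e2 : φ67 K nh = φ67 K ((stR E₆ G6 S6 K).nd l') * φ67 K k := by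
        rw [hl', ← map_mul]; exact congrArg (φ67 K) e
      rw [e2]
      exact congrArg (· * φ67 K k) (φ67_nd E₆ E l')
    rw [e1, map_mul]
    have e3 := φ67_T hk
    rw [← (stOf G7 K).tor_range S7] at e3
    obtain ⟨c, hc⟩ := e3
    have a1 : (chev E (good_of_mem hE7) K).Act ((stOf G7 K).θ ((stR E G7 S7 K).nd (l'.map Fin.castSucc))) (wd7 E (l'.map Fin.castSucc)) := by
      have : (stOf G7 K).θ ((stR E G7 S7 K).nd (l'.map Fin.castSucc)) = (chev E G7 K).nd (l'.map Fin.castSucc) := θ_nd E G7 S7 _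
      rw [this]; exact RGrp.act_nd _
    have a2 : (chev E (good_of_mem hE7) K).Act ((stOf G7 K).θ (φ67 K k)) 1 := by
      rw [← hc]; exact RGrp.act_H (tor_mem_diag hE7 S7 c)
    have := a1.mul a2
    rwa [mul_one] at this
  · rw [← θ_stMap, φ67_stMap, hnh, map_mul, map_mul, map_inv, map_inv]

end Cfsg.Agent.ChevF
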