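import Cfsg.Agent.ChevF.E7F

set_option autoImplicit false

/-!
The three orthogonal roots (helper19).
-/

namespace Cfsg.Agent.ChevF

open Cfsg.Lie Cfsg.Agent.Chev Cfsg.Agent.ChevGrp Cfsg.Agent.Steinb Matrix Polynomial

lemma card27 : Fintype.card {s : Fin chevE7.nroots // rv7 s 6 = 1} = 27 := by
  have h : Fintype.card {s : Fin 126 // vec chevE7 s 6 = 1} = 27 := by decide +kernel
  exact h

lemma noperp7 (s : Fin chevE7.nroots) (h : rv7 s 6 = 1) : J67ᵀ *ᵥ (CE7 *ᵥ rv7 s) ≠ 0 := by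
  have h1 : ∀ s : Fin 126, vec chevE7 s 6 = 1 → J67ᵀ *ᵥ (CE7 *ᵥ (fun i : Fin 7 => vec chevE7 s i)) ≠ 0 := by decide +kernel
  exact h1 s h

lemma JtJ : J67ᵀ * J67 = 1 := by decide +kernel

lemma JJt : J67 * J67ᵀ = 1 - Matrix.of fun i j => if i = 6 ∧ j = 6 then 1 else 0 := by decide +kernel

section abstract_lat

variable {M : Matrix (Fin 7) (Fin 7) ℤ} {M₆ : Matrix (Fin 6) (Fin 6) ℤ}

lemma pow_J (h : M * J67 = J67 * M₆) (k : ℕ) : M ^ k * J67 = J67 * M₆ ^ k := by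
  induction k with
  | zero => rw [pow_zero, pow_zero, Matrix.one_mul, Matrix.mul_one]
  | succ k ih => rw [pow_succ, pow_succ, Matrix.mul_assoc, h, ← Matrix.mul_assoc, ih, Matrix.mul_assoc]

lemma pow_row (h : (Pi.single 6 1 : Fin 7 → ℤ) ᵥ* M = Pi.single 6 1) (k : ℕ) : (Pi.single 6 1 : Fin 7 → ℤ) ᵥ* M ^ k = Pi.single 6 1 := by
  induction k with
  | zero => rw [pow_zero, Matrix.vecMul_one]
  | succ k ih => rw [pow_succ, ← Matrix.vecMul_vecMul, ih, h]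

lemma M6_12 (hcp : M₆.charpoly = cyclotomic 12 ℤ * cyclotomic 3 ℤ) : M₆ ^ 12 = 1 := by
  have h1 : (X ^ 12 - 1 : ℤ[X]) = (cyclotomic 12 ℤ * cyclotomic 3 ℤ) * ((X ^ 2 - 1) * (X ^ 2 + 1) * (X ^ 2 - X + 1)) := by
    rw [cyc12, cyclotomic_three]; ring
  have h2 := congrArg (aeval M₆) h1
  rw [map_mul, ← hcp, Matrix.aeval_self_charpoly, zero_mul, map_sub, map_pow, aeval_X, map_one, sub_eq_zero] at h2
  exact h2

lemma M6_geom (hcp : M₆.charpoly = cyclotomic 12 ℤ * cyclotomic 3 ℤ) : ∑ k ∈ Finset.range 12, M₆ ^ k = 0 := by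
  have h1 : (∑ k ∈ Finset.range 12, X ^ k : ℤ[X]) = (cyclotomic 12 ℤ * cyclotomic 3 ℤ) * ((X + 1) * (X ^ 2 + 1) * (X ^ 2 - X + 1)) := by
    rw [cyc12, cyclotomic_three]
    simp only [Finset.sum_range_succ, Finset.sum_range_zero]; ring
  have h2 := congrArg (aeval M₆) h1
  rw [map_mul, ← hcp, Matrix.aeval_self_charpoly, zero_mul, map_sum] at h2
  simpa using h2

/-- the order of `M` divides `12` -/
lemma M7_12 (hJ : M * J67 = J67 * M₆) (hrow : (Pi.single 6 1 : Fin 7 → ℤ) ᵥ* M = Pi.single 6 1)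
    (hcp : M₆.charpoly = cyclotomic 12 ℤ * cyclotomic 3 ℤ) {W : ℕ} (hW0 : 0 < W) (hW : M ^ W = 1) : M ^ 12 = 1 := by
  obtain ⟨N, hN⟩ : ∃ N, N = M ^ 12 - 1 := ⟨_, rfl⟩
  have h1 : N * J67 = 0 := by
    rw [hN, Matrix.sub_mul, pow_J hJ, M6_12 hcp, Matrix.mul_one, Matrix.one_mul, sub_self]
  have h2 : (Pi.single 6 1 : Fin 7 → ℤ) ᵥ* N = 0 := by
    rw [hN, Matrix.vecMul_sub, pow_row hrow, Matrix.vecMul_one, sub_self]
  have hNN : N * N = 0 := by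
    have e1 : N * N = (N * J67) * (J67ᵀ * N) + N * (Matrix.of fun i j => if i = 6 ∧ j = 6 then (1 : ℤ) else 0) * N := by
      have e2 : (1 : Matrix (Fin 7) (Fin 7) ℤ) = J67 * J67ᵀ + Matrix.of fun i j => if i = 6 ∧ j = 6 then 1 else 0 := by
        rw [JJt, sub_add_cancel]
      have e3 : N * N = N * 1 * N := by rw [mul_one]
      rw [e3, e2, mul_add, add_mul]
      simp only [Matrix.mul_assoc]
    rw [e1, h1, Matrix.zero_mul, zero_add, Matrix.mul_assoc]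
    have e4 : (Matrix.of fun i j => if i = 6 ∧ j = 6 then (1 : ℤ) else 0 : Matrix (Fin 7) (Fin 7) ℤ) * N = 0 := by
      ext i j
      rw [Matrix.mul_apply, Matrix.zero_apply]
      have e5 : N 6 j = 0 := by
        have := congrFun h2 j
        rw [Matrix.single_one_vecMul] at this
        exact this
      apply Finset.sum_eq_zero
      intro k _
      rw [Matrix.of_apply]
      by_cases hk : k = 6
      · rw [hk, e5, mul_zero]
      · rw [if_neg (fun h => hk h.2), zero_mul]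
    rw [e4, mul_zero]
  have hpow : ∀ k : ℕ, (1 + N) ^ k = 1 + k • N := by
    intro k
    induction k with
    | zero => simp
    | succ k ih =>
      rw [pow_succ, ih, add_smul, one_smul]
      have : (1 + k • N) * (1 + N) = 1 + (k • N + N) + k • (N * N) := by
        rw [add_mul, mul_add, mul_add, one_mul, one_mul, mul_one, smul_mul_assoc]; abel
      rw [this, hNN, smul_zero, add_zero]
  have h3 : M ^ 12 = 1 + N := by rw [hN]; abel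
  have h4 := hpow W
  rw [← h3, ← pow_mul, mul_comm 12 W, pow_mul, hW, one_pow] at h4
  have h5 : W • N = 0 := by
    have := left_eq_add.1 h4
    exact this
  have h6 : N = 0 := by
    ext i j
    have h6 := congrFun (congrFun h5 i) j
    rw [Matrix.smul_apply, Matrix.zero_apply, nsmul_eq_mul] at h6
    rcases mul_eq_zero.1 h6 with h7 | h7
    · exact absurd (by exact_mod_cast h7) hW0.ne'
    · exact h7
  rw [h3, h6, add_zero]

/-- inner products in the orbit -/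
lemma orbit7 (hC : Mᵀ * CE7 * M = CE7) (hJ : M * J67 = J67 * M₆) (hrow : (Pi.single 6 1 : Fin 7 → ℤ) ᵥ* M = Pi.single 6 1)
    (hC6 : M₆ᵀ * CE6 * M₆ = CE6)
    (hcp : M₆.charpoly = cyclotomic 12 ℤ * cyclotomic 3 ℤ) {v : Fin 6 → ℤ} (hv : v ≠ 0)
    (hv12 : (aeval M₆ (cyclotomic 12 ℤ)) *ᵥ v = 0) {b : Fin 7 → ℤ} (hb6 : b 6 = 1) (hb2 : b ⬝ᵥ (CE7 *ᵥ b) = 2)
    (hb3 : M *ᵥ (M *ᵥ (M *ᵥ b)) = b) (hperp : J67ᵀ *ᵥ (CE7 *ᵥ b) ≠ 0) :
    b ⬝ᵥ (CE7 *ᵥ (M *ᵥ b)) = 0 := by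
  have hinv := dot_inv hC
  have hsym := dot_comm_of_sym CE7_sym
  obtain ⟨b2, hb2d⟩ : ∃ b2, b2 = M *ᵥ b := ⟨_, rfl⟩
  obtain ⟨b3, hb3d⟩ : ∃ b3, b3 = M *ᵥ b2 := ⟨_, rfl⟩
  rw [← hb2d, ← hb3d] at hb3
  rw [← hb2d]
  have c6 : ∀ x : Fin 7 → ℤ, (M *ᵥ x) 6 = x 6 := by
    intro x
    have h1 : (Pi.single 6 1 : Fin 7 → ℤ) ⬝ᵥ (M *ᵥ x) = (Pi.single 6 1 : Fin 7 → ℤ) ⬝ᵥ x := by
      rw [Matrix.dotProduct_mulVec, hrow]
    rwa [single_one_dotProduct, single_one_dotProduct] at h1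
  have hb26 : b2 6 = 1 := by rw [hb2d, c6, hb6]
  have hb36 : b3 6 = 1 := by rw [hb3d, c6, hb26]
  -- not fixed
  have hne : b ≠ b2 := by
    intro h0
    apply hperp
    have h1 : M *ᵥ b = b := by rw [← hb2d, ← h0]
    have h2 : ∀ (k : ℕ) (x : Fin 6 → ℤ), b ⬝ᵥ (CE7 *ᵥ (J67 *ᵥ (M₆ ^ k *ᵥ x))) = b ⬝ᵥ (CE7 *ᵥ (J67 *ᵥ x)) := by
      intro k
      induction k with
      | zero => intro x; rw [pow_zero, Matrix.one_mulVec]
      | succ k ih =>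
        intro x
        have h9 : J67 *ᵥ (M₆ *ᵥ x) = M *ᵥ (J67 *ᵥ x) := by
          rw [Matrix.mulVec_mulVec, Matrix.mulVec_mulVec, hJ]
        rw [pow_succ, ← Matrix.mulVec_mulVec, ih, h9]
        have := hinv b (J67 *ᵥ x)
        rw [h1] at this
        exact this
    have h3 : ∀ x : Fin 6 → ℤ, b ⬝ᵥ (CE7 *ᵥ (J67 *ᵥ x)) = 0 := by
      intro x
      have h4 : b ⬝ᵥ (CE7 *ᵥ (J67 *ᵥ ((∑ k ∈ Finset.range 12, M₆ ^ k) *ᵥ x))) = 12 * (b ⬝ᵥ (CE7 *ᵥ (J67 *ᵥ x))) := by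
        rw [Matrix.sum_mulVec, Matrix.mulVec_sum, Matrix.mulVec_sum, dotProduct_sum,
          Finset.sum_congr rfl (fun k _ => h2 k x), Finset.sum_const, Finset.card_range, nsmul_eq_mul]
        norm_num
      rw [M6_geom hcp, Matrix.zero_mulVec, Matrix.mulVec_zero, Matrix.mulVec_zero, dotProduct_zero] at h4
      omega
    funext i
    have h5 := h3 (Pi.single i 1)
    have h7 : (J67ᵀ *ᵥ (CE7 *ᵥ b)) i = (Pi.single i 1 : Fin 6 → ℤ) ⬝ᵥ (J67ᵀ *ᵥ (CE7 *ᵥ b)) := by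
      rw [single_one_dotProduct]
    have h6 : (Pi.single i 1 : Fin 6 → ℤ) ⬝ᵥ (J67ᵀ *ᵥ (CE7 *ᵥ b)) = (J67 *ᵥ (Pi.single i 1)) ⬝ᵥ (CE7 *ᵥ b) := by
      rw [Matrix.dotProduct_mulVec, Matrix.vecMul_transpose]
    rw [h7, h6, hsym, h5]; rfl
  obtain ⟨a, ha⟩ : ∃ a, a = b ⬝ᵥ (CE7 *ᵥ b2) := ⟨_, rfl⟩
  have n2 : b2 ⬝ᵥ (CE7 *ᵥ b2) = 2 := by rw [hb2d, hinv, hb2]
  have n3 : b3 ⬝ᵥ (CE7 *ᵥ b3) = 2 := by rw [hb3d, hinv, n2]
  have a23 : b2 ⬝ᵥ (CE7 *ᵥ b3) = a := by rw [ha, hb3d]; nth_rw 1 [hb2d]; rw [hinv]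
  have a31 : b3 ⬝ᵥ (CE7 *ᵥ b) = a := by
    have := hinv b3 b
    rw [hb3, ← hb2d, ← ha] at this
    exact this.symm
  have h1 : 0 < (b - b2) ⬝ᵥ (CE7 *ᵥ (b - b2)) := CE7_pos _ (sub_ne_zero.2 hne)
  have h2 : 0 < (b + b2 + b3) ⬝ᵥ (CE7 *ᵥ (b + b2 + b3)) := by
    apply CE7_pos
    intro h0
    have := congrFun h0 6
    rw [Pi.add_apply, Pi.add_apply, hb6, hb26, hb36] at this
    norm_num at this
  simp only [Matrix.mulVec_sub, sub_dotProduct, dotProduct_sub, hb2, n2, hsym b2 b, ← ha] at h1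
  simp only [Matrix.mulVec_add, add_dotProduct, dotProduct_add, hb2, n2, n3, hsym b2 b, hsym b3 b2, hsym b b3, ← ha, a23, a31] at h2
  have h3 : a = 0 ∨ a = 1 := by omega
  rcases h3 with h3 | h3
  · rw [← ha, h3]
  · exfalso
    obtain ⟨α, hα⟩ : ∃ α, α = J67ᵀ *ᵥ (b - b2) := ⟨_, rfl⟩
    have hJα : J67 *ᵥ α = b - b2 := by
      rw [hα, Matrix.mulVec_mulVec, JJt, Matrix.sub_mulVec, Matrix.one_mulVec, sub_eq_self]
      funext i
      rw [Pi.zero_apply, Matrix.mulVec_eq_sum, Finset.sum_apply]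
      apply Finset.sum_eq_zero
      intro j _
      rw [Pi.smul_apply, Matrix.transpose_apply, Matrix.of_apply, op_smul_eq_mul]
      by_cases hj : j = 6
      · rw [hj, Pi.sub_apply, hb6, hb26, sub_self, mul_zero]
      · rw [if_neg (fun h => hj h.2), zero_mul]
    have hα2 : α ⬝ᵥ (CE6 *ᵥ α) = 2 := by
      have e1 : α ⬝ᵥ (CE6 *ᵥ α) = (J67 *ᵥ α) ⬝ᵥ (CE7 *ᵥ (J67 *ᵥ α)) := by
        rw [← J_C, Matrix.mul_assoc, ← Matrix.mulVec_mulVec, ← Matrix.mulVec_mulVec, Matrix.dotProduct_mulVec α,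
          Matrix.vecMul_transpose]
      rw [e1, hJα]
      simp only [Matrix.mulVec_sub, sub_dotProduct, dotProduct_sub, hb2, n2, hsym b2 b, ← ha]
      rw [h3]; norm_num
    refine no_root6 hC6 hcp hv hv12 hα2 ?_
    rw [aeval3]
    have e1 : J67 *ᵥ ((M₆ ^ 2 + M₆ + 1) *ᵥ α) = (M ^ 2 + M + 1) *ᵥ (J67 *ᵥ α) := by
      rw [Matrix.mulVec_mulVec, Matrix.mulVec_mulVec, Matrix.mul_add, Matrix.mul_add, Matrix.add_mul, Matrix.add_mul,
        pow_J hJ, hJ, Matrix.mul_one, Matrix.one_mul]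
    have e2 : (M ^ 2 + M + 1) *ᵥ (b - b2) = 0 := by
      rw [Matrix.add_mulVec, Matrix.add_mulVec, Matrix.one_mulVec, pow_two, ← Matrix.mulVec_mulVec, Matrix.mulVec_sub,
        ← hb2d, ← hb3d, Matrix.mulVec_sub, ← hb3d, hb3]
      abel
    rw [hJα, e2] at e1
    have e3 := congrArg (fun x => J67ᵀ *ᵥ x) e1
    simp only [Matrix.mulVec_zero] at e3
    rw [Matrix.mulVec_mulVec, JtJ, Matrix.one_mulVec] at e3
    exact e3

end abstract_lat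

variable (E₆ : DData chevE6) (E : DData chevE7)

/-- the orthogonal triple -/
theorem exists_triple {l : List (Fin 6)} {v : Fin 6 → ℤ} (hv : v ≠ 0)
    (hv12 : (aeval (wm6 E₆ (wd6 E₆ l)) (cyclotomic 12 ℤ)) *ᵥ v = 0) {u : Equiv.Perm (Fin chevE7.nroots)}
    (hu : u = wd7 E (l.map Fin.castSucc)) : ∃ s : Fin chevE7.nroots, rv7 s 6 = 1 ∧ u (u (u s)) = s ∧
      rv7 s ⬝ᵥ (CE7 *ᵥ rv7 (u s)) = 0 := by
  have huW : u ∈ E.rp.wsys.W := by rw [hu]; exact wd7_mem E _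
  obtain ⟨M, hM⟩ : ∃ M, M = wm7 E u := ⟨_, rfl⟩
  have hC : Mᵀ * CE7 * M = CE7 := by rw [hM]; exact wm7_C E huW
  have hJ : M * J67 = J67 * wm6 E₆ (wd6 E₆ l) := by rw [hM, hu]; exact wm7_J E E₆ l
  have hrow : (Pi.single 6 1 : Fin 7 → ℤ) ᵥ* M = Pi.single 6 1 := by rw [hM, hu]; exact wm7_row E l
  have hcp := cp6 E₆ (wd6_mem E₆ l) hv hv12
  have hMW : M ^ Nat.card E.rp.wsys.W = 1 := by
    have huN : u ^ Nat.card E.rp.wsys.W = 1 := by
      have := pow_card_eq_one' (x := (⟨u, huW⟩ : E.rp.wsys.W))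
      exact congrArg Subtype.val this
    have h1 : wm7 E (u ^ Nat.card E.rp.wsys.W) = wm7 E u ^ Nat.card E.rp.wsys.W := wm_pow E (good_of_mem hE7) huW _
    rw [hM, ← h1, huN, wm7_one]
  have hM12 := M7_12 hJ hrow hcp Nat.card_pos hMW
  have hu12 : u ^ 12 = 1 := by
    apply wm_inj E (good_of_mem hE7) (pow_mem huW 12) (one_mem _)
    have h1 : wm7 E (u ^ 12) = wm7 E u ^ 12 := wm_pow E (good_of_mem hE7) huW _
    have h2 : wm7 E (u ^ 12) = wm7 E 1 := by rw [h1, ← hM, hM12, wm7_one]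
    exact h2
  have h6 : ∀ s, rv7 (u s) 6 = rv7 s 6 := by
    intro s
    have h1 : (Pi.single 6 1 : Fin 7 → ℤ) ⬝ᵥ (M *ᵥ rv7 s) = (Pi.single 6 1 : Fin 7 → ℤ) ⬝ᵥ rv7 s := by
      rw [Matrix.dotProduct_mulVec, hrow]
    rw [single_one_dotProduct, single_one_dotProduct, hM, ← rv7_W E huW] at h1
    exact h1
  let f : Equiv.Perm {s : Fin chevE7.nroots // rv7 s 6 = 1} := u.subtypePerm (fun s => by rw [h6])
  have hf : ∀ s, ((f s : {s : Fin chevE7.nroots // rv7 s 6 = 1}) : Fin chevE7.nroots) = u s := fun s => rfl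
  have hfk : ∀ (k : ℕ) s, (((f ^ k) s : {s : Fin chevE7.nroots // rv7 s 6 = 1}) : Fin chevE7.nroots) = (u ^ k) s := by
    intro k
    induction k with
    | zero => intro s; rfl
    | succ k ih => intro s; rw [pow_succ, Equiv.Perm.mul_apply, ih, hf, pow_succ, Equiv.Perm.mul_apply]
  have hf12 : (f ^ 3) ^ 2 ^ 2 = 1 := by
    rw [← pow_mul]
    apply Equiv.ext
    intro s
    apply Subtype.ext
    rw [hfk]
    norm_num
    rw [hu12]; rfl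
  haveI : Fact (Nat.Prime 2) := ⟨Nat.prime_two⟩
  obtain ⟨⟨s, hs⟩, hfix⟩ := Equiv.Perm.exists_fixed_point_of_prime (p := 2) (n := 2) (by rw [card27]; norm_num) hf12
  have hfix' : u (u (u s)) = s := by
    have := congrArg Subtype.val hfix
    rw [hfk] at this
    exact this
  refine ⟨s, hs, hfix', ?_⟩
  have hr : ∀ s, M *ᵥ rv7 s = rv7 (u s) := fun s => by rw [hM, ← rv7_W E huW]
  rw [← hr]
  exact orbit7 hC hJ hrow (wm6_C E₆ (wd6_mem E₆ l)) hcp hv hv12 hs (norm7 E s)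
    (by rw [hr, hr, hr, hfix']) (noperp7 s hs)

end Cfsg.Agent.ChevF
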