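import Cfsg.Agent.ChevF.E7W

set_option autoImplicit false

/-!
The lattice part of the construction of a torus of type E7 (helper19).
-/

namespace Cfsg.Agent.ChevF

open Matrix Polynomial

section

variable {l : ℕ}

/-- two annihilating polynomials and the whole space -/
theorem exists_poly₃ {M : Matrix (Fin l) (Fin l) ℚ} {x z : Fin l → ℚ} {P R : ℚ[X]}
    (hPR : IsCoprime P R) (hdeg : (P * R).natDegree = l) (hx : ∀ C : ℚ[X], (aeval M C) *ᵥ x = 0 → P ∣ C)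
    (hz : ∀ C : ℚ[X], (aeval M C) *ᵥ z = 0 → R ∣ C) (h : (aeval M P) *ᵥ x = 0)
    (h' : (aeval M R) *ᵥ z = 0) :
    (∀ C : ℚ[X], (aeval M C) *ᵥ (x + z) = 0 → P * R ∣ C) ∧
    ∀ y : Fin l → ℚ, ∃ C : ℚ[X], y = (aeval M C) *ᵥ x + (aeval M C) *ᵥ z := by
  have hcomm : ∀ A B : ℚ[X], ∀ w : Fin l → ℚ, (aeval M A) *ᵥ ((aeval M B) *ᵥ w) = (aeval M B) *ᵥ ((aeval M A) *ᵥ w) := by
    intro A B w
    rw [Matrix.mulVec_mulVec, Matrix.mulVec_mulVec, ← map_mul, ← map_mul, mul_comm]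
  have key : ∀ C : ℚ[X], (aeval M C) *ᵥ (x + z) = 0 → P * R ∣ C := fun C hC => by
    rw [Matrix.mulVec_add] at hC
    have h1 : (aeval M R) *ᵥ ((aeval M C) *ᵥ x) = 0 := by
      have e1 : (aeval M C) *ᵥ x = - ((aeval M C) *ᵥ z) := eq_neg_of_add_eq_zero_left hC
      rw [e1, Matrix.mulVec_neg, hcomm, h', Matrix.mulVec_zero, neg_zero]
    have h2 : (aeval M P) *ᵥ ((aeval M C) *ᵥ z) = 0 := by
      have e1 : (aeval M C) *ᵥ z = - ((aeval M C) *ᵥ x) := eq_neg_of_add_eq_zero_right hC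
      rw [e1, Matrix.mulVec_neg, hcomm, h, Matrix.mulVec_zero, neg_zero]
    rw [Matrix.mulVec_mulVec, ← map_mul] at h1 h2
    have h3 := hx _ h1
    have h4 := hz _ h2
    have h5 : P ∣ C := hPR.dvd_of_dvd_mul_left h3
    have h6 : R ∣ C := hPR.symm.dvd_of_dvd_mul_left h4
    exact hPR.mul_dvd h5 h6
  refine ⟨key, fun y => ?_⟩
  obtain ⟨C, hC⟩ := exists_poly (M := M) (x := x + z) hdeg key y
  exact ⟨C, by rw [hC, Matrix.mulVec_add]⟩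

/-- the characteristic polynomials of a matrix and of its adjoint inverse -/
lemma charpoly_conj {A B C : Matrix (Fin l) (Fin l) ℤ} (h : C * A = B * C) (hC : C.det ≠ 0) : A.charpoly = B.charpoly := by
  have h1 : (C.map Polynomial.C) * Matrix.charmatrix A = Matrix.charmatrix B * (C.map Polynomial.C) := by
    unfold Matrix.charmatrix
    rw [mul_sub, sub_mul]
    congr 1
    · rw [Matrix.scalar_apply, ← Matrix.smul_one_eq_diagonal, Algebra.mul_smul_comm, mul_one, smul_mul_assoc, one_mul]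
    · show C.map Polynomial.C * A.map Polynomial.C = B.map Polynomial.C * C.map Polynomial.C
      rw [← Matrix.map_mul, ← Matrix.map_mul, h]
  have h2 := congrArg Matrix.det h1
  rw [Matrix.det_mul, Matrix.det_mul, mul_comm] at h2
  have h3 : (C.map Polynomial.C).det ≠ 0 := by
    have e : (C.map Polynomial.C).det = Polynomial.C C.det := (RingHom.map_det Polynomial.C C).symm
    rw [e, Ne, Polynomial.C_eq_zero]; exact hC
  exact mul_right_cancel₀ h3 h2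

end

/-- the second polynomial -/
noncomputable def R3 (R : Type*) [CommRing R] : R[X] := X ^ 3 + 1

lemma R3_monic (R : Type*) [CommRing R] [Nontrivial R] : (R3 R).Monic := by
  unfold R3; monicity!

lemma R3_natDegree (R : Type*) [CommRing R] [Nontrivial R] : (R3 R).natDegree = 3 := by
  unfold R3; compute_degree!

lemma R3_map {R S : Type*} [CommRing R] [CommRing S] (f : R →+* S) : (R3 R).map f = R3 S := by
  unfold R3; simp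

lemma coprime12_3 : IsCoprime (cyclotomic 12 ℚ) (R3 ℚ) := by
  rw [cyc12]
  unfold R3
  refine ⟨C (1/2) * (X ^ 2 + 1), C (1/2) * (1 - X ^ 3), ?_⟩
  have h2 : (C (1/2) : ℚ[X]) * 2 = 1 := by
    rw [show (2 : ℚ[X]) = C 2 from rfl, ← C_mul]; norm_num
  linear_combination h2

section

variable {M : Matrix (Fin 7) (Fin 7) ℤ} {b w : Fin 7 → ℤ}

lemma sq4 {x y z : ℤ} (h : x * x + y * y + z * z = 4) : (x = 2 ∧ y = 0 ∧ z = 0) ∨ (x = -2 ∧ y = 0 ∧ z = 0) ∨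
    (x = 0 ∧ y = 2 ∧ z = 0) ∨ (x = 0 ∧ y = -2 ∧ z = 0) ∨ (x = 0 ∧ y = 0 ∧ z = 2) ∨ (x = 0 ∧ y = 0 ∧ z = -2) := by
  have x1 : -2 ≤ x := by nlinarith
  have x2 : x ≤ 2 := by nlinarith
  have y1 : -2 ≤ y := by nlinarith
  have y2 : y ≤ 2 := by nlinarith
  have z1 : -2 ≤ z := by nlinarith
  have z2 : z ≤ 2 := by nlinarith
  interval_cases x <;> interval_cases y <;> interval_cases z <;> omega

/-- the sequence of inner products vanishes -/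
lemma seq_zero {f : ℕ → ℤ} (h3 : ∀ k, f (k + 3) = - f k) (h4 : ∀ k, f (k + 4) = f (k + 2) - f k) (k : ℕ) : f k = 0 := by
  have key : ∀ k, f (k + 1) = 0 := by
    intro k
    have a1 := h3 (k + 1)
    have a2 := h4 k
    have a3 := h3 k
    have a4 := h4 (k + 1)
    have a5 := h3 (k + 2)
    rw [show k + 1 + 3 = k + 4 by ring] at a1
    rw [show k + 1 + 4 = k + 5 by ring, show k + 1 + 2 = k + 3 by ring] at a4
    rw [show k + 2 + 3 = k + 5 by ring] at a5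
    omega
  rcases k with _ | k
  · have := h3 0
    rw [key 2] at this
    omega
  · exact key k

lemma perp7 (hC : Mᵀ * CE7 * M = CE7) (hb3 : M *ᵥ (M *ᵥ (M *ᵥ b)) = -b)
    (hw : (aeval M (cyclotomic 12 ℤ)) *ᵥ w = 0) (k : ℕ) : b ⬝ᵥ (CE7 *ᵥ (M ^ k *ᵥ w)) = 0 := by
  have hinv := dot_inv hC
  have hw' : (M ^ 4 - M ^ 2 + 1) *ᵥ w = 0 := by
    have e : aeval M (cyclotomic 12 ℤ) = M ^ 4 - M ^ 2 + 1 := by rw [cyc12]; simp
    rw [← e]; exact hw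
  refine seq_zero (f := fun k => b ⬝ᵥ (CE7 *ᵥ (M ^ k *ᵥ w))) ?_ ?_ k
  · intro k
    show b ⬝ᵥ (CE7 *ᵥ (M ^ (k + 3) *ᵥ w)) = -(b ⬝ᵥ (CE7 *ᵥ (M ^ k *ᵥ w)))
    have e1 : M ^ (k + 3) *ᵥ w = M *ᵥ (M *ᵥ (M *ᵥ (M ^ k *ᵥ w))) := by
      simp only [Matrix.mulVec_mulVec]
      congr 1
      rw [add_comm, pow_add]; noncomm_ring
    have e2 : b = -(M *ᵥ (M *ᵥ (M *ᵥ b))) := by rw [hb3, neg_neg]
    rw [e1]
    conv_lhs => rw [e2]
    rw [neg_dotProduct, hinv, hinv, hinv]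
  · intro k
    show b ⬝ᵥ (CE7 *ᵥ (M ^ (k + 4) *ᵥ w)) = b ⬝ᵥ (CE7 *ᵥ (M ^ (k + 2) *ᵥ w)) - b ⬝ᵥ (CE7 *ᵥ (M ^ k *ᵥ w))
    have e1 : M ^ k *ᵥ ((M ^ 4 - M ^ 2 + 1) *ᵥ w) = M ^ (k + 4) *ᵥ w - M ^ (k + 2) *ᵥ w + M ^ k *ᵥ w := by
      rw [Matrix.add_mulVec, Matrix.sub_mulVec, Matrix.one_mulVec, Matrix.mulVec_add, Matrix.mulVec_sub,
        Matrix.mulVec_mulVec, Matrix.mulVec_mulVec, ← pow_add, ← pow_add]
    rw [hw', Matrix.mulVec_zero] at e1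
    have e2 : M ^ (k + 4) *ᵥ w = M ^ (k + 2) *ᵥ w - M ^ k *ᵥ w := by
      have : M ^ (k + 4) *ᵥ w - M ^ (k + 2) *ᵥ w + M ^ k *ᵥ w - (M ^ (k + 4) *ᵥ w - M ^ (k + 2) *ᵥ w + M ^ k *ᵥ w) = 0 := sub_self _
      have e3 : M ^ (k + 4) *ᵥ w = M ^ (k + 4) *ᵥ w - 0 := (sub_zero _).symm
      rw [e3, e1]; abel
    rw [e2, Matrix.mulVec_sub, dotProduct_sub]

variable (hC : Mᵀ * CE7 * M = CE7) (hb2 : b ⬝ᵥ (CE7 *ᵥ b) = 2) (hb12 : b ⬝ᵥ (CE7 *ᵥ (M *ᵥ b)) = 0)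
    (hb13 : b ⬝ᵥ (CE7 *ᵥ (M *ᵥ (M *ᵥ b))) = 0) (hb3 : M *ᵥ (M *ᵥ (M *ᵥ b)) = -b)
    (hw0 : w ≠ 0) (hw : (aeval M (cyclotomic 12 ℤ)) *ᵥ w = 0)

include hC hb2 hb12 hb13 in
/-- the Gram matrix -/
lemma gram7 : (M *ᵥ b) ⬝ᵥ (CE7 *ᵥ b) = 0 ∧ (M *ᵥ b) ⬝ᵥ (CE7 *ᵥ (M *ᵥ b)) = 2 ∧ (M *ᵥ b) ⬝ᵥ (CE7 *ᵥ (M *ᵥ (M *ᵥ b))) = 0 ∧
    (M *ᵥ (M *ᵥ b)) ⬝ᵥ (CE7 *ᵥ b) = 0 ∧ (M *ᵥ (M *ᵥ b)) ⬝ᵥ (CE7 *ᵥ (M *ᵥ b)) = 0 ∧
    (M *ᵥ (M *ᵥ b)) ⬝ᵥ (CE7 *ᵥ (M *ᵥ (M *ᵥ b))) = 2 := by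
  have hinv := dot_inv hC
  have hsym := dot_comm_of_sym CE7_sym
  refine ⟨?_, ?_, ?_, ?_, ?_, ?_⟩
  · rw [hsym, hb12]
  · rw [hinv, hb2]
  · rw [hinv, hb12]
  · rw [hsym, hb13]
  · rw [hsym, hinv, hb12]
  · rw [hinv, hinv, hb2]

lemma aeval_R3 : aeval M (R3 ℤ) = M ^ 3 + 1 := by unfold R3; simp

lemma aeval_R3q (Mq : Matrix (Fin 7) (Fin 7) ℚ) : aeval Mq (R3 ℚ) = Mq ^ 3 + 1 := by unfold R3; simp

include hb3 in
lemma kill_b : (aeval (qm M) (R3 ℚ)) *ᵥ (qv b) = 0 := by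
  rw [aeval_R3q, ← qm_pow, ← qm_one, ← qm_add, qm_mulVec, Matrix.add_mulVec, Matrix.one_mulVec]
  have : M ^ 3 *ᵥ b = -b := by
    rw [← hb3]; simp only [Matrix.mulVec_mulVec]; congr 1; noncomm_ring
  rw [this, neg_add_cancel, qv_zero]

include hw in
lemma kill_w : (aeval (qm M) (cyclotomic 12 ℚ)) *ᵥ (qv w) = 0 := by
  rw [← map_cyclotomic 12 (Int.castRingHom ℚ), ← qm_aeval, qm_mulVec, hw, qv_zero]

include hC hb2 hb12 hb13 hb3 in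
lemma ann_b (A : ℚ[X]) (hA : (aeval (qm M) A) *ᵥ (qv b) = 0) : R3 ℚ ∣ A := by
  obtain ⟨g1, g2, g3, g4, g5, g6⟩ := gram7 hC hb2 hb12 hb13
  have hmon := R3_monic ℚ
  rw [← Polynomial.modByMonic_eq_zero_iff_dvd hmon]
  obtain ⟨R, hR⟩ : ∃ R, R = A %ₘ R3 ℚ := ⟨_, rfl⟩
  have hdeg : R.natDegree < 3 := by
    have := Polynomial.natDegree_modByMonic_lt A hmon (by
      intro h; have := R3_natDegree ℚ; rw [h, natDegree_one] at this; omega)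
    rw [R3_natDegree, ← hR] at this
    exact this
  have hRb : (aeval (qm M) R) *ᵥ (qv b) = 0 := by
    have h1 := Polynomial.modByMonic_add_div A (R3 ℚ)
    have h2 : (aeval (qm M) (A %ₘ R3 ℚ + R3 ℚ * (A /ₘ R3 ℚ))) *ᵥ (qv b) = 0 := by rw [h1]; exact hA
    rw [map_add, Matrix.add_mulVec, mul_comm (R3 ℚ), map_mul, ← Matrix.mulVec_mulVec, kill_b hb3, Matrix.mulVec_zero, add_zero,
      ← hR] at h2
    exact h2
  rw [← hR]
  have h3 := R.as_sum_range' 3 hdeg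
  rw [Finset.sum_range_succ, Finset.sum_range_succ, Finset.sum_range_one] at h3
  have h4 : R.coeff 0 • qv b + R.coeff 1 • qv (M *ᵥ b) + R.coeff 2 • qv (M *ᵥ (M *ᵥ b)) = 0 := by
    rw [← hRb]
    conv_rhs => rw [h3]
    simp only [map_add, aeval_monomial, Algebra.algebraMap_eq_smul_one, smul_mul_assoc, one_mul, Matrix.add_mulVec,
      Matrix.smul_mulVec, pow_zero, Matrix.one_mulVec, pow_one, pow_two, ← Matrix.mulVec_mulVec, qm_mulVec]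
  have hd : ∀ x y : Fin 7 → ℤ, qv x ⬝ᵥ (qm CE7 *ᵥ qv y) = ((x ⬝ᵥ (CE7 *ᵥ y) : ℤ) : ℚ) := by
    intro x y; rw [qm_mulVec, qv_dot]
  have c0 : R.coeff 0 = 0 := by
    have := congrArg (fun x => qv b ⬝ᵥ (qm CE7 *ᵥ x)) h4
    simp only [Matrix.mulVec_add, Matrix.mulVec_smul, dotProduct_add, dotProduct_smul, hd, hb2, hb12, hb13, Matrix.mulVec_zero,
      dotProduct_zero, smul_eq_mul] at this
    push_cast at this
    linarith
  have c1 : R.coeff 1 = 0 := by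
    have := congrArg (fun x => qv (M *ᵥ b) ⬝ᵥ (qm CE7 *ᵥ x)) h4
    simp only [Matrix.mulVec_add, Matrix.mulVec_smul, dotProduct_add, dotProduct_smul, hd, g1, g2, g3, Matrix.mulVec_zero,
      dotProduct_zero, smul_eq_mul] at this
    push_cast at this
    linarith
  have c2 : R.coeff 2 = 0 := by
    have := congrArg (fun x => qv (M *ᵥ (M *ᵥ b)) ⬝ᵥ (qm CE7 *ᵥ x)) h4
    simp only [Matrix.mulVec_add, Matrix.mulVec_smul, dotProduct_add, dotProduct_smul, hd, g4, g5, g6, Matrix.mulVec_zero,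
      dotProduct_zero, smul_eq_mul] at this
    push_cast at this
    linarith
  rw [h3, c0, c1, c2]; simp

include hC hb2 hb12 hb13 hb3 hw0 hw in
/-- decomposition of the rational space -/
theorem decomp7 : (∀ A : ℚ[X], (aeval (qm M) A) *ᵥ (qv w + qv b) = 0 → cyclotomic 12 ℚ * R3 ℚ ∣ A) ∧
    ∀ y : Fin 7 → ℚ, ∃ A : ℚ[X], y = (aeval (qm M) A) *ᵥ (qv w) + (aeval (qm M) A) *ᵥ (qv b) := by
  apply exists_poly₃ coprime12_3
  · rw [Monic.natDegree_mul (cyclotomic.monic _ _) (R3_monic ℚ), natDegree_cyclotomic, R3_natDegree]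
    decide
  · intro A hA
    refine dvd_of_kill (cyclotomic.irreducible_rat (by norm_num)) ?_ (kill_w hw) hA
    intro h0; exact hw0 (qv_inj (by rw [h0, qv_zero]))
  · exact ann_b hC hb2 hb12 hb13 hb3
  · exact kill_w hw
  · exact kill_b hb3

include hC hb2 hb12 hb13 hb3 hw0 hw in
/-- the characteristic polynomial -/
theorem charpoly7 : M.charpoly = cyclotomic 12 ℤ * R3 ℤ := by
  obtain ⟨h1, -⟩ := decomp7 hC hb2 hb12 hb13 hb3 hw0 hw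
  have h2 := h1 (qm M).charpoly (by rw [Matrix.aeval_self_charpoly, Matrix.zero_mulVec])
  have hmon : (cyclotomic 12 ℚ * R3 ℚ).Monic := (cyclotomic.monic _ _).mul (R3_monic ℚ)
  have h3 : (qm M).charpoly = cyclotomic 12 ℚ * R3 ℚ := by
    refine Polynomial.eq_of_monic_of_dvd_of_natDegree_le hmon (Matrix.charpoly_monic _) h2 ?_
    rw [Matrix.charpoly_natDegree_eq_dim, Monic.natDegree_mul (cyclotomic.monic _ _) (R3_monic ℚ), natDegree_cyclotomic,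
      R3_natDegree, Fintype.card_fin]
    decide
  apply Polynomial.map_injective (Int.castRingHom ℚ) Int.cast_injective
  rw [← Matrix.charpoly_map, Polynomial.map_mul, map_cyclotomic, R3_map]
  exact h3

include hC hb2 hb12 hb13 hb3 hw0 hw in
/-- vectors orthogonal to everything vanish -/
lemma perp_zero {δ : Fin 7 → ℤ} (h1 : ∀ k : ℕ, δ ⬝ᵥ (CE7 *ᵥ (M ^ k *ᵥ w)) = 0) (h2 : ∀ k : ℕ, δ ⬝ᵥ (CE7 *ᵥ (M ^ k *ᵥ b)) = 0) :
    δ = 0 := by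
  obtain ⟨-, hdec⟩ := decomp7 hC hb2 hb12 hb13 hb3 hw0 hw
  by_contra hδ
  have h3 := CE7_pos δ hδ
  obtain ⟨A, hA⟩ := hdec (qv δ)
  have key : ∀ x : Fin 7 → ℤ, (∀ k : ℕ, δ ⬝ᵥ (CE7 *ᵥ (M ^ k *ᵥ x)) = 0) → ∀ A : ℚ[X],
      qv δ ⬝ᵥ (qm CE7 *ᵥ ((aeval (qm M) A) *ᵥ qv x)) = 0 := by
    intro x hx A
    induction A using Polynomial.induction_on' with
    | add p q hp hq => rw [map_add, Matrix.add_mulVec, Matrix.mulVec_add, dotProduct_add, hp, hq, add_zero]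
    | monomial n c =>
      rw [aeval_monomial, Algebra.algebraMap_eq_smul_one, smul_mul_assoc, one_mul, Matrix.smul_mulVec, Matrix.mulVec_smul,
        dotProduct_smul, ← qm_pow, qm_mulVec, qm_mulVec, qv_dot, hx n]
      simp
  have h4 : qv δ ⬝ᵥ (qm CE7 *ᵥ qv δ) = 0 := by
    nth_rw 2 [hA]
    rw [Matrix.mulVec_add, dotProduct_add, key w h1, key b h2, add_zero]
  rw [qm_mulVec, qv_dot] at h4
  have h5 : δ ⬝ᵥ (CE7 *ᵥ δ) = 0 := by exact_mod_cast h4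
  omega

lemma pow_b (hb3 : M *ᵥ (M *ᵥ (M *ᵥ b)) = -b) (k : ℕ) : ∃ ε : ℤ, (M ^ k *ᵥ b = ε • b ∨ M ^ k *ᵥ b = ε • (M *ᵥ b) ∨
    M ^ k *ᵥ b = ε • (M *ᵥ (M *ᵥ b))) := by
  induction k with
  | zero => exact ⟨1, Or.inl (by rw [pow_zero, Matrix.one_mulVec, one_smul])⟩
  | succ k ih =>
    obtain ⟨ε, h | h | h⟩ := ih
    · exact ⟨ε, Or.inr (Or.inl (by rw [pow_succ', ← Matrix.mulVec_mulVec, h, Matrix.mulVec_smul]))⟩
    · exact ⟨ε, Or.inr (Or.inr (by rw [pow_succ', ← Matrix.mulVec_mulVec, h, Matrix.mulVec_smul]))⟩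
    · refine ⟨-ε, Or.inl ?_⟩
      rw [pow_succ', ← Matrix.mulVec_mulVec, h, Matrix.mulVec_smul, hb3, smul_neg, neg_smul]

include hC hb2 hb12 hb13 hb3 hw0 hw in
/-- vectors of norm two orthogonal to the primitive part -/
theorem root_perp {γ : Fin 7 → ℤ} (hγ : γ ⬝ᵥ (CE7 *ᵥ γ) = 2) (h1 : ∀ k : ℕ, γ ⬝ᵥ (CE7 *ᵥ (M ^ k *ᵥ w)) = 0) :
    ∃ ε : ℤ, (ε = 1 ∨ ε = -1) ∧ (γ = ε • b ∨ γ = ε • (M *ᵥ b) ∨ γ = ε • (M *ᵥ (M *ᵥ b))) := by
  obtain ⟨g1, g2, g3, g4, g5, g6⟩ := gram7 hC hb2 hb12 hb13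
  have hinv := dot_inv hC
  have hsym := dot_comm_of_sym CE7_sym
  obtain ⟨b2, hb2d⟩ : ∃ b2, b2 = M *ᵥ b := ⟨_, rfl⟩
  obtain ⟨b3, hb3d⟩ : ∃ b3, b3 = M *ᵥ (M *ᵥ b) := ⟨_, rfl⟩
  obtain ⟨x, hx⟩ : ∃ x, x = γ ⬝ᵥ (CE7 *ᵥ b) := ⟨_, rfl⟩
  obtain ⟨y, hy⟩ : ∃ y, y = γ ⬝ᵥ (CE7 *ᵥ b2) := ⟨_, rfl⟩
  obtain ⟨z, hz⟩ : ∃ z, z = γ ⬝ᵥ (CE7 *ᵥ b3) := ⟨_, rfl⟩
  have p1 := perp7 hC hb3 hw
  have p2 : ∀ k, b2 ⬝ᵥ (CE7 *ᵥ (M ^ k *ᵥ w)) = 0 := by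
    refine perp7 hC ?_ hw
    rw [hb2d, ← Matrix.mulVec_neg, ← hb3]
  have p3 : ∀ k, b3 ⬝ᵥ (CE7 *ᵥ (M ^ k *ᵥ w)) = 0 := by
    refine perp7 hC ?_ hw
    rw [hb3d, ← Matrix.mulVec_neg, ← Matrix.mulVec_neg, ← hb3]
  rw [← hb3d] at g3 g4 g5 g6 hb13
  rw [← hb2d] at g1 g2 g3 g5 hb12
  rw [← hb2d] at hb3d
  rw [← hb2d, ← hb3d] at hb3
  rw [← hb2d, ← hb3d]
  have key : (2 : ℤ) • γ - (x • b + y • b2 + z • b3) = 0 := by
    apply perp_zero hC hb2 (by rw [← hb2d]; exact hb12) (by rw [← hb2d, ← hb3d]; exact hb13)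
      (by rw [← hb2d, ← hb3d]; exact hb3) hw0 hw
    · intro k
      simp only [sub_dotProduct, add_dotProduct, smul_dotProduct, h1, p1, p2, p3, smul_eq_mul, mul_zero, add_zero, sub_zero]
    · intro k
      obtain ⟨ε, h | h | h⟩ := pow_b (M := M) (b := b) (by rw [← hb2d, ← hb3d]; exact hb3) k
      · rw [h, Matrix.mulVec_smul, dotProduct_smul]
        simp only [sub_dotProduct, add_dotProduct, smul_dotProduct, ← hx, hb2, g1, g4, smul_eq_mul]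
        ring
      · rw [h, ← hb2d, Matrix.mulVec_smul, dotProduct_smul]
        simp only [sub_dotProduct, add_dotProduct, smul_dotProduct, ← hy, hb12, g2, g5, smul_eq_mul]
        ring
      · rw [h, ← hb2d, ← hb3d, Matrix.mulVec_smul, dotProduct_smul]
        simp only [sub_dotProduct, add_dotProduct, smul_dotProduct, ← hz, hb13, g3, g6, smul_eq_mul]
        ring
  rw [sub_eq_zero] at key
  have hsq : x * x + y * y + z * z = 4 := by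
    have h2 := congrArg (fun v => v ⬝ᵥ (CE7 *ᵥ γ)) key
    simp only [smul_dotProduct, add_dotProduct, hγ, hsym b γ, hsym b2 γ, hsym b3 γ, ← hx, ← hy, ← hz, smul_eq_mul] at h2
    linarith
  have hcan : ∀ u v : Fin 7 → ℤ, (2 : ℤ) • u = (2 : ℤ) • v → u = v := by
    intro u v h
    funext i
    have := congrFun h i
    simp only [Pi.smul_apply, smul_eq_mul] at this
    omega
  have cases := sq4 hsq
  rcases cases with ⟨hx', hy', hz'⟩ | ⟨hx', hy', hz'⟩ | ⟨hx', hy', hz'⟩ | ⟨hx', hy', hz'⟩ | ⟨hx', hy', hz'⟩ | ⟨hx', hy', hz'⟩ <;>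
    rw [hx', hy', hz'] at key
  · exact ⟨1, Or.inl rfl, Or.inl (hcan _ _ (by rw [key]; module))⟩
  · exact ⟨-1, Or.inr rfl, Or.inl (hcan _ _ (by rw [key]; module))⟩
  · exact ⟨1, Or.inl rfl, Or.inr (Or.inl (hcan _ _ (by rw [key]; module)))⟩
  · exact ⟨-1, Or.inr rfl, Or.inr (Or.inl (hcan _ _ (by rw [key]; module)))⟩
  · exact ⟨1, Or.inl rfl, Or.inr (Or.inr (hcan _ _ (by rw [key]; module)))⟩
  · exact ⟨-1, Or.inr rfl, Or.inr (Or.inr (hcan _ _ (by rw [key]; module)))⟩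

end

end Cfsg.Agent.ChevF
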