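import Cfsg.Agent.ChevF.E7T

set_option autoImplicit false

/-!
The Lang step, continued (helper19).
-/

namespace Cfsg.Agent.ChevF

open Cfsg.Lie Cfsg.Agent.Chev Cfsg.Agent.ChevGrp Cfsg.Agent.Steinb Matrix
open Cfsg.Agent.ChevU (SL2Sys)

lemma geom_even (Q k : ℕ) : (Q + 1) ∣ ∑ j ∈ Finset.range (2 * k), Q ^ j := by
  induction k with
  | zero => simp
  | succ k ih =>
    rw [show 2 * (k + 1) = 2 * k + 1 + 1 by ring, Finset.sum_range_succ, Finset.sum_range_succ, add_assoc]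
    refine dvd_add ih ⟨Q ^ (2 * k), ?_⟩
    ring

lemma exists_root {K : Type*} [Field K] [Fintype K] {a m : ℕ} (h : Fintype.card K - 1 = a * m) {y : Kˣ} (hy : y ^ m = 1) :
    ∃ ρ : Kˣ, ρ ^ a = y := by
  classical
  obtain ⟨γ, hγ⟩ := IsCyclic.exists_generator (α := Kˣ)
  obtain ⟨j, rfl⟩ := Subgroup.mem_zpowers_iff.1 (hγ y)
  have hord : orderOf γ = a * m := by
    rw [orderOf_eq_card_of_forall_mem_zpowers hγ, Nat.card_units, Nat.card_eq_fintype_card, h]
  have ham : 0 < a * m := by rw [← h]; have := Fintype.one_lt_card (α := K); omega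
  have hm : (m : ℤ) ≠ 0 := by
    have := Nat.pos_of_mul_pos_left ham
    exact_mod_cast this.ne'
  rw [← zpow_natCast, ← _root_.zpow_mul, ← orderOf_dvd_iff_zpow_eq_one, hord] at hy
  push_cast at hy
  have h1 : (a : ℤ) ∣ j := Int.dvd_of_mul_dvd_mul_right hm hy
  obtain ⟨k, rfl⟩ := h1
  exact ⟨γ ^ k, by rw [← zpow_natCast, ← _root_.zpow_mul, mul_comm]⟩

variable {D : ChevalleyDatum} {F K : Type*} [Field F] [Field K] (E : DData D)

lemma slc_X (a : Kˣ) (t : K) : slc a (SL2Sys.X t) = SL2Sys.X ((a : K) * t) := by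
  apply Subtype.ext
  show slcM a (SL2Sys.X t).1 = (SL2Sys.X ((a : K) * t)).1
  ext i j
  fin_cases i <;> fin_cases j <;> simp [SL2Sys.X, slcM]

lemma glMap_iter {σ : K →+* K} {q : ℕ} (hσ : ∀ t, σ t = t ^ q) (m : ℕ) (y : GL D.Idx K) (i j : D.Idx) :
    (((glMap D.Idx σ)^[m] y : GL D.Idx K) : Matrix D.Idx D.Idx K) i j = (y : Matrix D.Idx D.Idx K) i j ^ q ^ m := by
  induction m with
  | zero => simp
  | succ m ih =>
    rw [Function.iterate_succ_apply', glMap_coe, Matrix.map_apply, ih, hσ, ← pow_mul, pow_succ]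

/-- the Lang step -/
theorem lang_step [Fintype K] (hD : D ∈ data) {σ : K →+* K} {q N : ℕ} (hσ : ∀ t, σ t = t ^ q) (hK : Fintype.card K = q ^ N)
    (hq : 2 ≤ q) (h6 : 6 ∣ N) (hN : 0 < N) {g n : GL D.Idx K} (hg : g ∈ D.group K) (hn : n ∈ (chev E (good_of_mem hD) K).N)
    {u : Equiv.Perm (Fin D.nroots)} (hact : (chev E (good_of_mem hD) K).Act n u) (hgn : g⁻¹ * glMap D.Idx σ g = n)
    {v : Equiv.Perm (Fin D.nroots)} (hv : v ∈ E.rp.wsys.W) (i : Fin D.rank) {b : Fin D.nroots} (hb : v (E.rp.wsys.p i) = b)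
    (hb3 : u (u (u b)) = b)
    (c1 : ∀ A B : SpecialLinearGroup (Fin 2) K, th hD K b A * th hD K (u b) B = th hD K (u b) B * th hD K b A)
    (c2 : ∀ A B : SpecialLinearGroup (Fin 2) K, th hD K b A * th hD K (u (u b)) B = th hD K (u (u b)) B * th hD K b A)
    (c3 : ∀ A B : SpecialLinearGroup (Fin 2) K, th hD K (u b) A * th hD K (u (u b)) B = th hD K (u (u b)) B * th hD K (u b) A) :
    ∃ g' ∈ D.group K, ∃ n' ∈ (chev E (good_of_mem hD) K).N,
      (chev E (good_of_mem hD) K).Act n' (v * E.rp.wsys.w i * v⁻¹ * u) ∧ g'⁻¹ * glMap D.Idx σ g' = n' := by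
  have G := good_of_mem hD
  obtain ⟨ε1, hε1⟩ := N_th E hD hn hact b
  obtain ⟨ε2, hε2⟩ := N_th E hD hn hact (u b)
  obtain ⟨ε3, hε3⟩ := N_th E hD hn hact (u (u b))
  rw [hb3] at hε3
  obtain ⟨τ, hτ⟩ : ∃ τ : K →+* K, τ = σ.comp (σ.comp σ) := ⟨_, rfl⟩
  obtain ⟨Q, hQ⟩ : ∃ Q, Q = q ^ 3 := ⟨_, rfl⟩
  have hτQ : ∀ t, τ t = t ^ Q := by
    intro t
    rw [hτ, RingHom.comp_apply, RingHom.comp_apply, hσ, hσ, hσ, ← pow_mul, ← pow_mul, hQ]
    congr 1; ring
  have hmapτ : ∀ A : SpecialLinearGroup (Fin 2) K, SpecialLinearGroup.map σ (SpecialLinearGroup.map σ (SpecialLinearGroup.map σ A)) =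
      SpecialLinearGroup.map τ A := by
    intro A
    rw [hτ]; rfl
  obtain ⟨ε, hε⟩ : ∃ ε : Kˣ, ε = ε3 * Units.map (σ : K →* K) (ε2 * Units.map (σ : K →* K) ε1) := ⟨_, rfl⟩
  -- the twisted Frobenius map
  obtain ⟨Φ, hΦ⟩ : ∃ Φ : GL D.Idx K → GL D.Idx K, ∀ y, Φ y = n * glMap D.Idx σ y * n⁻¹ := ⟨_, fun _ => rfl⟩
  have hΦ1 : ∀ A, Φ (th hD K b A) = th hD K (u b) (slc ε1 (SpecialLinearGroup.map σ A)) := by
    intro A; rw [hΦ, th_map, hε1]
  have hΦ2 : ∀ A, Φ (th hD K (u b) A) = th hD K (u (u b)) (slc ε2 (SpecialLinearGroup.map σ A)) := by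
    intro A; rw [hΦ, th_map, hε2]
  have hΦ3 : ∀ A, Φ (th hD K (u (u b)) A) = th hD K b (slc ε3 (SpecialLinearGroup.map σ A)) := by
    intro A; rw [hΦ, th_map, hε3]
  have hslc3 : ∀ A, slc ε3 (SpecialLinearGroup.map σ (slc ε2 (SpecialLinearGroup.map σ (slc ε1 (SpecialLinearGroup.map σ A))))) =
      slc ε (SpecialLinearGroup.map τ A) := by
    intro A
    rw [map_slc σ ε1, slc_slc, map_slc, slc_slc, hmapτ, hε]
  have hΦτ : ∀ A, Φ (Φ (Φ (th hD K b A))) = th hD K b (slc ε (SpecialLinearGroup.map τ A)) := by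
    intro A
    rw [hΦ1, hΦ2, hΦ3, hslc3]
  -- the norm of `ε`
  obtain ⟨k, hk⟩ : ∃ k, N = 3 * (2 * k) := by
    obtain ⟨k, hk⟩ := h6
    exact ⟨k, by rw [hk]; ring⟩
  obtain ⟨m, hm⟩ : ∃ m, m = ∑ j ∈ Finset.range (2 * k), Q ^ j := ⟨_, rfl⟩
  have hnorm : ε ^ m = 1 := by
    have h1 : ∀ j : ℕ, Φ^[3 * j] (th hD K b (SL2Sys.X 1)) = th hD K b (SL2Sys.X ((ε : K) ^ (∑ i ∈ Finset.range j, Q ^ i))) := by
      intro j
      induction j with
      | zero => simp
      | succ j ih =>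
        rw [show 3 * (j + 1) = 3 + 3 * j by ring, Function.iterate_add_apply, ih]
        show Φ (Φ (Φ _)) = _
        rw [hΦτ, sl_map_X, slc_X, hτQ, ← pow_mul, Finset.sum_range_succ', pow_zero, pow_succ, mul_comm]
        congr 5
        rw [Finset.sum_mul]
        exact Finset.sum_congr rfl fun i _ => (pow_succ _ _).symm
    have h2 : ∀ (j : ℕ) (y : GL D.Idx K), Φ^[j] (g⁻¹ * y * g) = g⁻¹ * (glMap D.Idx σ)^[j] y * g := by
      intro j
      induction j with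
      | zero => intro y; rfl
      | succ j ih =>
        intro y
        rw [Function.iterate_succ_apply', ih, Function.iterate_succ_apply', hΦ, ← hgn, map_mul, map_mul, map_inv]
        group
    have h3 : ∀ y : GL D.Idx K, (glMap D.Idx σ)^[N] y = y := by
      intro y
      apply Units.ext
      ext i j
      rw [glMap_iter hσ, ← hK, FiniteField.pow_card]
    have h4 : ∀ y : GL D.Idx K, Φ^[N] y = y := by
      intro y
      have := h2 N (g * y * g⁻¹)
      rw [h3] at this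
      have e : g⁻¹ * (g * y * g⁻¹) * g = y := by group
      rwa [e] at this
    have h5 := h1 (2 * k)
    rw [← hk, h4, ← hm, th_X, th_X] at h5
    have h6 := xU_inj G b.2 h5
    apply Units.ext
    rw [Units.val_pow_eq_pow_val, ← h6, Units.val_one]
  -- the field element
  have hQ1 : 1 ≤ Q := by rw [hQ]; exact Nat.one_le_pow _ _ (by omega)
  have hcardm : Fintype.card K - 1 = (Q - 1) * m := by
    have h1 := Nat.geomSum_eq (m := Q) (by rw [hQ]; calc 2 ≤ q := hq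
      _ ≤ q ^ 3 := Nat.le_self_pow (by norm_num) q) (2 * k)
    have h2 : q ^ N = Q ^ (2 * k) := by rw [hQ, ← pow_mul, hk]
    have hdvd : Q - 1 ∣ Q ^ (2 * k) - 1 := by
      have := Nat.sub_dvd_pow_sub_pow Q 1 (2 * k)
      rwa [one_pow] at this
    rw [hK, h2, hm, h1, Nat.mul_div_cancel' hdvd]
  have hQm : (Q + 1) ∣ m := by rw [hm]; exact geom_even Q k
  obtain ⟨ω, hω1, hωQ⟩ : ∃ ω : Kˣ, ω ≠ 1 ∧ ω ^ (Q + 1) = 1 := by
    classical
    obtain ⟨γ, hγ⟩ := IsCyclic.exists_generator (α := Kˣ)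
    obtain ⟨m', hm'⟩ := hQm
    have hord : orderOf γ = (Q + 1) * ((Q - 1) * m') := by
      rw [orderOf_eq_card_of_forall_mem_zpowers hγ, Nat.card_units, Nat.card_eq_fintype_card, hcardm, hm']; ring
    have hpos : 0 < (Q + 1) * ((Q - 1) * m') := by
      have h1 := Fintype.one_lt_card (α := K)
      have h2 : (Q + 1) * ((Q - 1) * m') = Fintype.card K - 1 := by rw [hcardm, hm']; ring
      omega
    have hpos' : 0 < (Q - 1) * m' := Nat.pos_of_mul_pos_left hpos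
    refine ⟨γ ^ ((Q - 1) * m'), ?_, ?_⟩
    · intro h0
      have h1 := orderOf_dvd_of_pow_eq_one h0
      rw [hord] at h1
      have h2 := Nat.le_of_dvd hpos' h1
      nlinarith
    · rw [← pow_mul, mul_comm, ← hord]; exact pow_orderOf_eq_one γ
  have hωm : (ω * ε⁻¹) ^ m = 1 := by
    obtain ⟨m', hm'⟩ := hQm
    rw [mul_pow, inv_pow, hnorm, inv_one, mul_one, hm', pow_mul, hωQ, one_pow]
  obtain ⟨ρ, hρ⟩ := exists_root hcardm hωm
  have hρ1 : (ω : K) * ρ = ε * τ ρ := by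
    have h1 : ε * ρ ^ Q = ω * ρ := by
      have : ρ ^ Q = ρ ^ (Q - 1) * ρ := by rw [← pow_succ, Nat.sub_add_cancel hQ1]
      rw [this, hρ, ← mul_assoc, mul_left_comm, ← mul_assoc, mul_inv_cancel_right]
    have := congrArg Units.val h1
    rw [Units.val_mul, Units.val_mul, Units.val_pow_eq_pow_val] at this
    rw [hτQ, this]
  have hω2 : (ω : K) * τ ω = 1 := by
    have := congrArg Units.val hωQ
    rw [Units.val_pow_eq_pow_val, pow_succ', Units.val_one] at this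
    rw [hτQ, this]
  obtain ⟨A, x, hAx⟩ := sl_lang τ hρ1 hω2 hω1
  -- the element
  obtain ⟨A1, hA1⟩ : ∃ A1, A1 = slc ε1 (SpecialLinearGroup.map σ A) := ⟨_, rfl⟩
  obtain ⟨A2, hA2⟩ : ∃ A2, A2 = slc ε2 (SpecialLinearGroup.map σ A1) := ⟨_, rfl⟩
  have hA3 : slc ε3 (SpecialLinearGroup.map σ A2) = A * wx x := by
    rw [hA2, hA1, hslc3, hAx]
  obtain ⟨h, hh⟩ : ∃ h, h = th hD K b A * th hD K (u b) A1 * th hD K (u (u b)) A2 := ⟨_, rfl⟩
  have hhG : h ∈ D.group K := by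
    rw [hh]; exact mul_mem (mul_mem (th_mem hD _ _) (th_mem hD _ _)) (th_mem hD _ _)
  have hΦh : Φ h = th hD K (u b) A1 * th hD K (u (u b)) A2 * th hD K b (A * wx x) := by
    have e1 : Φ h = Φ (th hD K b A) * Φ (th hD K (u b) A1) * Φ (th hD K (u (u b)) A2) := by
      rw [hh, hΦ, hΦ, hΦ, hΦ, map_mul, map_mul]; group
    rw [e1, hΦ1, hΦ2, hΦ3, ← hA1, ← hA2, hA3]
  obtain ⟨t1, t2⟩ := th_wx (K := K) E hD hv i x
  rw [hb] at t1 t2
  refine ⟨g * h, mul_mem hg hhG, th hD K b (wx x) * n, mul_mem t1 hn, t2.mul hact, ?_⟩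
  have e2 : h⁻¹ * Φ h = th hD K b (wx x) := by
    have e3 : Φ h = h * th hD K b (wx x) := by
      rw [hΦh, hh, map_mul]
      calc th hD K (u b) A1 * th hD K (u (u b)) A2 * (th hD K b A * th hD K b (wx x))
          = th hD K (u b) A1 * (th hD K (u (u b)) A2 * th hD K b A) * th hD K b (wx x) := by group
        _ = th hD K (u b) A1 * (th hD K b A * th hD K (u (u b)) A2) * th hD K b (wx x) := by rw [c2]
        _ = (th hD K (u b) A1 * th hD K b A) * th hD K (u (u b)) A2 * th hD K b (wx x) := by group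
        _ = _ := by rw [← c1 A A1]
    rw [e3]; group
  rw [hΦ] at e2
  rw [map_mul, ← e2]
  have e4 : (g * h)⁻¹ * (glMap D.Idx σ g * glMap D.Idx σ h) = h⁻¹ * (g⁻¹ * glMap D.Idx σ g) * glMap D.Idx σ h := by group
  rw [e4, hgn]; group

end Cfsg.Agent.ChevF
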