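import Cfsg.Agent.ChevF.E7M
import Cfsg.Agent.ChevF.E7S

set_option autoImplicit false

/-!
Cyclicity of the torus of type E7 (helper19).
-/

namespace Cfsg.Agent.ChevF

open Cfsg.Lie Cfsg.Agent.Chev Cfsg.Agent.ChevGrp Cfsg.Agent.Steinb Matrix Polynomial

section mod3

/-- reduction modulo 3 -/
def rv3 (x : Fin 7 → ℤ) : Fin 7 → ZMod 3 := fun i => (x i : ZMod 3)

/-- reduction modulo 3 -/
def rm3 (A : Matrix (Fin 7) (Fin 7) ℤ) : Matrix (Fin 7) (Fin 7) (ZMod 3) := A.map (Int.castRingHom (ZMod 3))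

lemma rm3_mulVec (A : Matrix (Fin 7) (Fin 7) ℤ) (x : Fin 7 → ℤ) : rm3 A *ᵥ rv3 x = rv3 (A *ᵥ x) := by
  funext i
  simp only [rm3, rv3, mulVec, dotProduct, Matrix.map_apply, eq_intCast]
  push_cast
  rfl

lemma rv3_dot (x y : Fin 7 → ℤ) : rv3 x ⬝ᵥ rv3 y = ((x ⬝ᵥ y : ℤ) : ZMod 3) := by
  simp only [rv3, dotProduct]; push_cast; rfl

lemma rv3_surj (x : Fin 7 → ZMod 3) : ∃ y, rv3 y = x :=
  ⟨fun i => ((x i).val : ℤ), funext fun i => by simp [rv3]⟩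

lemma rv3_add (x y : Fin 7 → ℤ) : rv3 (x + y) = rv3 x + rv3 y := by funext i; simp [rv3]
lemma rv3_sub (x y : Fin 7 → ℤ) : rv3 (x - y) = rv3 x - rv3 y := by funext i; simp [rv3]
lemma rv3_smul (c : ℤ) (x : Fin 7 → ℤ) : rv3 (c • x) = (c : ZMod 3) • rv3 x := by funext i; simp [rv3]

variable {M : Matrix (Fin 7) (Fin 7) ℤ} {b w : Fin 7 → ℤ}
  (hC : Mᵀ * CE7 * M = CE7) (hb2 : b ⬝ᵥ (CE7 *ᵥ b) = 2) (hb12 : b ⬝ᵥ (CE7 *ᵥ (M *ᵥ b)) = 0)
    (hb13 : b ⬝ᵥ (CE7 *ᵥ (M *ᵥ (M *ᵥ b))) = 0) (hb3 : M *ᵥ (M *ᵥ (M *ᵥ b)) = -b)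
    (hw0 : w ≠ 0) (hw : (aeval M (cyclotomic 12 ℤ)) *ᵥ w = 0)

include hC hb2 hb12 hb13 hb3 hw0 hw

/-- vectors orthogonal to the three roots are in the primitive part -/
lemma prim_of_perp {δ : Fin 7 → ℤ} (h : ∀ k : ℕ, δ ⬝ᵥ (CE7 *ᵥ (M ^ k *ᵥ b)) = 0) :
    (M ^ 4 - M ^ 2 + 1) *ᵥ δ = 0 := by
  have hinv := dot_inv hC
  have hsym := dot_comm_of_sym CE7_sym
  have hcp := charpoly7 hC hb2 hb12 hb13 hb3 hw0 hw
  have hCH : (M ^ 3 + 1) * (M ^ 4 - M ^ 2 + 1) = 0 := by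
    have h1 := Matrix.aeval_self_charpoly M
    rw [hcp, mul_comm, cyc12] at h1
    unfold R3 at h1
    simpa using h1
  obtain ⟨z, hz⟩ : ∃ z, z = (M ^ 4 - M ^ 2 + 1) *ᵥ δ := ⟨_, rfl⟩
  rw [← hz]
  have hz3 : M *ᵥ (M *ᵥ (M *ᵥ z)) = -z := by
    have h1 : (M ^ 3 + 1) *ᵥ z = 0 := by rw [hz, Matrix.mulVec_mulVec, hCH, Matrix.zero_mulVec]
    rw [Matrix.add_mulVec, Matrix.one_mulVec] at h1
    rw [← eq_neg_of_add_eq_zero_left h1]
    simp only [Matrix.mulVec_mulVec]; congr 1; noncomm_ring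
  have hb6 : ∀ k : ℕ, M ^ (k + 6) *ᵥ b = M ^ k *ᵥ b := by
    intro k
    have e0 : M ^ 3 = M * (M * M) := by noncomm_ring
    have e1 : M ^ 3 *ᵥ b = -b := by
      rw [← hb3, e0, ← Matrix.mulVec_mulVec, ← Matrix.mulVec_mulVec]
    rw [pow_add, ← Matrix.mulVec_mulVec]
    have e2 : M ^ 6 *ᵥ b = b := by
      rw [show (6 : ℕ) = 3 + 3 by norm_num, pow_add, ← Matrix.mulVec_mulVec, e1, Matrix.mulVec_neg, e1, _root_.neg_neg]
    rw [e2]
  have hinvk : ∀ (j : ℕ) (x y : Fin 7 → ℤ), (M ^ j *ᵥ x) ⬝ᵥ (CE7 *ᵥ (M ^ j *ᵥ y)) = x ⬝ᵥ (CE7 *ᵥ y) := by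
    intro j
    induction j with
    | zero => intro x y; rw [pow_zero, Matrix.one_mulVec, Matrix.one_mulVec]
    | succ j ih =>
      intro x y
      rw [pow_succ', ← Matrix.mulVec_mulVec, ← Matrix.mulVec_mulVec, hinv, ih]
  apply perp_zero hC hb2 hb12 hb13 hb3 hw0 hw
  · intro k
    exact perp7 hC hz3 hw k
  · intro k
    have e1 : (M ^ 4 *ᵥ δ) ⬝ᵥ (CE7 *ᵥ (M ^ k *ᵥ b)) = 0 := by
      rw [← hb6, show k + 6 = 4 + (k + 2) by ring, pow_add M 4, ← Matrix.mulVec_mulVec, hinvk, h]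
    have e2 : (M ^ 2 *ᵥ δ) ⬝ᵥ (CE7 *ᵥ (M ^ k *ᵥ b)) = 0 := by
      rw [← hb6, show k + 6 = 2 + (k + 4) by ring, pow_add M 2, ← Matrix.mulVec_mulVec, hinvk, h]
    rw [hz, Matrix.add_mulVec, Matrix.sub_mulVec, Matrix.one_mulVec, add_dotProduct, sub_dotProduct, e1, e2, h]
    ring

/-- the primitive part of twice a vector -/
lemma two_prim (y : Fin 7 → ℤ) : (2 : ℤ) • ((M ^ 4 - M ^ 2 + 1) *ᵥ y) =
    (y ⬝ᵥ (CE7 *ᵥ b)) • ((M ^ 4 - M ^ 2 + 1) *ᵥ b) + (y ⬝ᵥ (CE7 *ᵥ (M *ᵥ b))) • ((M ^ 4 - M ^ 2 + 1) *ᵥ (M *ᵥ b)) +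
      (y ⬝ᵥ (CE7 *ᵥ (M *ᵥ (M *ᵥ b)))) • ((M ^ 4 - M ^ 2 + 1) *ᵥ (M *ᵥ (M *ᵥ b))) := by
  obtain ⟨g1, g2, g3, g4, g5, g6⟩ := gram7 hC hb2 hb12 hb13
  have key := prim_of_perp hC hb2 hb12 hb13 hb3 hw0 hw (δ := (2 : ℤ) • y - ((y ⬝ᵥ (CE7 *ᵥ b)) • b +
    (y ⬝ᵥ (CE7 *ᵥ (M *ᵥ b))) • (M *ᵥ b) + (y ⬝ᵥ (CE7 *ᵥ (M *ᵥ (M *ᵥ b)))) • (M *ᵥ (M *ᵥ b)))) (by
      intro k
      obtain ⟨ε, h | h | h⟩ := pow_b hb3 k
      · rw [h, Matrix.mulVec_smul, dotProduct_smul]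
        simp only [sub_dotProduct, add_dotProduct, smul_dotProduct, hb2, g1, g4, smul_eq_mul]
        ring
      · rw [h, Matrix.mulVec_smul, dotProduct_smul]
        simp only [sub_dotProduct, add_dotProduct, smul_dotProduct, hb12, g2, g5, smul_eq_mul]
        ring
      · rw [h, Matrix.mulVec_smul, dotProduct_smul]
        simp only [sub_dotProduct, add_dotProduct, smul_dotProduct, hb13, g3, g6, smul_eq_mul]
        ring)
  rw [Matrix.mulVec_sub, Matrix.mulVec_smul, Matrix.mulVec_add, Matrix.mulVec_add, Matrix.mulVec_smul, Matrix.mulVec_smul,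
    Matrix.mulVec_smul, sub_eq_zero] at key
  exact key

/-- the eigenspace modulo 3 -/
theorem finrank3 {N : Matrix (Fin 7) (Fin 7) ℤ} (hMN : M * N = 1) {q : ℤ} (hq : (q : ZMod 3) = -1) :
    Module.finrank (ZMod 3) (LinearMap.ker (Matrix.toLin' ((q • (1 : Matrix (Fin 7) (Fin 7) ℤ) - Nᵀ).map
      (Int.castRingHom (ZMod 3))).transpose)) ≤ 1 := by
  have hinv := dot_inv hC
  have hmem : ∀ x : Fin 7 → ZMod 3, x ∈ LinearMap.ker (Matrix.toLin' ((q • (1 : Matrix (Fin 7) (Fin 7) ℤ) - Nᵀ).map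
      (Int.castRingHom (ZMod 3))).transpose) → rm3 N *ᵥ x = -x := by
    intro x hx
    have h1 : ((q • (1 : Matrix (Fin 7) (Fin 7) ℤ) - Nᵀ).map (Int.castRingHom (ZMod 3))).transpose =
        (-1 : ZMod 3) • (1 : Matrix (Fin 7) (Fin 7) (ZMod 3)) - rm3 N := by
      ext i j
      simp only [rm3, Matrix.transpose_apply, Matrix.map_apply, Matrix.sub_apply, Matrix.smul_apply, Matrix.one_apply,
        smul_eq_mul, map_sub, map_mul, eq_intCast, hq]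
      by_cases hij : i = j
      · simp [hij]
      · rw [if_neg hij, if_neg (Ne.symm hij)]; simp
    rw [LinearMap.mem_ker, Matrix.toLin'_apply, h1, Matrix.sub_mulVec, Matrix.smul_mulVec, Matrix.one_mulVec, sub_eq_zero,
      neg_one_smul] at hx
    exact hx.symm
  let g : (LinearMap.ker (Matrix.toLin' ((q • (1 : Matrix (Fin 7) (Fin 7) ℤ) - Nᵀ).map
      (Int.castRingHom (ZMod 3))).transpose)) →ₗ[ZMod 3] ZMod 3 :=
    { toFun := fun x => (x : Fin 7 → ZMod 3) ⬝ᵥ rv3 (CE7 *ᵥ b)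
      map_add' := fun x y => by
        show ((x : Fin 7 → ZMod 3) + (y : Fin 7 → ZMod 3)) ⬝ᵥ rv3 (CE7 *ᵥ b) = _
        rw [add_dotProduct]
      map_smul' := fun c x => by
        show (c • (x : Fin 7 → ZMod 3)) ⬝ᵥ rv3 (CE7 *ᵥ b) = _
        rw [smul_dotProduct]; rfl }
  have hg : Function.Injective g := by
    rw [← LinearMap.ker_eq_bot, LinearMap.ker_eq_bot']
    rintro ⟨x, hx⟩ h0
    have h0' : x ⬝ᵥ rv3 (CE7 *ᵥ b) = 0 := h0
    apply Subtype.ext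
    show x = 0
    have h1 := hmem x hx
    obtain ⟨y, rfl⟩ := rv3_surj x
    rw [rm3_mulVec] at h1
    have h2 : rv3 (M *ᵥ y) = -rv3 y := by
      have e1 : rv3 y = rm3 M *ᵥ rv3 (N *ᵥ y) := by
        rw [rm3_mulVec, Matrix.mulVec_mulVec, hMN, Matrix.one_mulVec]
      rw [h1, Matrix.mulVec_neg, rm3_mulVec] at e1
      rw [e1, _root_.neg_neg]
    have hpow : ∀ k : ℕ, rv3 (M ^ k *ᵥ y) = (-1 : ZMod 3) ^ k • rv3 y := by
      intro k
      induction k with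
      | zero => rw [pow_zero, pow_zero, Matrix.one_mulVec, one_smul]
      | succ k ih =>
        rw [pow_succ', ← Matrix.mulVec_mulVec, ← rm3_mulVec, ih, Matrix.mulVec_smul, rm3_mulVec, h2, pow_succ, mul_smul,
          neg_one_smul]
    have h3 : rv3 ((M ^ 4 - M ^ 2 + 1) *ᵥ y) = rv3 y := by
      rw [Matrix.add_mulVec, Matrix.sub_mulVec, Matrix.one_mulVec, rv3_add, rv3_sub, hpow, hpow]
      have e1 : (-1 : ZMod 3) ^ 4 = 1 := by norm_num
      have e2 : (-1 : ZMod 3) ^ 2 = 1 := by norm_num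
      rw [e1, e2, sub_self, zero_add]
    have d1 : ((y ⬝ᵥ (CE7 *ᵥ b) : ℤ) : ZMod 3) = 0 := by rw [← rv3_dot]; exact h0'
    have hN : ∀ x z : Fin 7 → ℤ, x ⬝ᵥ (CE7 *ᵥ (M *ᵥ z)) = (N *ᵥ x) ⬝ᵥ (CE7 *ᵥ z) := by
      intro x z
      have := hinv (N *ᵥ x) z
      rw [Matrix.mulVec_mulVec, hMN, Matrix.one_mulVec] at this
      exact this
    have d2 : ((y ⬝ᵥ (CE7 *ᵥ (M *ᵥ b)) : ℤ) : ZMod 3) = 0 := by
      rw [hN, ← rv3_dot, h1, neg_dotProduct, h0', neg_zero]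
    have d3 : ((y ⬝ᵥ (CE7 *ᵥ (M *ᵥ (M *ᵥ b))) : ℤ) : ZMod 3) = 0 := by
      rw [hN, hN, ← rv3_dot, ← rm3_mulVec, h1, Matrix.mulVec_neg, rm3_mulVec, h1, _root_.neg_neg, h0']
    have h4 := congrArg rv3 (two_prim hC hb2 hb12 hb13 hb3 hw0 hw y)
    rw [rv3_smul, rv3_add, rv3_add, rv3_smul, rv3_smul, rv3_smul, d1, d2, d3, zero_smul, zero_smul, zero_smul, add_zero,
      add_zero, h3] at h4
    rcases smul_eq_zero.1 h4 with h5 | h5
    · exfalso; revert h5; decide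
    · exact h5
  have := LinearMap.finrank_le_finrank_of_injective hg
  rwa [Module.finrank_self] at this

end mod3

section two

variable {l : ℕ}

/-- the eigenvalues of a matrix with simple roots of the characteristic polynomial -/
theorem finrank_ker_le2 {M : Matrix (Fin l) (Fin l) ℤ} {P : ℤ[X]} (hM : M.charpoly = P) {ℓ : ℕ} [hℓ : Fact ℓ.Prime] (q : ℤ)
    (hr : (P.map (Int.castRingHom (ZMod ℓ))).rootMultiplicity (q : ZMod ℓ) ≤ 1) :
    Module.finrank (ZMod ℓ) (LinearMap.ker (Matrix.toLin' ((q • (1 : Matrix (Fin l) (Fin l) ℤ) - M).map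
      (Int.castRingHom (ZMod ℓ))).transpose)) ≤ 1 := by
  set Mr := M.map (Int.castRingHom (ZMod ℓ)) with hMr
  have h1 : ((q • (1 : Matrix (Fin l) (Fin l) ℤ) - M).map (Int.castRingHom (ZMod ℓ))).transpose =
      (q : ZMod ℓ) • (1 : Matrix (Fin l) (Fin l) (ZMod ℓ)) - Mr.transpose := by
    ext i j
    simp only [hMr, Matrix.transpose_apply, Matrix.map_apply, Matrix.sub_apply, Matrix.smul_apply, Matrix.one_apply,
      smul_eq_mul, map_sub, map_mul, eq_intCast]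
    by_cases hij : i = j
    · simp [hij]
    · rw [if_neg hij, if_neg (Ne.symm hij)]; simp
  have h2 : LinearMap.ker (Matrix.toLin' ((q • (1 : Matrix (Fin l) (Fin l) ℤ) - M).map
      (Int.castRingHom (ZMod ℓ))).transpose) = Module.End.eigenspace (Matrix.toLin' Mr.transpose) (q : ZMod ℓ) := by
    ext z
    rw [h1, LinearMap.mem_ker, Module.End.mem_eigenspace_iff, Matrix.toLin'_apply, Matrix.toLin'_apply, Matrix.sub_mulVec,
      Matrix.smul_mulVec, Matrix.one_mulVec, sub_eq_zero, eq_comm]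
  rw [h2]
  refine (LinearMap.finrank_eigenspace_le _ _).trans ?_
  have h3 : (Matrix.toLin' Mr.transpose).charpoly = P.map (Int.castRingHom (ZMod ℓ)) := by
    rw [Matrix.charpoly_toLin', Matrix.charpoly_transpose, hMr, Matrix.charpoly_map, hM]
  rw [h3]
  exact hr

lemma mult_two : ((cyclotomic 12 ℤ * R3 ℤ).map (Int.castRingHom (ZMod 2))).rootMultiplicity 1 ≤ 1 := by
  have h0 : (cyclotomic 12 ℤ * R3 ℤ).map (Int.castRingHom (ZMod 2)) = (X ^ 4 - X ^ 2 + 1) * (X ^ 3 + 1) := by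
    rw [cyc12]; unfold R3; simp
  rw [h0]
  by_contra hcon
  push Not at hcon
  have hne : ((X ^ 4 - X ^ 2 + 1) * (X ^ 3 + 1) : (ZMod 2)[X]) ≠ 0 := by
    rw [← h0]
    exact (((cyclotomic.monic 12 ℤ).mul (R3_monic ℤ)).map _).ne_zero
  have := ((Polynomial.one_lt_rootMultiplicity_iff_isRoot hne).1 hcon).2
  rw [Polynomial.IsRoot.def] at this
  simp [derivative_mul] at this
  revert this
  decide

end two

section comm7

variable {K : Type*} [Field K] (E : DData chevE7)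

lemma rv7_neg (s : Fin chevE7.nroots) : rv7 (E.rp.neg s) = - rv7 s := by
  funext j
  show vec chevE7 (E.rp.neg s : Fin chevE7.nroots) j = - vec chevE7 s j
  rw [E.hneg, G7.neg_eq s s.2]
  exact G7.vec_neg' j j.2 s s.2

include E in
/-- the subgroups `SL₂` of orthogonal roots commute -/
theorem th_comm7 {r s : Fin chevE7.nroots} (h : rv7 r ⬝ᵥ (CE7 *ᵥ rv7 s) = 0) (A B : SpecialLinearGroup (Fin 2) K) :
    th hE7 K r A * th hE7 K s B = th hE7 K s B * th hE7 K r A := by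
  have key : ∀ r s : Fin chevE7.nroots, rv7 r ⬝ᵥ (CE7 *ᵥ rv7 s) = 0 → ∀ t u : K,
      xU (good_of_mem hE7).toGood2 r t * xU (good_of_mem hE7).toGood2 s u =
        xU (good_of_mem hE7).toGood2 s u * xU (good_of_mem hE7).toGood2 r t := by
    intro r s h t u
    have h1 : (s : ℕ) ≠ r := by
      intro h0
      have : s = r := Fin.ext h0
      rw [this, norm7 E] at h
      norm_num at h
    have h2 : (s : ℕ) ≠ chevE7.neg r := by
      intro h0
      have : s = E.rp.neg r := Fin.ext (by rw [E.hneg]; exact h0)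
      rw [this, rv7_neg, Matrix.mulVec_neg, dotProduct_neg, norm7 E] at h
      norm_num at h
    have h3 : chevE7.commTerms r s = [] := by
      rcases Mult.slData_E7.sl.terms r s with ⟨-, h3⟩ | ⟨k, m, -, h3, -⟩
      · exact h3
      · exfalso
        have h4 := (G7.pairOK r.2 s.2 h1 h2).chain ((k, m), 0) (by rw [h3]; simp)
        have hk : k < chevE7.nroots := (G7.item r s (k, m) (by rw [h3]; simp)).1
        have h5 : rv7 ⟨k, hk⟩ = rv7 s + rv7 r := by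
          funext j
          have h6 := h4.2 j j.2
          show vec chevE7 k j = vec chevE7 s j + vec chevE7 r j
          have h7 : vec chevE7 k j = vec chevE7 s j + (((0 : ℕ) : ℤ) + 1) * vec chevE7 r j := h6
          rw [h7]; push_cast; ring
        have h6 := norm7 E ⟨k, hk⟩
        have hsym := dot_comm_of_sym CE7_sym
        rw [h5, Matrix.mulVec_add, add_dotProduct, dotProduct_add, dotProduct_add, norm7 E, norm7 E, hsym (rv7 s), h] at h6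
        norm_num at h6
    exact congrArg Subtype.val (ChevTw.xG_comm (good_of_mem hE7) r.2 s.2 h1 h2 h3 t u)
  apply th_comm
  intro x hx y hy t u
  have hx' : ∃ r' : Fin chevE7.nroots, x = r' ∧ (rv7 r' = rv7 r ∨ rv7 r' = - rv7 r) := by
    rcases hx with h | h
    · exact ⟨r, h, Or.inl rfl⟩
    · exact ⟨E.rp.neg r, by rw [h, E.hneg], Or.inr (rv7_neg E r)⟩
  have hy' : ∃ s' : Fin chevE7.nroots, y = s' ∧ (rv7 s' = rv7 s ∨ rv7 s' = - rv7 s) := by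
    rcases hy with h | h
    · exact ⟨s, h, Or.inl rfl⟩
    · exact ⟨E.rp.neg s, by rw [h, E.hneg], Or.inr (rv7_neg E s)⟩
  obtain ⟨r', rfl, hr'⟩ := hx'
  obtain ⟨s', rfl, hs'⟩ := hy'
  apply key
  rcases hr' with hr' | hr' <;> rcases hs' with hs' | hs' <;> rw [hr', hs'] <;>
    simp only [Matrix.mulVec_neg, dotProduct_neg, neg_dotProduct, h, neg_zero]

end comm7

end Cfsg.Agent.ChevF
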