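import Cfsg.Agent.ChevF.E7N

set_option autoImplicit false

/-!
Stabilizers in the Weyl group of type E7 (helper19).
-/

namespace Cfsg.Agent.ChevF

open Cfsg.Lie Cfsg.Agent.Chev Cfsg.Agent.ChevGrp Cfsg.Agent.Steinb Matrix Polynomial

lemma arith7 {q : ℕ} (hq : 2 ≤ q) {j : ℕ} (hj : j < 3) {ε : ℤ} (hε : ε = 1 ∨ ε = -1)
    (h : ((q : ℤ) ^ 3 + 1) ∣ 2 - 2 * (ε * (q : ℤ) ^ j)) : j = 0 ∧ ε = 1 := by
  have hq' : (2 : ℤ) ≤ q := by exact_mod_cast hq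
  have e3 : (q : ℤ) ^ 3 = q * (q * q) := by ring
  have e4 : (q : ℤ) ^ 2 = q * q := by ring
  have h4 : (4 : ℤ) ≤ q * q := by nlinarith
  have h5 : 2 * ((q : ℤ) * q) ≤ q * (q * q) := by nlinarith
  have key : ∀ x : ℤ, 0 < x → x < (q : ℤ) ^ 3 + 1 → ¬ ((q : ℤ) ^ 3 + 1) ∣ x := by
    intro x hx hx' hd
    have := Int.le_of_dvd hx hd
    omega
  interval_cases j
  · rcases hε with rfl | rfl
    · exact ⟨rfl, rfl⟩
    · exfalso
      refine key 4 (by norm_num) (by rw [e3]; omega) ?_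
      rw [pow_zero] at h
      have e : (4 : ℤ) = 2 - 2 * (-1 * 1) := by norm_num
      rw [e]; exact h
  · exfalso
    rw [pow_one] at h
    rcases hε with rfl | rfl
    · refine key (2 * q - 2) (by omega) (by rw [e3]; nlinarith) ?_
      have e : (2 * q - 2 : ℤ) = -(2 - 2 * (1 * q)) := by ring
      rw [e]; exact (dvd_neg).2 h
    · refine key (2 * q + 2) (by omega) (by rw [e3]; nlinarith) ?_
      have e : (2 * q + 2 : ℤ) = (2 - 2 * (-1 * q)) := by ring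
      rw [e]; exact h
  · exfalso
    rcases hε with rfl | rfl
    · refine key (2 * (q : ℤ) ^ 2 - 2) (by rw [e4]; omega) (by rw [e3, e4]; omega) ?_
      have e : (2 * (q : ℤ) ^ 2 - 2 : ℤ) = -(2 - 2 * (1 * (q : ℤ) ^ 2)) := by ring
      rw [e]; exact (dvd_neg).2 h
    · rcases Nat.lt_or_ge 2 q with h6 | h6
      · have hq3 : (3 : ℤ) ≤ q := by exact_mod_cast h6
        have h7 : 3 * ((q : ℤ) * q) ≤ q * (q * q) := by nlinarith
        refine key (2 * (q : ℤ) ^ 2 + 2) (by rw [e4]; omega) (by rw [e3, e4]; omega) ?_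
        have e : (2 * (q : ℤ) ^ 2 + 2 : ℤ) = (2 - 2 * (-1 * (q : ℤ) ^ 2)) := by ring
        rw [e]; exact h
      · have : q = 2 := by omega
        subst this
        revert h
        norm_num

variable (E : DData chevE7)

/-- reflections in the kernel of a torus element stabilize it -/
lemma refl_stab7 {K : Type*} [Field K] {t : GL chevE7.Idx K} (ht : t ∈ chevE7.diagonalSubgroup K) {s : Fin chevE7.nroots}
    (hs : ev t s = 1) {w : Equiv.Perm (Fin chevE7.nroots)} (hw : w ∈ E.rp.wsys.W)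
    (h : ∀ x : Fin 7 → ℤ, wm7 E w *ᵥ x = x - (rv7 s ⬝ᵥ (CE7 *ᵥ x)) • rv7 s) (x : Fin chevE7.nroots) : ev t (w x) = ev t x := by
  have h1 : ev t (w x) = ev t x ^ (1 : ℤ) * ev t s ^ (-(rv7 s ⬝ᵥ (CE7 *ᵥ rv7 x))) := by
    apply ev_lin hE7 ht
    intro j hj
    have h2 : rv7 (w x) ⟨j, hj⟩ = rv7 x ⟨j, hj⟩ - (rv7 s ⬝ᵥ (CE7 *ᵥ rv7 x)) * rv7 s ⟨j, hj⟩ := by
      rw [rv7_W E hw x, h, Pi.sub_apply, Pi.smul_apply, smul_eq_mul]
    have h3 : vec chevE7 (w x) j = vec chevE7 x j - (rv7 s ⬝ᵥ (CE7 *ᵥ rv7 x)) * vec chevE7 s j := h2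
    rw [h3]; ring
  rw [h1, hs, _root_.one_zpow, mul_one, _root_.zpow_one]

lemma ev_smul7 {K : Type*} [Field K] {t : GL chevE7.Idx K} (ht : t ∈ chevE7.diagonalSubgroup K) {s s' : Fin chevE7.nroots} {ε : ℤ}
    (h : rv7 s = ε • rv7 s') : ev t s = ev t s' ^ ε := by
  have h1 : ev t s = ev t s' ^ ε * ev t s' ^ (0 : ℤ) := by
    apply ev_lin hE7 ht
    intro j hj
    have h2 : rv7 s ⟨j, hj⟩ = ε * rv7 s' ⟨j, hj⟩ := by rw [h, Pi.smul_apply, smul_eq_mul]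
    have h3 : vec chevE7 s j = ε * vec chevE7 s' j := h2
    rw [h3]; ring
  rw [h1, _root_.zpow_zero, mul_one]

lemma wm7_pow {u : Equiv.Perm (Fin chevE7.nroots)} (hu : u ∈ E.rp.wsys.W) (k : ℕ) : wm7 E (u ^ k) = wm7 E u ^ k :=
  wm_pow E (good_of_mem hE7) hu k

variable {K : Type*} [Field K] {u : Equiv.Perm (Fin chevE7.nroots)} (hu : u ∈ E.rp.wsys.W) {sb : Fin chevE7.nroots}
    (hb12 : rv7 sb ⬝ᵥ (CE7 *ᵥ (wm7 E u *ᵥ rv7 sb)) = 0)
    (hb13 : rv7 sb ⬝ᵥ (CE7 *ᵥ (wm7 E u *ᵥ (wm7 E u *ᵥ rv7 sb))) = 0)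
    (hb3 : wm7 E u *ᵥ (wm7 E u *ᵥ (wm7 E u *ᵥ rv7 sb)) = -rv7 sb)
    {w : Fin 7 → ℤ} (hw0 : w ≠ 0) (hw : (aeval (wm7 E u) (cyclotomic 12 ℤ)) *ᵥ w = 0)

include hu hb12 hb13 hb3 hw0 hw in
/-- a generator of the torus is regular and has trivial stabilizer -/
theorem stab7 {t0 : GL chevE7.Idx K} (ht0 : t0 ∈ chevE7.diagonalSubgroup K) {q : ℕ} (hq2 : 2 ≤ q)
    (h0 : ∀ s, ev t0 (u s) = ev t0 s ^ q) (hqinj : ∀ x y : K, x ^ q = y ^ q → x = y)
    {mr : ℕ} {r : ℕ} [hr : Fact r.Prime] {z : K} (hz : IsPrimitiveRoot z r) (htr1 : t0 ^ mr ≠ 1)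
    {a : Fin chevE7.rank → ℤ} (ha : ∀ i, ev (t0 ^ mr) (E.rp.wsys.p i) = z ^ a i) (hW : ¬ r ∣ Nat.card E.rp.wsys.W)
    (hR : ((R3 ℤ).map (Int.castRingHom (ZMod r))).eval (q : ZMod r) ≠ 0)
    {m1 : ℕ} {lam : Kˣ} (hlam : orderOf lam = q ^ 3 + 1) (ht1 : ev (t0 ^ m1) sb = ((lam ^ 2 : Kˣ) : K)) :
    (∀ s, ev t0 s ≠ 1) ∧ ∀ v ∈ E.rp.wsys.W, (∀ s, ev t0 (v s) = ev t0 s) → v = 1 := by
  have G := good_of_mem hE7
  have hC := wm7_C E hu
  have hb2 := norm7 E sb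
  have hcp := charpoly7 hC hb2 hb12 hb13 hb3 hw0 hw
  let S : Subgroup (Equiv.Perm (Fin chevE7.nroots)) :=
    { carrier := {v | v ∈ E.rp.wsys.W ∧ ∀ s, ev t0 (v s) = ev t0 s}
      mul_mem' := fun {v w} hv hw => ⟨mul_mem hv.1 hw.1, fun s => by rw [Equiv.Perm.mul_apply, hv.2, hw.2]⟩
      one_mem' := ⟨one_mem _, fun s => rfl⟩
      inv_mem' := fun {v} hv => ⟨inv_mem hv.1, fun s => by
        have := hv.2 (v⁻¹ s)
        have e : v (v⁻¹ s) = s := v.apply_symm_apply s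
        rw [e] at this
        exact this.symm⟩ }
  have hSW : S ≤ E.rp.wsys.W := fun v hv => hv.1
  have hnorm : ∀ v ∈ S, u⁻¹ * v * u ∈ S := by
    intro v hv
    refine ⟨mul_mem (mul_mem (inv_mem hu) hv.1) hu, fun s => ?_⟩
    apply hqinj
    rw [← h0, ← h0]
    have : u ((u⁻¹ * v * u) s) = v (u s) := by simp [Equiv.Perm.mul_apply]
    rw [this, hv.2]
  have hpow : ∀ (m : ℕ) s, ev (t0 ^ m) s = ev t0 s ^ m := fun m s => ev_pow hE7 ht0 m s
  obtain ⟨N, hN1', hN2⟩ := exists_Nm7 (K := K) E hSW hu hnorm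
  have hne : aeval (wm7 E u) (R3 ℤ) * N ≠ 0 := by
    refine hN2 (t0 ^ mr) r z a q hz (pow_mem ht0 mr) htr1 ha ?_ ?_ hW _ hR
    · intro s
      rw [hpow, hpow, h0, ← pow_mul, ← pow_mul, mul_comm]
    · intro v hv s
      rw [hpow, hpow, hv.2]
  have hex : ∃ j, (aeval (wm7 E u) (R3 ℤ) * N) *ᵥ (Pi.single j 1) ≠ 0 := by
    by_contra hcon
    push Not at hcon
    apply hne
    ext i j
    have := congrFun (hcon j) i
    rw [Matrix.mulVec_single_one] at this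
    exact this
  obtain ⟨j, hj⟩ := hex
  obtain ⟨x, hxd⟩ : ∃ x, x = (aeval (wm7 E u) (R3 ℤ) * N) *ᵥ (Pi.single j 1) := ⟨_, rfl⟩
  rw [← hxd] at hj
  have hx12 : (aeval (wm7 E u) (cyclotomic 12 ℤ)) *ᵥ x = 0 := by
    rw [hxd, Matrix.mulVec_mulVec, ← mul_assoc, ← map_mul, ← hcp, Matrix.aeval_self_charpoly, zero_mul, Matrix.zero_mulVec]
  have hfix : ∀ v ∈ S, ∀ k : ℕ, wm7 E v *ᵥ ((wm7 E u) ^ k *ᵥ x) = (wm7 E u) ^ k *ᵥ x := by
    intro v hv k
    have e1 : (wm7 E u) ^ k *ᵥ x = (aeval (wm7 E u) (X ^ k * R3 ℤ) * N) *ᵥ (Pi.single j 1) := by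
      rw [hxd, map_mul, map_pow, aeval_X, Matrix.mulVec_mulVec, mul_assoc]
    rw [e1, Matrix.mulVec_mulVec, hN1' _ _ hv]
  -- the three roots
  have r1 : rv7 (u sb) = wm7 E u *ᵥ rv7 sb := rv7_W E hu sb
  have r2 : rv7 (u (u sb)) = wm7 E u *ᵥ (wm7 E u *ᵥ rv7 sb) := by rw [rv7_W E hu, r1]
  -- a root orthogonal to the primitive part
  have hroots : ∀ s, (∀ k : ℕ, rv7 s ⬝ᵥ (CE7 *ᵥ ((wm7 E u) ^ k *ᵥ x)) = 0) →
      ∃ ε : ℤ, (ε = 1 ∨ ε = -1) ∧ ∃ i < 3, rv7 s = ε • rv7 ((u ^ i) sb) := by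
    intro s hs
    obtain ⟨ε, hε, h | h | h⟩ := root_perp hC hb2 hb12 hb13 hb3 hj hx12 (norm7 E s) hs
    · exact ⟨ε, hε, 0, by norm_num, h⟩
    · exact ⟨ε, hε, 1, by norm_num, by rw [pow_one, r1]; exact h⟩
    · exact ⟨ε, hε, 2, by norm_num, by rw [pow_two, Equiv.Perm.mul_apply, r2]; exact h⟩
  have hui : ∀ (i : ℕ) s, ev t0 ((u ^ i) s) = ev t0 s ^ q ^ i := by
    intro i
    induction i with
    | zero => intro s; rw [pow_zero, pow_zero, pow_one]; rfl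
    | succ i ih => intro s; rw [pow_succ', Equiv.Perm.mul_apply, h0, ih, ← pow_mul, pow_succ]
  have hev0 : ∀ s, ev t0 s ≠ 0 := fun s => ev_ne_zero hE7 ht0 s
  have hlam2 : ∀ k : ℤ, lam ^ k = 1 → ((q : ℤ) ^ 3 + 1) ∣ k := by
    intro k hk
    have := orderOf_dvd_iff_zpow_eq_one.2 hk
    rw [hlam] at this
    exact_mod_cast this
  constructor
  · intro s hs
    obtain ⟨ws, hws, hrefl⟩ := exists_refl7 E s
    have hwsS : ws ∈ S := ⟨hws, refl_stab7 E ht0 hs hws hrefl⟩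
    have hs0 : rv7 s ≠ 0 := by
      intro h0
      have := norm7 E s
      rw [h0, zero_dotProduct] at this
      norm_num at this
    obtain ⟨ε, hε, i, hi, he⟩ := hroots s (by
      intro k
      have e2 := hrefl ((wm7 E u) ^ k *ᵥ x)
      rw [hfix ws hwsS k] at e2
      have e4 : (rv7 s ⬝ᵥ (CE7 *ᵥ ((wm7 E u) ^ k *ᵥ x))) • rv7 s = 0 := sub_eq_self.1 e2.symm
      rcases smul_eq_zero.1 e4 with e5 | e5
      · exact e5
      · exact absurd e5 hs0)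
    have h1 : ev t0 ((u ^ i) sb) = 1 := by
      have h2 := ev_smul7 ht0 he
      rw [hs] at h2
      rcases hε with rfl | rfl
      · rw [_root_.zpow_one] at h2; exact h2.symm
      · rw [_root_.zpow_neg, _root_.zpow_one] at h2
        exact inv_eq_one.1 h2.symm
    rw [hui] at h1
    have h2 : ∀ i : ℕ, ∀ y : K, y ^ q ^ i = 1 → y = 1 := by
      intro i
      induction i with
      | zero => intro y hy; rwa [pow_zero, pow_one] at hy
      | succ i ih =>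
        intro y hy
        apply ih
        apply hqinj
        rw [one_pow, ← pow_mul, ← pow_succ]; exact hy
    have h3 := h2 i _ h1
    rw [hpow, h3, one_pow] at ht1
    have h4 : lam ^ 2 = 1 := Units.ext ht1.symm
    have h5 := orderOf_dvd_of_pow_eq_one h4
    rw [hlam] at h5
    have h6 := Nat.le_of_dvd (by norm_num) h5
    have h7 : 1 ≤ q ^ 3 := Nat.one_le_pow _ _ (by omega)
    have h8 : 2 ^ 3 ≤ q ^ 3 := Nat.pow_le_pow_left hq2 3
    omega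
  · -- trivial stabilizer
    have hb : ∀ v ∈ S, wm7 E v *ᵥ rv7 sb = rv7 sb := by
      intro v hv
      have hCv := wm7_C E hv.1
      obtain ⟨ε, hε, i, hi, he⟩ := hroots (v sb) (by
        intro k
        rw [rv7_W E hv.1, ← hfix v hv k, dot_inv hCv]
        exact perp7 hC hb3 hx12 k)
      have h1 := ev_smul7 (pow_mem ht0 m1) he
      rw [hpow, hv.2, ← hpow, ht1, hpow, hui, ← pow_mul, mul_comm, pow_mul, ← hpow, ht1] at h1
      have h1' : lam ^ 2 = ((lam ^ 2) ^ (q ^ i)) ^ ε := by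
        apply Units.ext
        rw [Units.val_zpow_eq_zpow_val, Units.val_pow_eq_pow_val (lam ^ 2)]
        exact h1
      have h2 : lam ^ (2 - 2 * (ε * (q : ℤ) ^ i)) = 1 := by
        have e1 : lam ^ (2 : ℤ) = lam ^ 2 := _root_.zpow_ofNat lam 2
        have e2 : ((lam ^ 2) ^ (q ^ i)) ^ ε = lam ^ (((2 * q ^ i : ℕ) : ℤ) * ε) := by
          rw [← pow_mul, ← zpow_natCast, ← _root_.zpow_mul]
        have e3 : ((2 * q ^ i : ℕ) : ℤ) * ε = 2 * (ε * (q : ℤ) ^ i) := by push_cast; ring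
        have e4 : lam ^ (2 : ℤ) = lam ^ (2 * (ε * (q : ℤ) ^ i)) := by
          rw [← e3, ← e2, ← h1', e1]
        rw [_root_.zpow_sub, e4, mul_inv_cancel]
      obtain ⟨hi0, hε1⟩ := arith7 hq2 hi hε (hlam2 _ h2)
      rw [hi0, hε1, one_smul, pow_zero, rv7_W E hv.1] at he
      exact he
    have hnormk : ∀ k : ℕ, ∀ v ∈ S, (u ^ k)⁻¹ * v * u ^ k ∈ S := by
      intro k
      induction k with
      | zero => intro v hv; simpa using hv
      | succ k ih =>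
        intro v hv
        have := hnorm _ (ih v hv)
        have e : (u ^ (k + 1))⁻¹ * v * u ^ (k + 1) = u⁻¹ * ((u ^ k)⁻¹ * v * u ^ k) * u := by
          rw [pow_succ]; group
        rw [e]; exact this
    have hbk : ∀ v ∈ S, ∀ k : ℕ, wm7 E v *ᵥ ((wm7 E u) ^ k *ᵥ rv7 sb) = (wm7 E u) ^ k *ᵥ rv7 sb := by
      intro v hv k
      have h1 := hb _ (hnormk k v hv)
      have h2 : wm7 E v * wm7 E (u ^ k) = wm7 E (u ^ k) * wm7 E ((u ^ k)⁻¹ * v * u ^ k) := by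
        have e : u ^ k * ((u ^ k)⁻¹ * v * u ^ k) = v * u ^ k := by group
        rw [← wm7_mul E hv.1, ← wm7_mul E (pow_mem hu k), e]
      rw [← wm7_pow E hu, Matrix.mulVec_mulVec, h2, ← Matrix.mulVec_mulVec, h1]
    intro v hv hv0
    have hvS : v ∈ S := ⟨hv, hv0⟩
    have hone : wm7 E v = 1 := by
      apply qm_ext
      intro y
      obtain ⟨C, hCy⟩ := (decomp7 hC hb2 hb12 hb13 hb3 hj hx12).2 y
      rw [hCy, Matrix.mulVec_add, fix_poly (hfix v hvS), fix_poly (hbk v hvS), qm_one, Matrix.one_mulVec]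
    apply wm_inj E G hv (one_mem _)
    exact hone.trans (wm7_one E).symm

end Cfsg.Agent.ChevF
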