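import Cfsg.Agent.ChevF.E7P

set_option autoImplicit false

/-!
Preparations for the torus of type E7 (helper19).
-/

namespace Cfsg.Agent.ChevF

open Cfsg.Lie Cfsg.Agent.Chev Cfsg.Agent.ChevGrp Cfsg.Agent.Steinb Matrix Polynomial

section gen

variable {D : ChevalleyDatum} {K : Type*} [Field K] (E : DData D)

lemma prod_zpow_sum {ι : Type*} (s : Finset ι) (lam : Kˣ) (f : ι → ℤ) : ∏ i ∈ s, lam ^ f i = lam ^ ∑ i ∈ s, f i := by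
  classical
  induction s using Finset.induction_on with
  | empty => simp
  | insert i s hi ih => rw [Finset.prod_insert hi, Finset.sum_insert hi, _root_.zpow_add, ih]

lemma mon_lam {u : Equiv.Perm (Fin D.nroots)} (lam : Kˣ) (y : Fin D.rank → ℤ) (q : ℕ)
    (h : ∀ k, lam ^ ((q : ℤ) * (wm E u *ᵥ y) k) = lam ^ (y k)) :
    ChevU.mon (A := Kˣ) (wm E u)ᵀ ((fun i => lam ^ y i) ^ q) = fun i => lam ^ y i := by
  funext k
  rw [ChevU.mon_apply, ← h k]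
  have h1 : ∀ j, ((fun i => lam ^ y i) ^ q : Fin D.rank → Kˣ) j ^ (wm E u)ᵀ j k = lam ^ ((q : ℤ) * ((wm E u) k j * y j)) := by
    intro j
    rw [Pi.pow_apply, ← zpow_natCast, ← _root_.zpow_mul, ← _root_.zpow_mul, Matrix.transpose_apply]
    congr 1; ring
  rw [Finset.prod_congr rfl (fun j _ => h1 j), prod_zpow_sum, ← Finset.mul_sum]
  rfl

lemma ev_lam (hD : D ∈ data) (S : SP D) (lam : Kˣ) (y : Fin D.rank → ℤ) (s : Fin D.nroots) :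
    ev ((stOf (good_of_mem hD) K).θ ((stOf (good_of_mem hD) K).tor S (fun i => lam ^ y i))) s =
      ((lam ^ (y ⬝ᵥ ((Matrix.of fun i j : Fin D.rank => D.cartan i (D.simple j)) *ᵥ rv D s)) : Kˣ) : K) := by
  rw [θ_tor, ev_torHom]
  congr 1
  unfold chr
  rw [Finset.prod_range]
  have h1 : ∀ j : Fin D.rank, StSt.torChi D (fun i => lam ^ y i) (j : ℕ) ^ vec D s j =
      lam ^ ((∑ i, y i * D.cartan i (D.simple j)) * vec D s j) := by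
    intro j
    unfold StSt.torChi
    have h2 : ∀ i : Fin D.rank, (lam ^ y i) ^ D.cartan i (D.simple j) = lam ^ (y i * D.cartan i (D.simple j)) := by
      intro i; rw [← _root_.zpow_mul]
    rw [Finset.prod_congr rfl (fun i _ => h2 i), prod_zpow_sum, ← _root_.zpow_mul]
  rw [Finset.prod_congr rfl (fun j _ => h1 j), prod_zpow_sum]
  congr 1
  simp only [dotProduct, mulVec, Matrix.of_apply, Finset.sum_mul, Finset.mul_sum]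
  rw [Finset.sum_comm]
  refine Finset.sum_congr rfl fun i _ => Finset.sum_congr rfl fun j _ => ?_
  show _ = y i * (D.cartan i (D.simple j) * vec D s j)
  ring

end gen

section e7

variable (E : DData chevE7)

/-- reflections, explicitly -/
theorem refl7 {u : Equiv.Perm (Fin chevE7.nroots)} (hu : u ∈ E.rp.wsys.W) (i : Fin 7) (x : Fin 7 → ℤ) :
    wm7 E (u * w7 E i * u⁻¹) *ᵥ x = x - (rv7 (u (p7 E i)) ⬝ᵥ (CE7 *ᵥ x)) • rv7 (u (p7 E i)) := by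
  have h1 : wm7 E (u * w7 E i * u⁻¹) = wm7 E u * Rm7 i * wm7 E u⁻¹ := by
    have e2 : wm7 E (w7 E i) = Rm7 i := by
      have := wm7_w E i 1
      rw [mul_one, wm7_one, mul_one] at this
      exact this
    rw [wm7_mul E (mul_mem hu (w7_mem E i)), wm7_mul E hu, e2]
  have h2 : wm7 E u * wm7 E u⁻¹ = 1 := by rw [← wm7_mul E hu, mul_inv_cancel, wm7_one]
  have hR : ∀ y : Fin 7 → ℤ, Rm7 i *ᵥ y = y - ((Pi.single i 1 : Fin 7 → ℤ) ⬝ᵥ (CE7 *ᵥ y)) • (Pi.single i 1 : Fin 7 → ℤ) := by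
    intro y
    rw [single_one_dotProduct, Rm7_eq, Matrix.sub_mulVec, Matrix.one_mulVec]
    congr 1
    funext k
    rw [Pi.smul_apply, Pi.single_apply, smul_eq_mul]
    simp only [Matrix.mulVec, dotProduct, Matrix.of_apply]
    by_cases hk : k = i
    · simp only [if_pos hk, mul_one]
    · simp only [if_neg hk, zero_mul, Finset.sum_const_zero, mul_zero]
  have h3 : ∀ y, (wm7 E u *ᵥ (Pi.single i 1)) ⬝ᵥ (CE7 *ᵥ (wm7 E u *ᵥ y)) = (Pi.single i 1 : Fin 7 → ℤ) ⬝ᵥ (CE7 *ᵥ y) := fun y =>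
    dot_inv (wm7_C E hu) _ y
  have h4 : wm7 E u *ᵥ (wm7 E u⁻¹ *ᵥ x) = x := by rw [Matrix.mulVec_mulVec, h2, Matrix.one_mulVec]
  rw [rv7_W E hu, rv7_p, h1, ← Matrix.mulVec_mulVec, ← Matrix.mulVec_mulVec, hR, Matrix.mulVec_sub, Matrix.mulVec_smul, h4]
  have := h3 (wm7 E u⁻¹ *ᵥ x)
  rw [h4] at this
  rw [this]

lemma seq_zero' {f : ℕ → ℤ} (h3 : ∀ k, f (k + 3) = f k) (h4 : ∀ k, f (k + 4) = f (k + 2) - f k) (k : ℕ) : f k = 0 := by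
  have a1 := h3 (k + 1)
  have a2 := h4 k
  have a3 := h3 k
  have a4 := h4 (k + 1)
  have a5 := h3 (k + 2)
  have a6 := h4 (k + 2)
  have a7 := h3 (k + 3)
  rw [show k + 1 + 3 = k + 4 by ring] at a1
  rw [show k + 1 + 4 = k + 5 by ring, show k + 1 + 2 = k + 3 by ring] at a4
  rw [show k + 2 + 3 = k + 5 by ring] at a5
  rw [show k + 2 + 4 = k + 6 by ring, show k + 2 + 2 = k + 4 by ring] at a6
  rw [show k + 3 + 3 = k + 6 by ring] at a7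
  omega

/-- the new Weyl group element -/
theorem twist7 {M M' : Matrix (Fin 7) (Fin 7) ℤ} {M₆ : Matrix (Fin 6) (Fin 6) ℤ} (hC : Mᵀ * CE7 * M = CE7)
    (hJ : M * J67 = J67 * M₆) {v : Fin 6 → ℤ} (hv : v ≠ 0) (hv12 : (aeval M₆ (cyclotomic 12 ℤ)) *ᵥ v = 0) {b : Fin 7 → ℤ}
    (hb2 : b ⬝ᵥ (CE7 *ᵥ b) = 2) (hb3 : M *ᵥ (M *ᵥ (M *ᵥ b)) = b) (hb12 : b ⬝ᵥ (CE7 *ᵥ (M *ᵥ b)) = 0)
    (hM' : ∀ x, M' *ᵥ x = M *ᵥ x - (b ⬝ᵥ (CE7 *ᵥ (M *ᵥ x))) • b) :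
    b ⬝ᵥ (CE7 *ᵥ (M' *ᵥ b)) = 0 ∧ b ⬝ᵥ (CE7 *ᵥ (M' *ᵥ (M' *ᵥ b))) = 0 ∧ M' *ᵥ (M' *ᵥ (M' *ᵥ b)) = -b ∧
      J67 *ᵥ v ≠ 0 ∧ (aeval M' (cyclotomic 12 ℤ)) *ᵥ (J67 *ᵥ v) = 0 := by
  have hinv := dot_inv hC
  have hsym := dot_comm_of_sym CE7_sym
  have h13 : b ⬝ᵥ (CE7 *ᵥ (M *ᵥ (M *ᵥ b))) = 0 := by
    have := hinv (M *ᵥ (M *ᵥ b)) b
    rw [hb3, hb12] at this
    rw [hsym]; exact this.symm
  have m1 : M' *ᵥ b = M *ᵥ b := by rw [hM', hb12, zero_smul, sub_zero]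
  have m2 : M' *ᵥ (M *ᵥ b) = M *ᵥ (M *ᵥ b) := by rw [hM', h13, zero_smul, sub_zero]
  have m3 : M' *ᵥ (M *ᵥ (M *ᵥ b)) = -b := by
    rw [hM', hb3, hb2, two_smul]; abel
  have hv' : (M₆ ^ 4 - M₆ ^ 2 + 1) *ᵥ v = 0 := by rw [← aeval12]; exact hv12
  have hMk : ∀ k : ℕ, M ^ k *ᵥ (J67 *ᵥ v) = J67 *ᵥ (M₆ ^ k *ᵥ v) := by
    intro k
    rw [Matrix.mulVec_mulVec, pow_J hJ, ← Matrix.mulVec_mulVec]
  have hrec : ∀ k : ℕ, M ^ (k + 4) *ᵥ (J67 *ᵥ v) = M ^ (k + 2) *ᵥ (J67 *ᵥ v) - M ^ k *ᵥ (J67 *ᵥ v) := by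
    intro k
    have e1 : M₆ ^ (k + 4) *ᵥ v = M₆ ^ (k + 2) *ᵥ v - M₆ ^ k *ᵥ v := by
      have e2 : M₆ ^ k *ᵥ ((M₆ ^ 4 - M₆ ^ 2 + 1) *ᵥ v) = M₆ ^ (k + 4) *ᵥ v - M₆ ^ (k + 2) *ᵥ v + M₆ ^ k *ᵥ v := by
        rw [Matrix.add_mulVec, Matrix.sub_mulVec, Matrix.one_mulVec, Matrix.mulVec_add, Matrix.mulVec_sub,
          Matrix.mulVec_mulVec, Matrix.mulVec_mulVec, ← pow_add, ← pow_add]
      rw [hv', Matrix.mulVec_zero] at e2
      have e3 : M₆ ^ (k + 4) *ᵥ v = M₆ ^ (k + 4) *ᵥ v - 0 := (sub_zero _).symm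
      rw [e3, e2]; abel
    rw [hMk, hMk, hMk, e1, Matrix.mulVec_sub]
  have hperp : ∀ k : ℕ, b ⬝ᵥ (CE7 *ᵥ (M ^ k *ᵥ (J67 *ᵥ v))) = 0 := by
    refine seq_zero' (f := fun k => b ⬝ᵥ (CE7 *ᵥ (M ^ k *ᵥ (J67 *ᵥ v)))) ?_ ?_
    · intro k
      show b ⬝ᵥ (CE7 *ᵥ (M ^ (k + 3) *ᵥ (J67 *ᵥ v))) = b ⬝ᵥ (CE7 *ᵥ (M ^ k *ᵥ (J67 *ᵥ v)))
      have e0 : M ^ (k + 3) = M * (M * (M * M ^ k)) := by rw [add_comm, pow_add]; noncomm_ring
      have e1 : M ^ (k + 3) *ᵥ (J67 *ᵥ v) = M *ᵥ (M *ᵥ (M *ᵥ (M ^ k *ᵥ (J67 *ᵥ v)))) := by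
        rw [e0]; simp only [Matrix.mulVec_mulVec, Matrix.mul_assoc]
      rw [e1]
      conv_lhs => rw [← hb3]
      rw [hinv, hinv, hinv]
    · intro k
      show b ⬝ᵥ (CE7 *ᵥ (M ^ (k + 4) *ᵥ (J67 *ᵥ v))) = b ⬝ᵥ (CE7 *ᵥ (M ^ (k + 2) *ᵥ (J67 *ᵥ v))) -
        b ⬝ᵥ (CE7 *ᵥ (M ^ k *ᵥ (J67 *ᵥ v)))
      rw [hrec, Matrix.mulVec_sub, dotProduct_sub]
  have hM'k : ∀ k : ℕ, M' ^ k *ᵥ (J67 *ᵥ v) = M ^ k *ᵥ (J67 *ᵥ v) := by
    intro k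
    induction k with
    | zero => rw [pow_zero, pow_zero]
    | succ k ih =>
      rw [pow_succ', ← Matrix.mulVec_mulVec, ih, hM']
      have e : M *ᵥ (M ^ k *ᵥ (J67 *ᵥ v)) = M ^ (k + 1) *ᵥ (J67 *ᵥ v) := by
        rw [Matrix.mulVec_mulVec, ← pow_succ']
      rw [e, hperp, zero_smul, sub_zero]
  refine ⟨by rw [m1, hb12], by rw [m1, m2, h13], by rw [m1, m2, m3], ?_, ?_⟩
  · intro h0
    apply hv
    have := congrArg (fun x => J67ᵀ *ᵥ x) h0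
    simp only [Matrix.mulVec_zero] at this
    rwa [Matrix.mulVec_mulVec, JtJ, Matrix.one_mulVec] at this
  · have e : aeval M' (cyclotomic 12 ℤ) = M' ^ 4 - M' ^ 2 + 1 := by rw [cyc12]; simp
    have h1 := hrec 0
    rw [zero_add, zero_add, pow_zero, Matrix.one_mulVec] at h1
    rw [e, Matrix.add_mulVec, Matrix.sub_mulVec, Matrix.one_mulVec, hM'k, hM'k, h1]
    abel

lemma CE7_det : CE7.det ≠ 0 := by
  intro h
  obtain ⟨x, hx, h'⟩ := Matrix.exists_mulVec_eq_zero_iff.2 h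
  have := CE7_pos x hx
  rw [h', dotProduct_zero] at this
  exact lt_irrefl _ this

/-- the characteristic polynomial of the inverse -/
lemma charpoly_inv7 {u : Equiv.Perm (Fin chevE7.nroots)} (hu : u ∈ E.rp.wsys.W) :
    (wm7 E u⁻¹).charpoly = (wm7 E u).charpoly := by
  have hC := wm7_C E hu
  have h1 : wm7 E u * wm7 E u⁻¹ = 1 := by rw [← wm7_mul E hu, mul_inv_cancel, wm7_one]
  have h2 : CE7 * wm7 E u⁻¹ = (wm7 E u)ᵀ * CE7 := by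
    calc CE7 * wm7 E u⁻¹ = ((wm7 E u)ᵀ * CE7 * wm7 E u) * wm7 E u⁻¹ := by rw [hC]
      _ = (wm7 E u)ᵀ * CE7 * (wm7 E u * wm7 E u⁻¹) := by rw [mul_assoc]
      _ = _ := by rw [h1, mul_one]
  rw [charpoly_conj h2 CE7_det, Matrix.charpoly_transpose]

lemma R3_nat (q : ℕ) : ((R3 ℤ).eval (q : ℤ)).natAbs = q ^ 3 + 1 := by
  unfold R3
  have : (X ^ 3 + 1 : ℤ[X]).eval (q : ℤ) = ((q ^ 3 + 1 : ℕ) : ℤ) := by simp
  rw [this, Int.natAbs_natCast]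

lemma card_W7 {r : ℕ} (hr : r.Prime) (h : 8 ≤ r) : ¬ r ∣ Nat.card E.rp.wsys.W := by
  rw [card_W_E7]
  intro hd
  have h1 : r ∣ ((2 ^ 10 * 3 ^ 4) * 5) * 7 := by simpa using hd
  rcases (Nat.Prime.dvd_mul hr).1 h1 with h2 | h2
  · rcases (Nat.Prime.dvd_mul hr).1 h2 with h2 | h2
    · rcases (Nat.Prime.dvd_mul hr).1 h2 with h2 | h2
      · have := Nat.le_of_dvd (by norm_num) (hr.dvd_of_dvd_pow h2); omega
      · have := Nat.le_of_dvd (by norm_num) (hr.dvd_of_dvd_pow h2); omega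
    · have := Nat.le_of_dvd (by norm_num) h2; omega
  · have := Nat.le_of_dvd (by norm_num) h2; omega

/-- an element of order `q³ + 1` -/
lemma exists_lam {K : Type*} [Field K] [Fintype K] {q N : ℕ} (hq : 2 ≤ q) (hK : Fintype.card K = q ^ N) (h6 : 6 ∣ N) :
    ∃ lam : Kˣ, orderOf lam = q ^ 3 + 1 := by
  classical
  obtain ⟨γ, hγ⟩ := IsCyclic.exists_generator (α := Kˣ)
  have hord : orderOf γ = q ^ N - 1 := by
    rw [orderOf_eq_card_of_forall_mem_zpowers hγ, Nat.card_units, Nat.card_eq_fintype_card, hK]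
  have hd : (q ^ 3 + 1) ∣ q ^ N - 1 := by
    have h1 : 1 ≤ q ^ N := Nat.one_le_pow _ _ (by omega)
    rw [← ZMod.natCast_eq_zero_iff, Nat.cast_sub h1]
    have h2 : ((q : ZMod (q ^ 3 + 1))) ^ 3 = -1 := by
      have : ((q ^ 3 + 1 : ℕ) : ZMod (q ^ 3 + 1)) = 0 := ZMod.natCast_self _
      push_cast at this
      exact eq_neg_of_add_eq_zero_left this
    obtain ⟨k, hk⟩ := h6
    have h3 : ((q : ZMod (q ^ 3 + 1))) ^ N = 1 := by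
      rw [hk, show 6 * k = 3 * (2 * k) by ring, pow_mul, h2, pow_mul]; norm_num
    push_cast
    rw [h3, sub_self]
  obtain ⟨m, hm⟩ := hd
  have hpos : 0 < q ^ N - 1 := by
    have := Fintype.one_lt_card (α := K)
    rw [hK] at this
    omega
  have hm0 : m ≠ 0 := by
    rintro rfl
    rw [mul_zero] at hm
    omega
  refine ⟨γ ^ m, ?_⟩
  rw [orderOf_pow_of_dvd hm0 (by rw [hord, hm]; exact Dvd.intro_left _ rfl), hord, hm, Nat.mul_div_cancel _ (Nat.pos_of_ne_zero hm0)]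

end e7

end Cfsg.Agent.ChevF
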