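import Cfsg.Agent.ChevF.Tri2
import Cfsg.Agent.ChevF.TorMain

set_option autoImplicit false
set_option maxRecDepth 100000

/-!
A cyclic torus of the twisted group of type D4: the theorem (helper19).
-/

namespace Cfsg.Agent.ChevF

open Cfsg.Lie Cfsg.Agent.Chev Cfsg.Agent.ChevGrp Cfsg.Agent.ChevGrp.DData Cfsg.Agent.ChevTw Matrix
open Cfsg.Agent.ChevU (SL2Sys)

section comm

variable {K : Type*} [Field K]

/-- roots -/
def r18 : Fin chevD4.nroots := ⟨18, by decide⟩
def r14 : Fin chevD4.nroots := ⟨14, by decide⟩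
def r13 : Fin chevD4.nroots := ⟨13, by decide⟩
def r12 : Fin chevD4.nroots := ⟨12, by decide⟩

lemma th_comm {D : ChevalleyDatum} (hD : D ∈ data) (r s : Fin D.nroots)
    (h : ∀ x, (x = (r : ℕ) ∨ x = D.neg r) → ∀ y, (y = (s : ℕ) ∨ y = D.neg s) → ∀ t u : K,
      xU (good_of_mem hD).toGood2 x t * xU (good_of_mem hD).toGood2 y u =
        xU (good_of_mem hD).toGood2 y u * xU (good_of_mem hD).toGood2 x t)
    (A B : SpecialLinearGroup (Fin 2) K) : th hD K r A * th hD K s B = th hD K s B * th hD K r A := by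
  have h1 : ∀ x, (x = (r : ℕ) ∨ x = D.neg r) → ∀ (t : K) (B : SpecialLinearGroup (Fin 2) K),
      xU (good_of_mem hD).toGood2 x t * th hD K s B = th hD K s B * xU (good_of_mem hD).toGood2 x t := by
    intro x hx t B
    have : th hD K s B ∈ Subgroup.centralizer {xU (good_of_mem hD).toGood2 x t} := by
      apply th_mem_of
      · intro u
        rw [Subgroup.mem_centralizer_singleton_iff]
        exact (h x hx _ (Or.inl rfl) t u).symm
      · intro u
        rw [Subgroup.mem_centralizer_singleton_iff]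
        exact (h x hx _ (Or.inr rfl) t u).symm
    rw [Subgroup.mem_centralizer_singleton_iff] at this
    exact this.symm
  have : th hD K r A ∈ Subgroup.centralizer {th hD K s B} := by
    apply th_mem_of
    · intro u
      rw [Subgroup.mem_centralizer_singleton_iff]
      exact h1 _ (Or.inl rfl) u B
    · intro u
      rw [Subgroup.mem_centralizer_singleton_iff]
      exact h1 _ (Or.inr rfl) u B
  rw [Subgroup.mem_centralizer_singleton_iff] at this
  exact this

theorem tri_negs : chevD4.neg 18 = 5 ∧ chevD4.neg 13 = 10 ∧ chevD4.neg 12 = 11 ∧ chevD4.neg 14 = 9 := by decide +kernel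

theorem tri_comm_tab : ∀ i ∈ [18, 13, 12], ∀ k ∈ [18, 13, 12], i ≠ k → ∀ s ∈ [i, chevD4.neg i], ∀ s' ∈ [k, chevD4.neg k],
    s < 24 ∧ s' < 24 ∧ s' ≠ s ∧ s' ≠ chevD4.neg s ∧ chevD4.commTerms s s' = [] := by decide +kernel

lemma th_comm_D4 (r s : Fin chevD4.nroots) (hr : (r : ℕ) ∈ [18, 13, 12]) (hs : (s : ℕ) ∈ [18, 13, 12]) (hne : (r : ℕ) ≠ s)
    (A B : SpecialLinearGroup (Fin 2) K) : th hD4 K r A * th hD4 K s B = th hD4 K s B * th hD4 K r A := by
  apply th_comm
  intro x hx y hy t u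
  obtain ⟨h1, h2, h3, h4, h5⟩ := tri_comm_tab r hr s hs hne x (by simpa using hx) y (by simpa using hy)
  exact congrArg Subtype.val (xG_comm (good_of_mem hD4) h1 h2 h3 h4 h5 t u)

/-- the diagonal subgroup of the three outer `SL₂` -/
theorem tri_psi {q : ℕ} (φ : K →+* K) (hφ : ∀ t, φ t = t ^ q) (A : SpecialLinearGroup (Fin 2) K) :
    th hD4 K r18 A * th hD4 K r13 (SpecialLinearGroup.map φ A) * th hD4 K r12 (SpecialLinearGroup.map φ (SpecialLinearGroup.map φ A)) ∈
      twistedD4 K q := by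
  set f : SpecialLinearGroup (Fin 2) K →* GL chevD4.Idx K := MonoidHom.mk' (fun A =>
    th hD4 K r18 A * th hD4 K r13 (SpecialLinearGroup.map φ A) * th hD4 K r12 (SpecialLinearGroup.map φ (SpecialLinearGroup.map φ A))) (by
      intro A B
      simp only [map_mul]
      have c1 := th_comm_D4 (K := K) r18 r13 (by decide) (by decide) (by decide)
      have c2 := th_comm_D4 (K := K) r18 r12 (by decide) (by decide) (by decide)
      have c3 := th_comm_D4 (K := K) r13 r12 (by decide) (by decide) (by decide)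
      generalize th hD4 K r18 = f1 at *
      generalize th hD4 K r13 = f2 at *
      generalize th hD4 K r12 = f3 at *
      generalize SpecialLinearGroup.map φ B = B1 at *
      generalize SpecialLinearGroup.map φ B1 = B2 at *
      generalize SpecialLinearGroup.map φ A = A1 at *
      generalize SpecialLinearGroup.map φ A1 = A2 at *
      calc f1 A * f1 B * (f2 A1 * f2 B1) * (f3 A2 * f3 B2) = f1 A * (f1 B * f2 A1) * (f2 B1 * f3 A2) * f3 B2 := by group
        _ = f1 A * (f2 A1 * f1 B) * (f3 A2 * f2 B1) * f3 B2 := by rw [c1 B A1, c3 B1 A2]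
        _ = f1 A * f2 A1 * (f1 B * f3 A2) * f2 B1 * f3 B2 := by group
        _ = f1 A * f2 A1 * (f3 A2 * f1 B) * f2 B1 * f3 B2 := by rw [c2 B A2]
        _ = _ := by group) with hf
  have hfA : ∀ A, f A = th hD4 K r18 A * th hD4 K r13 (SpecialLinearGroup.map φ A) *
      th hD4 K r12 (SpecialLinearGroup.map φ (SpecialLinearGroup.map φ A)) := fun A => rfl
  rw [← hfA]
  obtain ⟨n1, n2, n3, n4⟩ := tri_negs
  apply sl_mem_closure (S := (twistedD4 K q).comap f)
  · intro t
    rw [Subgroup.mem_comap, hfA, sl_map_X, sl_map_X, th_X, th_X, th_X]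
    refine Subgroup.subset_closure ⟨[(d4p1, t), (d4p3, t ^ q), (d4p4, t ^ (q ^ 2))], Or.inr ⟨t, (d4p1, d4p3, d4p4), by simp, rfl⟩, ?_⟩
    have h2 : φ (φ t) = t ^ q ^ 2 := by rw [hφ, hφ, ← pow_mul, sq]
    rw [h2, hφ]
    simp [ChevalleyDatum.wordMat, mul_assoc]
    rfl
  · intro t
    rw [Subgroup.mem_comap, hfA, sl_map_Y, sl_map_Y, th_Y, th_Y, th_Y]
    refine Subgroup.subset_closure ⟨[(d4m1, t), (d4m3, t ^ q), (d4m4, t ^ (q ^ 2))], Or.inr ⟨t, (d4m1, d4m3, d4m4), by simp, rfl⟩, ?_⟩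
    have h2 : φ (φ t) = t ^ q ^ 2 := by rw [hφ, hφ, ← pow_mul, sq]
    have e1 : chevD4.neg (r18 : ℕ) = 5 := n1
    have e2 : chevD4.neg (r13 : ℕ) = 10 := n2
    have e3 : chevD4.neg (r12 : ℕ) = 11 := n3
    rw [h2, hφ, e1, e2, e3]
    simp [ChevalleyDatum.wordMat, mul_assoc]
    rfl

/-- diagonal elements of `SL₂` -/
def dgs (u : Kˣ) : SpecialLinearGroup (Fin 2) K := ⟨!![(u : K), 0; 0, (u : K)⁻¹], by
  rw [Matrix.det_fin_two_of]; simp⟩

lemma dgs_val (u : Kˣ) : (dgs u).1 = !![(u : K), 0; 0, (u : K)⁻¹] := rfl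

lemma map_dgs {L : Type*} [Field L] (σ : L →+* K) (u : Lˣ) : SpecialLinearGroup.map σ (dgs u) = dgs (Units.map (σ : L →* K) u) := by
  apply Subtype.ext
  show (dgs u).1.map σ = (dgs (Units.map (σ : L →* K) u)).1
  rw [dgs_val, dgs_val]
  ext i j
  fin_cases i <;> fin_cases j <;> simp

lemma th_dgs {D : ChevalleyDatum} (hD : D ∈ data) (r : Fin D.nroots) (u : Kˣ) :
    th hD K r (dgs u) = ChevU.torHom D K (chiH D r u) :=
  th_diag hD r u (by rw [dgs_val]; rfl) (by rw [dgs_val]; rfl) (by rw [dgs_val]; rfl)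

lemma chiH_mem {D : ChevalleyDatum} (hD : D ∈ data) (r : Fin D.nroots) (u : Kˣ) :
    ChevU.torHom D K (chiH D r u) ∈ D.diagonalSubgroup K := by
  rw [← ChevU.hU_eq_torHom (ChevU.rootFacts hD) (good_of_mem hD) r.2]
  exact Subgroup.subset_closure ⟨r, u, r.2, u.ne_zero, ChevU.coe_hU _ _ _ _⟩

end comm

end Cfsg.Agent.ChevF
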