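import Cfsg.Agent.ChevF.E7L
import Cfsg.Agent.ChevF.Tri3

set_option autoImplicit false

/-!
The Lang step (helper19).
-/

namespace Cfsg.Agent.ChevF

open Cfsg.Lie Cfsg.Agent.Chev Cfsg.Agent.ChevGrp Cfsg.Agent.Steinb Matrix
open Cfsg.Agent.ChevU (SL2Sys)

section sl

variable {K L : Type*} [Field K] [Field L]

lemma slc_slc (a b : Kˣ) (A : SpecialLinearGroup (Fin 2) K) : slc a (slc b A) = slc (a * b) A := by
  apply Subtype.ext
  show slcM a (slcM b A.1) = slcM (a * b) A.1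
  ext i j
  fin_cases i <;> fin_cases j <;> simp [slcM, mul_assoc, mul_comm (a : K)⁻¹]

lemma map_slc (σ : K →+* L) (a : Kˣ) (A : SpecialLinearGroup (Fin 2) K) :
    SpecialLinearGroup.map σ (slc a A) = slc (Units.map (σ : K →* L) a) (SpecialLinearGroup.map σ A) := by
  apply Subtype.ext
  show (slcM a A.1).map σ = slcM (Units.map (σ : K →* L) a) (A.1.map σ)
  ext i j
  fin_cases i <;> fin_cases j <;> simp [slcM]

/-- monomial matrices -/
def wx (x : Kˣ) : SpecialLinearGroup (Fin 2) K := ⟨!![0, (x : K); -(x : K)⁻¹, 0], by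
  rw [Matrix.det_fin_two_of]; simp⟩

lemma wx_val (x : Kˣ) : (wx x).1 = !![0, (x : K); -(x : K)⁻¹, 0] := rfl

lemma wx_eq (x : Kˣ) : wx x = dgs x * SL2Sys.w K := by
  apply Subtype.ext
  show (wx x).1 = (dgs x).1 * (SL2Sys.w K).1
  rw [wx_val, dgs_val]
  simp only [SL2Sys.w]
  ext i j
  fin_cases i <;> fin_cases j <;> simp [Matrix.mul_apply, Fin.sum_univ_two]

lemma slc_wx (a x : Kˣ) : slc a (wx x) = wx (a * x) := by
  apply Subtype.ext
  show slcM a (wx x).1 = (wx (a * x)).1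
  rw [wx_val, wx_val]
  ext i j
  fin_cases i <;> fin_cases j <;> simp [slcM, mul_comm]

/-- the theorem of Lang for `SL₂`, explicitly -/
lemma sl_lang (τ : K →+* K) {ε ρ ω : Kˣ} (h1 : (ω : K) * ρ = ε * τ ρ) (h2 : (ω : K) * τ ω = 1) (h3 : ω ≠ 1) :
    ∃ (A : SpecialLinearGroup (Fin 2) K) (x : Kˣ), slc ε (SpecialLinearGroup.map τ A) = A * wx x := by
  have hω : (ω : K) - 1 ≠ 0 := fun h => h3 (Units.ext (sub_eq_zero.1 h))
  have hε0 : (ε : K) ≠ 0 := ε.ne_zero
  have hρ0 : (ρ : K) ≠ 0 := ρ.ne_zero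
  have hω0 : (ω : K) ≠ 0 := ω.ne_zero
  have hτω : τ ω = (ω : K)⁻¹ := eq_inv_of_mul_eq_one_right h2
  have hτρ : τ ρ = ω * ρ * (ε : K)⁻¹ := by
    rw [h1]; field_simp
  have hτε0 : τ ε ≠ 0 := by
    rw [← map_zero τ]; exact fun h => hε0 (τ.injective h)
  obtain ⟨x, hx⟩ : ∃ x : Kˣ, (x : K) = ε * (ρ : K)⁻¹ * ((ω : K) - 1)⁻¹ :=
    ⟨Units.mk0 _ (mul_ne_zero (mul_ne_zero hε0 (inv_ne_zero hρ0)) (inv_ne_zero hω)), rfl⟩
  have hx0 : (x : K) ≠ 0 := x.ne_zero
  have hx1 : (x : K) * ρ * (ω - 1) = ε := by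
    rw [hx]; field_simp
  have hinv : (ω : K)⁻¹ - 1 ≠ 0 := by
    intro h
    apply hω
    have : (ω : K)⁻¹ = 1 := sub_eq_zero.1 h
    rw [inv_eq_one.1 this, sub_self]
  -- the image of `x`
  have hτx : τ x = -(τ ε * x) * (ε : K)⁻¹ * (ε * (ε : K)⁻¹) * ε * (1 : K) := by
    have e1 : τ (x : K) * τ ρ * (τ ω - 1) = τ ε := by
      rw [← hx1, map_mul, map_mul, map_sub, map_one]
    rw [hτω, hτρ] at e1
    have e2 : τ (x : K) * (ρ * (ω - 1)) = - (τ ε * ε) := by
      have e3 : τ (x : K) * (ω * ρ * (ε : K)⁻¹) * ((ω : K)⁻¹ - 1) * ε = τ ε * ε := by rw [e1]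
      have e4 : τ (x : K) * (ω * ρ * (ε : K)⁻¹) * ((ω : K)⁻¹ - 1) * ε = - (τ (x : K) * (ρ * (ω - 1))) := by
        field_simp; ring
      rw [e4] at e3
      rw [← e3]; ring
    have e5 : (ρ : K) * (ω - 1) = (x : K)⁻¹ * ε := by
      rw [← hx1]; field_simp
    rw [e5] at e2
    have e6 : τ (x : K) * ε = -(τ ε * ε) * x := by
      rw [← e2]; field_simp
    have e7 : τ (x : K) = -(τ ε) * x := by
      have e8 : τ (x : K) * ε = (-(τ ε) * x) * ε := by rw [e6]; ring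
      exact mul_right_cancel₀ hε0 e8
    rw [e7]; field_simp
  have hτx' : τ x = -(τ ε * x) := by
    rw [hτx]; field_simp
  refine ⟨⟨!![(ρ : K), -(x * τ ρ); 1, -(x * (ε : K)⁻¹)], ?_⟩, x, ?_⟩
  · rw [Matrix.det_fin_two_of, hτρ]
    have : (ρ : K) * -(x * (ε : K)⁻¹) - -(x * (ω * ρ * (ε : K)⁻¹)) * 1 = (x * ρ * (ω - 1)) * (ε : K)⁻¹ := by ring
    rw [this, hx1, mul_inv_cancel₀ hε0]
  · apply Subtype.ext
    show slcM ε ((!![(ρ : K), -(x * τ ρ); 1, -(x * (ε : K)⁻¹)] : Matrix (Fin 2) (Fin 2) K).map τ) =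
      !![(ρ : K), -(x * τ ρ); 1, -(x * (ε : K)⁻¹)] * (wx x).1
    rw [wx_val]
    have hττρ : ε * (τ ε * τ (τ ρ)) = (ρ : K) := by
      have e1 := congrArg τ h1
      rw [map_mul, map_mul] at e1
      have e2 : ε * (τ ω * τ ρ) = (ρ : K) := by
        rw [hτω, hτρ]; field_simp
      rw [← e1, e2]
    ext i j
    fin_cases i <;> fin_cases j
    · simp [slcM, Matrix.mul_apply, Fin.sum_univ_two]
      field_simp
    · simp [slcM, Matrix.mul_apply, Fin.sum_univ_two]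
      rw [hτx']
      have : ε * (τ ε * x * τ (τ ρ)) = ε * (τ ε * τ (τ ρ)) * (x : K) := by ring
      rw [neg_mul, mul_neg, _root_.neg_neg, this, hττρ]
    · simp [slcM, Matrix.mul_apply, Fin.sum_univ_two]
      field_simp
    · simp [slcM, Matrix.mul_apply, Fin.sum_univ_two]
      rw [hτx']
      field_simp

end sl

variable {D : ChevalleyDatum} {F K : Type*} [Field F] [Field K] (E : DData D)

/-- the action of `N` on the subgroups `SL₂` -/
theorem N_th (hD : D ∈ data) {n : GL D.Idx K} (hn : n ∈ (chev E (good_of_mem hD) K).N)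
    {u : Equiv.Perm (Fin D.nroots)} (hu : (chev E (good_of_mem hD) K).Act n u) (s : Fin D.nroots) :
    ∃ ε : Kˣ, ∀ A, n * th hD K s A * n⁻¹ = th hD K (u s) (slc ε A) := by
  have G := good_of_mem hD
  have S := sp_of_mem hD
  obtain ⟨l, h, hh, rfl⟩ := RGrp.exists_nd hn
  have h1 : E.rp.wsys.wd l = u := by
    have := ((RGrp.act_nd (R := chev E (good_of_mem hD) K) l).mul (RGrp.act_H hh)).unique hu
    rwa [mul_one] at this
  obtain ⟨c, hc⟩ := diag_eq_tor hD S (h := h) hh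
  rw [θ_tor] at hc
  obtain ⟨e, e1, e2, e3⟩ := (stOf G K).toPreSt.word_act S E l
  have he : ((e s : ℤ) : K) ≠ 0 := by
    rcases e1 s with h | h <;> rw [h] <;> simp
  have he2 : (((Units.mk0 _ he)⁻¹ : Kˣ) : K) = ((e s : ℤ) : K) := by
    rw [Units.val_inv_eq_inv_val, Units.val_mk0]
    rcases e1 s with h | h <;> rw [h] <;> simp
  have key : ∀ A, (chev E (good_of_mem hD) K).nd l * th hD K s A * ((chev E (good_of_mem hD) K).nd l)⁻¹ =
      th hD K (u s) (slc (Units.mk0 _ he) A) := by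
    have hx : ∀ (r : Fin D.nroots) (t : K), (chev E (good_of_mem hD) K).nd l * xU G.toGood2 r t * ((chev E (good_of_mem hD) K).nd l)⁻¹ =
        xU G.toGood2 (u r : Fin D.nroots) ((e r : K) * t) := by
      intro r t
      have h4 := congrArg (stOf G K).θ (e3 r t)
      rw [map_mul, map_mul, map_inv, (stOf G K).θ_x r.2, (stOf G K).θ_x (Fin.isLt _), h1] at h4
      have h5 : (stOf G K).θ ((l.map fun i : Fin D.rank => (stOf G K).toPreSt.nr (D.simple i.val) 1).prod) =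
          (chev E (good_of_mem hD) K).nd l := θ_nd E G S l
      rw [h5] at h4
      exact h4
    have : ((MulAut.conj ((chev E (good_of_mem hD) K).nd l)).toMonoidHom).comp (th hD K s) =
        (th hD K (u s)).comp (slc (Units.mk0 _ he)) := by
      apply sl_hom_ext
      · intro t
        show MulAut.conj ((chev E (good_of_mem hD) K).nd l) (th hD K s (SL2Sys.X t)) =
          th hD K (u s) (slc (Units.mk0 _ he) (SL2Sys.X t))
        have h1 : slc (Units.mk0 _ he) (SL2Sys.X t) = SL2Sys.X ((Units.mk0 _ he : Kˣ) * t) := by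
          apply Subtype.ext
          show slcM (Units.mk0 _ he) (SL2Sys.X t).1 = (SL2Sys.X ((Units.mk0 _ he : Kˣ) * t)).1
          ext i j
          fin_cases i <;> fin_cases j <;> simp [SL2Sys.X, slcM]
        rw [h1, th_X, th_X, MulAut.conj_apply]
        exact hx s t
      · intro t
        show MulAut.conj ((chev E (good_of_mem hD) K).nd l) (th hD K s (SL2Sys.Y t)) =
          th hD K (u s) (slc (Units.mk0 _ he) (SL2Sys.Y t))
        have h1' : slc (Units.mk0 _ he) (SL2Sys.Y t) = SL2Sys.Y (((Units.mk0 _ he : Kˣ) : K)⁻¹ * t) := by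
          apply Subtype.ext
          show slcM (Units.mk0 _ he) (SL2Sys.Y t).1 = (SL2Sys.Y (((Units.mk0 _ he : Kˣ) : K)⁻¹ * t)).1
          ext i j
          fin_cases i <;> fin_cases j <;> simp [SL2Sys.Y, slcM]
        rw [h1', th_Y, th_Y, MulAut.conj_apply]
        have h6 := hx (E.rp.neg s) t
        have hu' : u ∈ E.rp.wsys.W := hu.mem
        have h7 : u (E.rp.neg s) = E.rp.neg (u s) := E.rp.wsys.W_neg hu' s
        rw [h7, E.hneg, E.hneg, e2] at h6
        rw [h6, ← Units.val_inv_eq_inv_val, he2]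
    intro A
    exact DFunLike.congr_fun this A
  refine ⟨Units.mk0 _ he * chr D (StSt.torChi D c) s, fun A => ?_⟩
  rw [← slc_slc, ← key, ← torHom_th hD s, ← hc]
  group

/-- monomial elements of the subgroups `SL₂` -/
theorem th_wx (hD : D ∈ data) {v : Equiv.Perm (Fin D.nroots)} (hv : v ∈ E.rp.wsys.W) (i : Fin D.rank) (x : Kˣ) :
    th hD K (v (E.rp.wsys.p i)) (wx x) ∈ (chev E (good_of_mem hD) K).N ∧
      (chev E (good_of_mem hD) K).Act (th hD K (v (E.rp.wsys.p i)) (wx x)) (v * E.rp.wsys.w i * v⁻¹) := by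
  have G := good_of_mem hD
  obtain ⟨m, hm, hmv⟩ := RGrp.exists_act_of_mem (R := chev E (good_of_mem hD) K) hv
  obtain ⟨ε, hε⟩ := N_th E hD hm hmv (E.rp.wsys.p i)
  have h1 : th hD K (E.rp.wsys.p i) (wx (ε⁻¹ * x)) = ChevU.torHom D K (chiH D (E.rp.wsys.p i) (ε⁻¹ * x)) *
      (chev E (good_of_mem hD) K).nn i := by
    rw [wx_eq, map_mul, th_dgs, sl_w_eq, map_mul, map_mul, th_X, th_Y, chev_nn]
    congr 1
    have e1 : ((E.rp.wsys.p i : Fin D.nroots) : ℕ) = D.simple i := E.hp i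
    rw [e1]
    show _ = Inst.nU G (D.simple i) 1
    rw [Inst.nU_eq, inv_one]
  have h2 : th hD K (v (E.rp.wsys.p i)) (wx x) = m * (ChevU.torHom D K (chiH D (E.rp.wsys.p i) (ε⁻¹ * x)) *
      (chev E (good_of_mem hD) K).nn i) * m⁻¹ := by
    rw [← h1, hε, slc_wx, mul_inv_cancel_left]
  have h3 : ChevU.torHom D K (chiH D (E.rp.wsys.p i) (ε⁻¹ * x)) ∈ (chev E (good_of_mem hD) K).H := chiH_mem hD _ _
  rw [h2]
  refine ⟨mul_mem (mul_mem hm (mul_mem (RGrp.H_le_N _ h3) (RGrp.nn_mem_N _ i))) (inv_mem hm), ?_⟩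
  have := (hmv.mul ((RGrp.act_H h3).mul (RGrp.act_nn i))).mul hmv.inv
  rwa [one_mul] at this

end Cfsg.Agent.ChevF
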