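import Cfsg.Agent.ChevF.E7Q

set_option autoImplicit false

/-!
The self-centralizing torus of type E7 (helper19).
-/

namespace Cfsg.Agent.ChevF

open Cfsg.Lie Cfsg.Agent.Chev Cfsg.Agent.ChevGrp Cfsg.Agent.Steinb Matrix Polynomial

/-- the frame of type E7 -/
theorem frame7 (E : DData chevE7) {F K : Type*} [Field F] [Fintype F] [Field K] [Fintype K] (ι : F →+* K) (σ : K →+* K)
    {q N : ℕ} (hF : Fintype.card F = q) (hσ : ∀ t, σ t = t ^ q) (hι : ∀ t, σ (ι t) = ι t)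
    (hK : Fintype.card K = q ^ N) (h12 : 12 ∣ N) {r : ℕ} [hr : Fact r.Prime] (hrq : r ∣ q ^ 4 - q ^ 2 + 1) (hr12 : ¬ r ∣ 12) :
    ∃ g ∈ chevE7.group K, ∃ n ∈ (chev E (good_of_mem hE7) K).N, ∃ u : Equiv.Perm (Fin chevE7.nroots),
      (chev E (good_of_mem hE7) K).Act n u ∧ g⁻¹ * glMap chevE7.Idx σ g = n ∧
      ∃ sb : Fin chevE7.nroots, ∃ w : Fin 7 → ℤ, rv7 sb ⬝ᵥ (CE7 *ᵥ (wm7 E u *ᵥ rv7 sb)) = 0 ∧
        rv7 sb ⬝ᵥ (CE7 *ᵥ (wm7 E u *ᵥ (wm7 E u *ᵥ rv7 sb))) = 0 ∧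
        wm7 E u *ᵥ (wm7 E u *ᵥ (wm7 E u *ᵥ rv7 sb)) = -rv7 sb ∧ w ≠ 0 ∧ (aeval (wm7 E u) (cyclotomic 12 ℤ)) *ᵥ w = 0 := by
  have hq2 : 2 ≤ q := by rw [← hF]; exact two_le_card F
  obtain ⟨E₆⟩ := DData.nonempty_of_mem (D := chevE6) hE6
  obtain ⟨g, hg, n, hn, u, -, hact, hgn, ⟨v, hv0, hv⟩, -⟩ := frame6 E₆ ι σ hF hσ hι hK h12 hrq hr12
  obtain ⟨l, hl, g7, hg7, n7, hn7, hact7, hgn7⟩ := frame67 E₆ E hg hn hact hgn
  rw [hl] at hv
  obtain ⟨u7, hu7⟩ : ∃ u7, u7 = wd7 E (l.map Fin.castSucc) := ⟨_, rfl⟩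
  rw [← hu7] at hact7
  obtain ⟨s, hs6, hs3, hs2⟩ := exists_triple E₆ E hv0 hv hu7
  have hu7W : u7 ∈ E.rp.wsys.W := by rw [hu7]; exact wd7_mem E _
  obtain ⟨x, hx, i, hxi⟩ := conj7 E s
  have hN : 0 < N := by
    by_contra h
    have : N = 0 := by omega
    rw [this, pow_zero] at hK
    have := Fintype.one_lt_card (α := K)
    omega
  have h6N : 6 ∣ N := (by norm_num : 6 ∣ 12).trans h12
  have hC := wm7_C E hu7W
  have hinv := dot_inv hC
  have hsym := dot_comm_of_sym CE7_sym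
  have r1 : ∀ s, rv7 (u7 s) = wm7 E u7 *ᵥ rv7 s := fun s => rv7_W E hu7W s
  have o12 : rv7 s ⬝ᵥ (CE7 *ᵥ rv7 (u7 s)) = 0 := hs2
  have o23 : rv7 (u7 s) ⬝ᵥ (CE7 *ᵥ rv7 (u7 (u7 s))) = 0 := by
    rw [r1 (u7 s)]
    nth_rw 1 [r1 s]
    rw [hinv, hs2]
  have o13 : rv7 s ⬝ᵥ (CE7 *ᵥ rv7 (u7 (u7 s))) = 0 := by
    rw [hsym]
    nth_rw 2 [← hs3]
    rw [r1 (u7 (u7 s))]
    nth_rw 1 [r1 (u7 s)]
    rw [hinv, o23]
  obtain ⟨g', hg', n', hn', hact', hgn'⟩ := lang_step E hE7 hσ hK hq2 h6N hN hg7 hn7 hact7 hgn7 hx i hxi hs3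
    (th_comm7 E o12) (th_comm7 E o13) (th_comm7 E o23)
  obtain ⟨R, hR⟩ : ∃ R, R = x * w7 E i * x⁻¹ := ⟨_, rfl⟩
  have hRW : R ∈ E.rp.wsys.W := by rw [hR]; exact mul_mem (mul_mem hx (w7_mem E i)) (inv_mem hx)
  refine ⟨g', hg', n', hn', R * u7, ?_, hgn', s, J67 *ᵥ v, ?_⟩
  · rw [hR]; exact hact'
  · refine twist7 hC (M₆ := wm6 E₆ (wd6 E₆ l)) ?_ hv0 hv (norm7 E s) ?_ ?_ ?_
    · rw [hu7]; exact wm7_J E E₆ l
    · rw [← r1, ← r1, ← r1, hs3]
    · rw [← r1]; exact hs2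
    · intro y
      rw [wm7_mul E hRW, ← Matrix.mulVec_mulVec, hR, refl7 E hx i, hxi]

lemma cube3 : ∀ x : ZMod 3, x ^ 3 + 1 = 0 → x = -1 := by decide

lemma ev_lam7 {K : Type*} [Field K] (lam : Kˣ) (y : Fin 7 → ℤ) (s : Fin chevE7.nroots) :
    ev ((stOf (good_of_mem hE7) K).θ ((stOf (good_of_mem hE7) K).tor (sp_of_mem hE7) (fun i => lam ^ y i))) s =
      ((lam ^ (y ⬝ᵥ (CE7 *ᵥ rv7 s)) : Kˣ) : K) := by
  rw [← cart7]
  exact ev_lam hE7 (sp_of_mem hE7) lam y s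

set_option maxRecDepth 10000 in
/-- the self-centralizing torus of type E7 -/
theorem torus_E7 {F : Type*} [Field F] [Fintype F] (q : ℕ) (hF : Fintype.card F = q) :
    ∃ H : Subgroup ↥(chevE7.group F), IsCyclic ↥H ∧
      Nat.card ↥H = (q ^ 4 - q ^ 2 + 1) * (q ^ 3 + 1) / Nat.gcd 2 (q - 1) ∧
      Subgroup.centralizer (H : Set ↥(chevE7.group F)) = H := by
  have G := good_of_mem hE7
  have S := sp_of_mem hE7
  obtain ⟨E⟩ := DData.nonempty_of_mem (D := chevE7) hE7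
  have hq2 : 2 ≤ q := by rw [← hF]; exact two_le_card F
  have hq0 : 0 < q := by omega
  obtain ⟨K, i1, i2, ι, σ, hK, hσ, hι, hfix⟩ := exists_ext hF (Nat.mul_pos (Nat.card_pos (α := E.rp.wsys.W)) (by norm_num : 0 < 12))
  obtain ⟨N, hN⟩ : ∃ N, N = Nat.card E.rp.wsys.W * 12 := ⟨_, rfl⟩
  rw [← hN] at hK
  have hWN : Nat.card E.rp.wsys.W ∣ N := by rw [hN]; exact Dvd.intro _ rfl
  have h12N : 12 ∣ N := by rw [hN]; exact Dvd.intro_left _ rfl
  have h6N : 6 ∣ N := (by norm_num : 6 ∣ 12).trans h12N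
  haveI : Finite (GL chevE7.Idx F) := inferInstance
  haveI : Finite (GL chevE7.Idx K) := inferInstance
  obtain ⟨r, hrp, hrq, hr12⟩ := exists_r12 hq2
  haveI hr : Fact r.Prime := ⟨hrp⟩
  obtain ⟨g, hg, n, hn, u, hact, hgn, sb, w, hb12, hb13, hb3, hw0, hw⟩ := frame7 E ι σ hF hσ hι hK h12N hrq hr12
  have hu : u ∈ E.rp.wsys.W := hact.mem
  have hC := wm7_C E hu
  have hb2 := norm7 E sb
  have hcp := charpoly7 hC hb2 hb12 hb13 hb3 hw0 hw
  have hcp' : (wm7 E u⁻¹).charpoly = cyclotomic 12 ℤ * R3 ℤ := by rw [charpoly_inv7 E hu, hcp]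
  have hcp'' : (wm E u⁻¹).charpoly = cyclotomic 12 ℤ * R3 ℤ := hcp'
  have hrz : (r : ℤ) ∣ (cyclotomic 12 ℤ).eval (q : ℤ) := by
    rw [← Int.dvd_natAbs, cyc12_nat]; exact_mod_cast hrq
  have hord := orderOf_of_cyclotomic hrz hr12
  have hr13 := lt_of_orderOf hrz hr12 (by norm_num)
  have hW := card_W7 E hr.out (by omega)
  have hqinj : ∀ x y : K, x ^ q = y ^ q → x = y := by
    intro x y hxy
    rw [← hσ, ← hσ] at hxy
    exact σ.injective hxy
  have hqd : (q : ZMod r) ^ 12 = 1 := by rw [← hord]; exact pow_orderOf_eq_one _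
  have hr1 : r ∣ Fintype.card K - 1 := by
    obtain ⟨k, hk⟩ := h12N
    have h1 : (q : ZMod r) ^ N = 1 := by rw [hk, pow_mul, hqd, one_pow]
    have h2 : 1 ≤ q ^ N := Nat.one_le_pow _ _ hq0
    rw [hK, ← ZMod.natCast_eq_zero_iff, Nat.cast_sub h2]
    push_cast
    rw [h1, sub_self]
  -- the torus of the Steinberg group
  have hinj : Function.Injective ((stOf G K).tor S) :=
    Mult.tor_injective G S (good_of_mem (D := chevE8) (by simp [data]))
      (Mult.emb_of_chk G.toGood1 Mult.slData_E7.sl Mult.slData_E8.sl Mult.chkEmb_E7) (by decide)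
  obtain ⟨f, hf, hf2, hfk⟩ := sc_hom E hE7 S sym7 hinj ι σ hι hfix hσ hg hn hact hgn
  have hcardS : Nat.card (ChevU.mon (A := Kˣ) (Amat E q u)).ker = (q ^ 4 - q ^ 2 + 1) * (q ^ 3 + 1) := by
    rw [card_ker_Amat E hE7 hu hq0 hWN hK hcp'', eval_mul, Int.natAbs_mul, cyc12_nat, R3_nat]
  have hcyc : IsCyclic (ChevU.mon (A := Kˣ) (Amat E q u)).ker := by
    apply cyclic_ker_Amat
    intro ℓ hℓ
    have h1 : (wm E u⁻¹)ᵀ.charpoly = cyclotomic 12 ℤ * R3 ℤ := by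
      rw [Matrix.charpoly_transpose]; exact hcp''
    by_cases hℓ12 : ℓ ∣ 12
    · rcases prime_dvd_12 hℓ.out hℓ12 with h2 | h3
      · subst h2
        rcases Nat.even_or_odd q with he | ho
        · left
          rw [hcardS]
          intro hd
          have h1 : 2 ∣ (q ^ 4 - q ^ 2 + 1) * (q ^ 3 + 1) := (dvd_pow_self 2 (by norm_num)).trans hd
          rcases (Nat.Prime.dvd_mul Nat.prime_two).1 h1 with h2 | h2
          · exact not2_12 q h2
          · have h3 : 2 ∣ q ^ 3 := (even_iff_two_dvd.1 he).trans (dvd_pow_self q (by norm_num))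
            omega
        · right
          have h2 : ((q : ℤ) : ZMod 2) = 1 := by
            have := (ZMod.natCast_eq_one_iff_odd (n := q)).2 ho
            exact_mod_cast this
          exact finrank_ker_le2 h1 (q : ℤ) (by rw [h2]; exact mult_two)
      · subst h3
        by_cases hq3 : ((q : ℤ) : ZMod 3) = -1
        · right
          have h2 : wm7 E u * wm7 E u⁻¹ = 1 := by rw [← wm7_mul E hu, mul_inv_cancel, wm7_one]
          exact finrank3 hC hb2 hb12 hb13 hb3 hw0 hw h2 hq3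
        · left
          rw [hcardS]
          intro hd
          have h1 : 3 ∣ (q ^ 4 - q ^ 2 + 1) * (q ^ 3 + 1) := (dvd_pow_self 3 (by norm_num)).trans hd
          rcases (Nat.Prime.dvd_mul Nat.prime_three).1 h1 with h2 | h2
          · exact not3_12 q h2
          · apply hq3
            have h3 : ((q ^ 3 + 1 : ℕ) : ZMod 3) = 0 := (ZMod.natCast_eq_zero_iff _ _).2 h2
            push_cast at h3 ⊢
            exact cube3 _ h3
    · right
      have h2 : (cyclotomic 12 ℤ * R3 ℤ) ∣ X ^ 12 - 1 := by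
        refine ⟨(X ^ 2 + 1) * (X ^ 3 - 1), ?_⟩
        rw [cyc12]; unfold R3; ring
      exact finrank_ker_le' h1 h2 hℓ12 q
  have hcardK : Nat.card f.ker = Nat.gcd 2 (q - 1) := by
    rw [hfk, Mult.card_chi Mult.cyc_E7, Nat.gcd_comm, Nat.card_units, Nat.card_eq_fintype_card, hF]
  have hcardT : Nat.gcd 2 (q - 1) * Nat.card f.range = (q ^ 4 - q ^ 2 + 1) * (q ^ 3 + 1) := by
    have h1 := Subgroup.card_eq_card_quotient_mul_card_subgroup f.ker
    rw [Nat.card_congr (QuotientGroup.quotientKerEquivRange f).toEquiv, hcardS, hcardK] at h1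
    rw [h1, mul_comm]
  have hgcd0 : 0 < Nat.gcd 2 (q - 1) := Nat.gcd_pos_of_pos_left _ (by norm_num)
  -- membership
  have hmem : ∀ y : ↥(chevE7.group F), y ∈ f.range ↔ g⁻¹ * glMap chevE7.Idx ι (y : GL chevE7.Idx F) * g ∈ chevE7.diagonalSubgroup K := by
    intro y
    constructor
    · rintro ⟨c, rfl⟩
      rw [hf]
      have : g⁻¹ * (g * (stOf G K).θ ((stOf G K).tor S (c : Fin chevE7.rank → Kˣ)) * g⁻¹) * g =
          (stOf G K).θ ((stOf G K).tor S (c : Fin chevE7.rank → Kˣ)) := by group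
      rw [this]
      exact tor_mem_diag hE7 S _
    · intro hy
      obtain ⟨c, hc⟩ := hf2 y hy
      exact ⟨c, hc⟩
  have hcycT : IsCyclic f.range := isCyclic_of_surjective f.rangeRestrict f.rangeRestrict_surjective
  refine ⟨f.range, hcycT, ?_, ?_⟩
  · rw [← hcardT, Nat.mul_div_cancel_left _ hgcd0]
  · -- the generator
    obtain ⟨z0, hz0⟩ := hcycT.exists_generator
    obtain ⟨cj, hcj⟩ : ∃ cj : ↥(chevE7.group F) →* GL chevE7.Idx K, ∀ y : ↥(chevE7.group F),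
        cj y = g⁻¹ * glMap chevE7.Idx ι (y : GL chevE7.Idx F) * g :=
      ⟨((MulAut.conj g⁻¹).toMonoidHom.comp ((glMap chevE7.Idx ι).comp (chevE7.group F).subtype)), fun y => by
        show g⁻¹ * glMap chevE7.Idx ι (y : GL chevE7.Idx F) * g⁻¹⁻¹ = _
        rw [inv_inv]⟩
    have hcjinj : Function.Injective cj := by
      intro y y' h
      rw [hcj, hcj] at h
      apply Subtype.ext
      apply glMap_injective ι
      exact mul_left_cancel (mul_right_cancel h)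
    obtain ⟨t0, ht0d⟩ : ∃ t0, t0 = cj (z0 : ↥(chevE7.group F)) := ⟨_, rfl⟩
    have ht0 : t0 ∈ chevE7.diagonalSubgroup K := by rw [ht0d, hcj]; exact (hmem _).1 z0.2
    have hpows : ∀ y : ↥(chevE7.group F), y ∈ f.range → ∃ m : ℕ, cj y = t0 ^ m := by
      intro y hy
      obtain ⟨m, hm⟩ := mem_powers_iff_mem_zpowers.2 (hz0 ⟨y, hy⟩)
      refine ⟨m, ?_⟩
      have h1 : (z0 : ↥(chevE7.group F)) ^ m = y := congrArg Subtype.val hm
      rw [ht0d, ← map_pow, h1]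
    have hσι : ∀ y : GL chevE7.Idx F, glMap chevE7.Idx σ (glMap chevE7.Idx ι y) = glMap chevE7.Idx ι y := by
      intro y
      apply Units.ext
      rw [glMap_coe, glMap_coe]
      ext i j
      simp [hι]
    have htu : ∀ s, ev t0 (u s) = ev t0 s ^ q := by
      intro s
      have h6 : n * t0 ^ q * n⁻¹ = t0 := by
        rw [← glMap_frob hE7 hσ ht0, ← hgn, ht0d, hcj]
        simp only [map_mul, map_inv, hσι]
        group
      have h7 := N_conj_ev E hE7 hn hact (pow_mem ht0 q) s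
      rw [h6, ev_pow hE7 ht0] at h7
      exact h7
    -- the element of order `r`
    have hrT : r ∣ Nat.card f.range := by
      have h1 : r ∣ Nat.gcd 2 (q - 1) * Nat.card f.range := by rw [hcardT]; exact hrq.mul_right _
      rcases (Nat.Prime.dvd_mul hr.out).1 h1 with h4 | h4
      · exfalso
        have := Nat.le_of_dvd (by norm_num) (h4.trans (Nat.gcd_dvd_left _ _))
        omega
      · exact h4
    obtain ⟨zr, hzr⟩ := exists_prime_orderOf_dvd_card' r hrT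
    obtain ⟨mr, hmr⟩ := hpows zr zr.2
    have htr1 : t0 ^ mr ≠ 1 := by
      rw [← hmr]
      intro h0
      have h1 : (zr : ↥(chevE7.group F)) = 1 := hcjinj (by rw [h0, map_one])
      have h2 : zr = 1 := Subtype.ext h1
      rw [h2, orderOf_one] at hzr
      exact hr.out.one_lt.ne hzr
    have htr : (t0 ^ mr) ^ r = 1 := by
      rw [← hmr, ← map_pow]
      have h1 := pow_orderOf_eq_one zr
      rw [hzr] at h1
      have h2 : (zr : ↥(chevE7.group F)) ^ r = 1 := congrArg Subtype.val h1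
      rw [h2, map_one]
    obtain ⟨ζ, hζ, a, ha⟩ := exists_log E hE7 hr1 (pow_mem ht0 mr) htr
    have hR : ((R3 ℤ).map (Int.castRingHom (ZMod r))).eval (q : ZMod r) ≠ 0 := by
      rw [R3_map]
      unfold R3
      intro h0
      have h1 : (q : ZMod r) ^ 3 = -1 := by
        have h2 : (q : ZMod r) ^ 3 + 1 = 0 := by simpa using h0
        exact eq_neg_of_add_eq_zero_left h2
      have h2 : (q : ZMod r) ^ 6 = 1 := by
        rw [show (6 : ℕ) = 3 * 2 by norm_num, pow_mul, h1]; norm_num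
      have h3 := orderOf_dvd_of_pow_eq_one h2
      rw [hord] at h3
      norm_num at h3
    -- the element of large order
    obtain ⟨lam, hlam⟩ := exists_lam (K := K) hq2 hK h6N
    obtain ⟨b, hb⟩ : ∃ b, b = rv7 sb := ⟨_, rfl⟩
    obtain ⟨M, hM⟩ : ∃ M, M = wm7 E u := ⟨_, rfl⟩
    obtain ⟨y, hy⟩ : ∃ y : Fin 7 → ℤ, y = b + (q : ℤ) • (M *ᵥ b) + ((q : ℤ) ^ 2) • (M *ᵥ (M *ᵥ b)) := ⟨_, rfl⟩
    have hsym := dot_comm_of_sym CE7_sym
    have hyM : ∀ k, (q : ℤ) * (M *ᵥ y) k = y k - (b k) * ((q ^ 3 + 1 : ℕ) : ℤ) := by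
      have h1 : (q : ℤ) • (M *ᵥ y) = y - ((q : ℤ) ^ 3 + 1) • b := by
        rw [hy, Matrix.mulVec_add, Matrix.mulVec_add, Matrix.mulVec_smul, Matrix.mulVec_smul]
        have h2 : M *ᵥ (M *ᵥ (M *ᵥ b)) = -b := by rw [hM, hb]; exact hb3
        rw [h2]
        module
      intro k
      have h2 := congrFun h1 k
      rw [Pi.smul_apply, Pi.sub_apply, Pi.smul_apply, smul_eq_mul, smul_eq_mul] at h2
      rw [h2]; push_cast; ring
    have hyb : y ⬝ᵥ (CE7 *ᵥ b) = 2 := by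
      have h2 : (M *ᵥ b) ⬝ᵥ (CE7 *ᵥ b) = 0 := by rw [hsym, hM, hb]; exact hb12
      have h3 : (M *ᵥ (M *ᵥ b)) ⬝ᵥ (CE7 *ᵥ b) = 0 := by rw [hsym, hM, hb]; exact hb13
      have h4 : b ⬝ᵥ (CE7 *ᵥ b) = 2 := by rw [hb]; exact hb2
      rw [hy]
      simp only [add_dotProduct, smul_dotProduct, h2, h3, h4, smul_eq_mul, mul_zero, add_zero]
    obtain ⟨c, hc⟩ : ∃ c : Fin chevE7.rank → Kˣ, c = (fun i => lam ^ y i) := ⟨_, rfl⟩
    have hker : c ∈ (ChevU.mon (A := Kˣ) (Amat E q u)).ker := by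
      rw [mem_ker_Amat E hE7 hu, hc]
      apply mon_lam
      intro k
      have h1 : (q : ℤ) * (wm E u *ᵥ y) k = y k - (b k) * ((q ^ 3 + 1 : ℕ) : ℤ) := by
        have := hyM k
        rw [hM] at this
        exact this
      have h2 : lam ^ (b k * ((q ^ 3 + 1 : ℕ) : ℤ)) = 1 := by
        rw [mul_comm, _root_.zpow_mul, zpow_natCast, ← hlam, pow_orderOf_eq_one, _root_.one_zpow]
      rw [h1, _root_.zpow_sub, h2, inv_one, mul_one]
    obtain ⟨m1, hm1⟩ := hpows (f ⟨c, hker⟩) ⟨_, rfl⟩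
    have ht1 : ev (t0 ^ m1) sb = ((lam ^ 2 : Kˣ) : K) := by
      have hfc : glMap chevE7.Idx ι ((f ⟨c, hker⟩ : ↥(chevE7.group F)) : GL chevE7.Idx F) =
          g * (stOf (good_of_mem hE7) K).θ ((stOf (good_of_mem hE7) K).tor S c) * g⁻¹ := hf ⟨c, hker⟩
      obtain ⟨X, hX⟩ : ∃ X, X = (stOf (good_of_mem hE7) K).θ ((stOf (good_of_mem hE7) K).tor S c) := ⟨_, rfl⟩
      rw [← hX] at hfc
      have e1 : g⁻¹ * (g * X * g⁻¹) * g = X := by group
      have e2 : ev X sb = ((lam ^ (y ⬝ᵥ (CE7 *ᵥ rv7 sb)) : Kˣ) : K) := by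
        rw [hX, hc]; exact ev_lam7 lam y sb
      rw [← hm1, hcj, hfc, e1, e2, ← hb, hyb, show lam ^ (2 : ℤ) = lam ^ 2 from _root_.zpow_ofNat lam 2]
    obtain ⟨hreg, hst⟩ := stab7 E hu hb12 hb13 hb3 hw0 hw ht0 hq2 htu hqinj hζ htr1 ha hW hR hlam ht1
    ext y'
    rw [Subgroup.mem_centralizer_iff]
    constructor
    · intro hy'
      rw [hmem, ← hcj]
      have h6 := hy' z0 z0.2
      have h7 : cj y' * t0 = t0 * cj y' := by
        rw [ht0d, ← map_mul, ← map_mul, h6]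
      refine cent_eq2 E hE7 ht0 ht0 hreg (fun v hv h1 _ => hst v hv h1) ?_ h7 h7
      rw [hcj]
      exact mul_mem (mul_mem (inv_mem hg) (glMap_mem ι y'.2)) hg
    · intro hy' x hx
      have h6 := diag_comm hE7 ((hmem x).1 hx) ((hmem y').1 hy')
      apply hcjinj
      rw [map_mul, map_mul, hcj, hcj]
      exact h6

end Cfsg.Agent.ChevF
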