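import Cfsg.Agent.ChevF.Tor1
import Cfsg.Agent.ChevU.SLHom

set_option autoImplicit false

/-!
The homomorphisms from `SL₂` to the Chevalley groups (helper19).
-/

namespace Cfsg.Agent.ChevF

open Cfsg.Lie Cfsg.Agent.Chev Cfsg.Agent.ChevGrp Matrix
open Cfsg.Agent.ChevU (SL2Sys)

section sl

variable {K L : Type*} [Field K] [Field L]

lemma sl_w_eq : SL2Sys.w K = SL2Sys.X 1 * SL2Sys.Y (-1) * SL2Sys.X 1 := by
  apply Subtype.ext
  show (SL2Sys.w K).1 = (SL2Sys.X 1).1 * (SL2Sys.Y (-1)).1 * (SL2Sys.X 1).1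
  simp only [SL2Sys.w, SL2Sys.X, SL2Sys.Y]
  ext i j
  fin_cases i <;> fin_cases j <;> simp [Matrix.mul_apply, Fin.sum_univ_two]

lemma sl_hom_ext {M : Type*} [Monoid M] {f g : SpecialLinearGroup (Fin 2) K →* M}
    (h1 : ∀ t, f (SL2Sys.X t) = g (SL2Sys.X t)) (h2 : ∀ t, f (SL2Sys.Y t) = g (SL2Sys.Y t)) : f = g := by
  ext A
  have : A ∈ f.eqLocusM g := by
    apply SL2Sys.mem_of_closed
    · intro t; exact h1 t
    · show f (SL2Sys.w K) = g (SL2Sys.w K)
      rw [sl_w_eq, map_mul, map_mul, map_mul, map_mul, h1, h2]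
  exact this

lemma sl_mem_closure {S : Subgroup (SpecialLinearGroup (Fin 2) K)} (h1 : ∀ t, SL2Sys.X t ∈ S) (h2 : ∀ t, SL2Sys.Y t ∈ S)
    (A : SpecialLinearGroup (Fin 2) K) : A ∈ S := by
  have : A ∈ S.toSubmonoid := by
    apply SL2Sys.mem_of_closed
    · intro t; exact h1 t
    · rw [sl_w_eq]; exact mul_mem (mul_mem (h1 _) (h2 _)) (h1 _)
  exact this

/-- conjugation by `diag(χ, 1)`, on matrices -/
def slcM (χ : Kˣ) (A : Matrix (Fin 2) (Fin 2) K) : Matrix (Fin 2) (Fin 2) K :=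
  !![A 0 0, χ * A 0 1; (χ : K)⁻¹ * A 1 0, A 1 1]

lemma slcM_mul (χ : Kˣ) (A B : Matrix (Fin 2) (Fin 2) K) : slcM χ (A * B) = slcM χ A * slcM χ B := by
  have hχ : (χ : K) ≠ 0 := χ.ne_zero
  ext i j
  fin_cases i <;> fin_cases j <;> simp [slcM, Matrix.mul_apply, Fin.sum_univ_two] <;> field_simp

/-- conjugation by `diag(χ, 1)` -/
def slc (χ : Kˣ) : SpecialLinearGroup (Fin 2) K →* SpecialLinearGroup (Fin 2) K where
  toFun A := ⟨slcM χ A.1, by
    have hχ : (χ : K) ≠ 0 := χ.ne_zero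
    have h := A.2
    rw [Matrix.det_fin_two] at h
    unfold slcM
    rw [Matrix.det_fin_two_of]
    calc A.1 0 0 * A.1 1 1 - χ * A.1 0 1 * ((χ : K)⁻¹ * A.1 1 0) = A.1 0 0 * A.1 1 1 - A.1 0 1 * A.1 1 0 := by
          field_simp
      _ = 1 := h⟩
  map_one' := by
    apply Subtype.ext
    show slcM χ 1 = 1
    ext i j
    fin_cases i <;> fin_cases j <;> simp [slcM]
  map_mul' A B := Subtype.ext (slcM_mul χ A.1 B.1)

lemma slc_val (χ : Kˣ) (A : SpecialLinearGroup (Fin 2) K) : (slc χ A).1 = slcM χ A.1 := rfl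

end sl

variable {D : ChevalleyDatum} {K L : Type*} [Field K] [Field L]

/-- `SL₂ → ⟨X_r, X_{-r}⟩` -/
noncomputable def th (hD : D ∈ data) (K : Type*) [Field K] (r : Fin D.nroots) :
    SpecialLinearGroup (Fin 2) K →* GL D.Idx K :=
  (Cfsg.Agent.ChevU.sl2Sys (ChevU.rootFacts hD) (good_of_mem hD) r.2).hom

variable (hD : D ∈ data) (r : Fin D.nroots)

lemma th_X (t : K) : th hD K r (SL2Sys.X t) = xU (good_of_mem hD).toGood2 r t := by
  unfold th
  rw [SL2Sys.hom_X]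
  apply Units.ext
  rfl

lemma th_Y (t : K) : th hD K r (SL2Sys.Y t) = xU (good_of_mem hD).toGood2 (D.neg r) t := by
  unfold th
  rw [SL2Sys.hom_Y]
  apply Units.ext
  rfl

lemma th_mem_of {S : Subgroup (GL D.Idx K)} (h1 : ∀ t, xU (good_of_mem hD).toGood2 r t ∈ S)
    (h2 : ∀ t, xU (good_of_mem hD).toGood2 (D.neg r) t ∈ S) (A : SpecialLinearGroup (Fin 2) K) : th hD K r A ∈ S := by
  apply sl_mem_closure (S := S.comap (th hD K r))
  · intro t; rw [Subgroup.mem_comap, th_X]; exact h1 t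
  · intro t; rw [Subgroup.mem_comap, th_Y]; exact h2 t

lemma xU_mem (s : ℕ) (t : K) : xU (good_of_mem hD).toGood2 s t ∈ D.group K := mem_group_of_x rfl

lemma th_mem (A : SpecialLinearGroup (Fin 2) K) : th hD K r A ∈ D.group K :=
  th_mem_of hD r (fun t => xU_mem hD _ t) (fun t => xU_mem hD _ t) A

lemma sl_map_X (σ : K →+* L) (t : K) : SpecialLinearGroup.map σ (SL2Sys.X t) = SL2Sys.X (σ t) := by
  apply Subtype.ext
  show (SL2Sys.X t).1.map σ = (SL2Sys.X (σ t)).1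
  ext i j
  fin_cases i <;> fin_cases j <;> simp [SL2Sys.X]

lemma sl_map_Y (σ : K →+* L) (t : K) : SpecialLinearGroup.map σ (SL2Sys.Y t) = SL2Sys.Y (σ t) := by
  apply Subtype.ext
  show (SL2Sys.Y t).1.map σ = (SL2Sys.Y (σ t)).1
  ext i j
  fin_cases i <;> fin_cases j <;> simp [SL2Sys.Y]

lemma th_map (σ : K →+* L) (A : SpecialLinearGroup (Fin 2) K) :
    glMap D.Idx σ (th hD K r A) = th hD L r (SpecialLinearGroup.map σ A) := by
  have : (glMap D.Idx σ).comp (th hD K r) = (th hD L r).comp (SpecialLinearGroup.map σ) := by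
    apply sl_hom_ext
    · intro t
      show glMap D.Idx σ (th hD K r (SL2Sys.X t)) = th hD L r (SpecialLinearGroup.map σ (SL2Sys.X t))
      rw [th_X, glMap_xU, sl_map_X, th_X]
    · intro t
      show glMap D.Idx σ (th hD K r (SL2Sys.Y t)) = th hD L r (SpecialLinearGroup.map σ (SL2Sys.Y t))
      rw [th_Y, glMap_xU, sl_map_Y, th_Y]
  exact DFunLike.congr_fun this A

lemma th_diag (u : Kˣ) {A : SpecialLinearGroup (Fin 2) K} (h0 : A.1 0 0 = u) (h1 : A.1 1 0 = 0) (h2 : A.1 0 1 = 0) :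
    th hD K r A = ChevU.torHom D K (chiH D r u) := by
  have hR := ChevU.rootFacts hD
  have G := good_of_mem hD
  rw [← ChevU.hU_eq_torHom hR G r.2, ChevU.hU_eq, ChevU.nU_eq, ChevU.nU_eq]
  show (Cfsg.Agent.ChevU.sl2Sys hR G r.2).φ A = _
  rw [SL2Sys.φ_of_zero _ h1, h0, h2, zero_div, SL2Sys.x_zero, mul_one]
  rfl

lemma torHom_xU (χ : ℕ → Kˣ) (s : ℕ) (hs : s < D.nroots) (t : K) :
    ChevU.torHom D K χ * xU (good_of_mem hD).toGood2 s t * (ChevU.torHom D K χ)⁻¹ =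
      xU (good_of_mem hD).toGood2 s ((chr D χ s : Kˣ) * t) := by
  rw [mul_inv_eq_iff_eq_mul]
  apply Units.ext
  exact tD_mul_x (good_of_mem hD) χ hs t

include hD in
lemma chr_neg (χ : ℕ → Kˣ) : chr D χ (D.neg r) = (chr D χ r)⁻¹ := by
  unfold chr
  rw [← Finset.prod_inv_distrib]
  refine Finset.prod_congr rfl fun j hj => ?_
  rw [(good_of_mem hD).neg_eq r r.2, (good_of_mem hD).vec_neg' j (Finset.mem_range.1 hj) r r.2, _root_.zpow_neg]

lemma torHom_th (χ : ℕ → Kˣ) (A : SpecialLinearGroup (Fin 2) K) :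
    ChevU.torHom D K χ * th hD K r A * (ChevU.torHom D K χ)⁻¹ = th hD K r (slc (chr D χ r) A) := by
  have : ((MulAut.conj (ChevU.torHom D K χ)).toMonoidHom).comp (th hD K r) = (th hD K r).comp (slc (chr D χ r)) := by
    apply sl_hom_ext
    · intro t
      show MulAut.conj (ChevU.torHom D K χ) (th hD K r (SL2Sys.X t)) = th hD K r (slc (chr D χ r) (SL2Sys.X t))
      have h1 : slc (chr D χ r) (SL2Sys.X t) = SL2Sys.X ((chr D χ r : Kˣ) * t) := by
        apply Subtype.ext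
        show slcM (chr D χ r) (SL2Sys.X t).1 = (SL2Sys.X ((chr D χ r : Kˣ) * t)).1
        ext i j
        fin_cases i <;> fin_cases j <;> simp [SL2Sys.X, slcM]
      rw [h1, th_X, th_X, MulAut.conj_apply, torHom_xU hD χ r r.2]
    · intro t
      show MulAut.conj (ChevU.torHom D K χ) (th hD K r (SL2Sys.Y t)) = th hD K r (slc (chr D χ r) (SL2Sys.Y t))
      have h1 : slc (chr D χ r) (SL2Sys.Y t) = SL2Sys.Y ((chr D χ r : Kˣ)⁻¹ * t) := by
        apply Subtype.ext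
        show slcM (chr D χ r) (SL2Sys.Y t).1 = (SL2Sys.Y ((chr D χ r : Kˣ)⁻¹ * t)).1
        ext i j
        fin_cases i <;> fin_cases j <;> simp [SL2Sys.Y, slcM]
      rw [h1, th_Y, th_Y, MulAut.conj_apply, torHom_xU hD χ _ (neg_lt (good_of_mem hD).toGood1 r.2), chr_neg hD r,
        Units.val_inv_eq_inv_val]
  exact DFunLike.congr_fun this A

end Cfsg.Agent.ChevF
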