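import Mathlib.GroupTheory.FiniteAbelian.Basic
import Mathlib.GroupTheory.Sylow
import Mathlib.GroupTheory.SpecificGroups.Cyclic
import Mathlib.GroupTheory.Perm.Cycle.Type

set_option autoImplicit false

/-!
Homocyclic groups, and Sylow subgroups stable under an automorphism of prime order (helper19).
-/

namespace Cfsg.Agent.ChevF

open scoped Pointwise

section homocyclic

variable {A : Type*} [CommGroup A] [Finite A] {r : ℕ} [hr : Fact r.Prime]

lemma card_ker_pow_congr {B C : Type*} [CommGroup B] [CommGroup C] (e : B ≃* C) (n : ℕ) :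
    Nat.card (powMonoidHom n : B →* B).ker = Nat.card (powMonoidHom n : C →* C).ker := by
  apply Nat.card_congr
  refine e.toEquiv.subtypeEquiv fun x => ?_
  rw [MonoidHom.mem_ker, MonoidHom.mem_ker]
  show x ^ n = 1 ↔ (e x) ^ n = 1
  rw [← map_pow, map_eq_one_iff e e.injective]

lemma card_ker_pow_pi {ι : Type*} [Fintype ι] {B : ι → Type*} [∀ i, CommGroup (B i)] (n : ℕ) :
    Nat.card (powMonoidHom n : (∀ i, B i) →* (∀ i, B i)).ker = ∏ i, Nat.card (powMonoidHom n : B i →* B i).ker := by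
  rw [← Nat.card_pi]
  apply Nat.card_congr
  refine ⟨fun x i => ⟨x.1 i, congrFun x.2 i⟩, fun x => ⟨fun i => (x i).1, funext fun i => (x i).2⟩, fun x => rfl, fun x => rfl⟩

theorem homocyclic_aux {m : ℕ} (hexp : ∀ x : A, x ^ r ^ m = 1) : ∃ (ι : Type) (_ : Fintype ι) (e : ι → ℕ),
    (∀ i, 1 ≤ e i ∧ e i ≤ m) ∧ Nonempty (A ≃* ((i : ι) → Multiplicative (ZMod (r ^ e i)))) ∧
      ∀ k, Nat.card (powMonoidHom (r ^ k) : A →* A).ker = r ^ ∑ i, min (e i) k := by
  classical
  obtain ⟨ι, i1, n, hn, ⟨f⟩⟩ := CommGroup.equiv_prod_multiplicative_zmod_of_finite A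
  have h1 : ∀ i, ∃ e, 1 ≤ e ∧ e ≤ m ∧ n i = r ^ e := by
    intro i
    have h2 : n i ∣ r ^ m := by
      let x : (i : ι) → Multiplicative (ZMod (n i)) := Pi.mulSingle i (Multiplicative.ofAdd 1)
      have h3 := hexp (f.symm x)
      rw [← map_pow, map_eq_one_iff f.symm f.symm.injective] at h3
      have h4 := congrFun h3 i
      simp only [x, Pi.pow_apply, Pi.mulSingle_eq_same, Pi.one_apply] at h4
      rw [← ofAdd_nsmul] at h4
      have h5 : (r ^ m) • (1 : ZMod (n i)) = 0 := h4
      rw [nsmul_eq_mul, mul_one, ZMod.natCast_eq_zero_iff] at h5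
      exact h5
    obtain ⟨e, he, h6⟩ := (Nat.dvd_prime_pow hr.out).1 h2
    refine ⟨e, ?_, he, h6⟩
    by_contra hcon
    have : e = 0 := by omega
    have h7 := hn i
    rw [h6, this, pow_zero] at h7
    exact absurd h7 (lt_irrefl _)
  choose e he1 he2 he3 using h1
  obtain rfl : n = fun i => r ^ e i := funext he3
  refine ⟨ι, i1, e, fun i => ⟨he1 i, he2 i⟩, ⟨f⟩, fun k => ?_⟩
  rw [card_ker_pow_congr f, card_ker_pow_pi, ← Finset.prod_pow_eq_pow_sum]
  refine Finset.prod_congr rfl fun i _ => ?_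
  have : NeZero (r ^ e i) := ⟨pow_ne_zero _ hr.out.ne_zero⟩
  have : Finite (Multiplicative (ZMod (r ^ e i))) := inferInstance
  rw [IsCyclic.card_powMonoidHom_ker]
  have h8 : Nat.card (Multiplicative (ZMod (r ^ e i))) = r ^ e i := by
    rw [Nat.card_congr Multiplicative.toAdd, Nat.card_zmod]
  rw [h8]
  rcases le_total (e i) k with h | h
  · rw [min_eq_left h]; exact Nat.gcd_eq_left (pow_dvd_pow r h)
  · rw [min_eq_right h]; exact Nat.gcd_eq_right (pow_dvd_pow r h)

/-- the number of elements of order dividing `r` -/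
theorem card_torsion_of {m a : ℕ} (hm : 1 ≤ m) (hexp : ∀ x : A, x ^ r ^ (m + 1) = 1) (hA : Nat.card A = r ^ (a * (m + 1)))
    (hT : Nat.card (powMonoidHom (r ^ m) : A →* A).ker = r ^ (a * m)) :
    Nat.card (powMonoidHom r : A →* A).ker = r ^ a := by
  obtain ⟨ι, i1, e, he, -, hk⟩ := homocyclic_aux hexp
  have h1 := hk m
  rw [hT] at h1
  have h2 := Nat.pow_right_injective hr.out.two_le h1
  have h3 := hk (m + 1)
  have h4 : (powMonoidHom (r ^ (m + 1)) : A →* A).ker = ⊤ := by
    rw [eq_top_iff]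
    intro x _
    exact hexp x
  rw [h4, Nat.card_congr Subgroup.topEquiv.toEquiv, hA] at h3
  have h5 := Nat.pow_right_injective hr.out.two_le h3
  have h6 : ∀ i, min (e i) (m + 1) = e i := fun i => min_eq_left (he i).2
  rw [Finset.sum_congr rfl (fun i _ => h6 i)] at h5
  have h7 := hk 1
  rw [pow_one] at h7
  rw [h7]
  congr 1
  have h8 : ∀ i, min (e i) 1 = 1 := fun i => min_eq_right (he i).1
  rw [Finset.sum_congr rfl (fun i _ => h8 i)]
  -- `(m + 1) * min e m ≥ m * e`
  have h9 : ∑ i, ((m + 1) * min (e i) m - m * e i) = 0 := by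
    have h10 : ∀ i, m * e i ≤ (m + 1) * min (e i) m := by
      intro i
      rcases le_total (e i) m with h | h
      · rw [min_eq_left h]; nlinarith
      · rw [min_eq_right h]; nlinarith [(he i).2]
    have h11 : ∑ i, ((m + 1) * min (e i) m - m * e i) + ∑ i, m * e i = ∑ i, (m + 1) * min (e i) m := by
      rw [← Finset.sum_add_distrib]
      exact Finset.sum_congr rfl fun i _ => Nat.sub_add_cancel (h10 i)
    rw [← Finset.mul_sum, ← Finset.mul_sum, ← h2, ← h5] at h11
    have : (m + 1) * (a * m) = m * (a * (m + 1)) := by ring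
    beta_reduce at h11
    omega
  rw [Finset.sum_eq_zero_iff] at h9
  have h12 : ∀ i, e i = m + 1 := by
    intro i
    have h13 := h9 i (Finset.mem_univ i)
    obtain ⟨h14, h15⟩ := he i
    rcases le_or_gt (e i) m with h | h
    · rw [min_eq_left h] at h13
      have : (m + 1) * e i = m * e i + e i := by ring
      omega
    · omega
  rw [Finset.sum_congr rfl (fun i _ => h12 i)] at h5
  simp only [Finset.sum_const, Finset.card_univ, smul_eq_mul] at h5
  rw [Finset.sum_const, Finset.card_univ, smul_eq_mul, mul_one]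
  exact (Nat.eq_of_mul_eq_mul_right (Nat.succ_pos m) h5).symm

/-- homocyclic groups -/
theorem homocyclic_of {m a : ℕ} (hm : 1 ≤ m) (hexp : ∀ x : A, x ^ r ^ m = 1) (hA : Nat.card A = r ^ (a * m))
    (hT : Nat.card (powMonoidHom r : A →* A).ker = r ^ a) : Nonempty (A ≃* (Fin a → Multiplicative (ZMod (r ^ m)))) := by
  obtain ⟨ι, i1, e, he, ⟨f⟩, hk⟩ := homocyclic_aux hexp
  have h1 := hk 1
  rw [pow_one, hT] at h1
  have h2 := Nat.pow_right_injective hr.out.two_le h1
  have h8 : ∀ i, min (e i) 1 = 1 := fun i => min_eq_right (he i).1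
  rw [Finset.sum_congr rfl (fun i _ => h8 i), Finset.sum_const, Finset.card_univ, smul_eq_mul, mul_one] at h2
  have h3 := hk m
  have h4 : (powMonoidHom (r ^ m) : A →* A).ker = ⊤ := by
    rw [eq_top_iff]
    intro x _
    exact hexp x
  rw [h4, Nat.card_congr Subgroup.topEquiv.toEquiv, hA] at h3
  have h5 := Nat.pow_right_injective hr.out.two_le h3
  have h6 : ∀ i, min (e i) m = e i := fun i => min_eq_left (he i).2
  rw [Finset.sum_congr rfl (fun i _ => h6 i)] at h5
  have h7 : ∑ i, (m - e i) = 0 := by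
    have h10 : ∑ i, (m - e i) + ∑ i, e i = ∑ _i : ι, m := by
      rw [← Finset.sum_add_distrib]
      exact Finset.sum_congr rfl fun i _ => Nat.sub_add_cancel (he i).2
    rw [Finset.sum_const, Finset.card_univ, smul_eq_mul, ← h2, ← h5] at h10
    beta_reduce at h10
    omega
  rw [Finset.sum_eq_zero_iff] at h7
  obtain rfl : e = fun _ => m := by
    funext i
    have := h7 i (Finset.mem_univ i)
    have := (he i).2
    omega
  refine ⟨f.trans (MulEquiv.arrowCongr (Fintype.equivFinOfCardEq h2.symm) (MulEquiv.refl _))⟩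

end homocyclic

section stable

variable {G : Type*} [Group G] [Finite G] {r : ℕ} [hr : Fact r.Prime]

/-- a Sylow subgroup which contains a given subgroup of fixed points and is stable under an automorphism of order `r` -/
theorem exists_stable_sylow (φ : MulAut G) (hφ : φ ^ r = 1) {P : Subgroup G} (hP : IsPGroup r P) (hfix : ∀ x ∈ P, φ x = x) :
    ∃ Q : Sylow r G, P ≤ (Q : Subgroup G) ∧ ∀ x ∈ (Q : Subgroup G), φ x ∈ (Q : Subgroup G) := by
  classical
  have : Finite (Sylow r G) := inferInstance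
  have : Fintype {Q : Sylow r G // P ≤ (Q : Subgroup G)} := Fintype.ofFinite _
  have h1 : ¬ r ∣ Fintype.card {Q : Sylow r G // P ≤ (Q : Subgroup G)} := by
    have h2 := hP.card_modEq_card_fixedPoints (Sylow r G)
    have h3 := card_sylow_modEq_one r G
    have h4 : Nat.card ↑(MulAction.fixedPoints P (Sylow r G)) = Fintype.card {Q : Sylow r G // P ≤ (Q : Subgroup G)} := by
      rw [← Nat.card_eq_fintype_card]
      exact Nat.card_congr (Equiv.subtypeEquivRight fun Q => hP.sylow_mem_fixedPoints_iff)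
    rw [h4] at h2
    have h5 := h2.symm.trans h3
    intro h6
    have h7 := (Nat.modEq_zero_iff_dvd.2 h6).symm.trans h5
    rw [Nat.ModEq, Nat.zero_mod, Nat.mod_eq_of_lt hr.out.one_lt] at h7
    exact zero_ne_one h7
  have hmem : ∀ (ψ : MulAut G) (Q : Sylow r G) (x : G), x ∈ (Q : Subgroup G) → ψ x ∈ ((ψ • Q : Sylow r G) : Subgroup G) := by
    intro ψ Q x hx
    rw [Sylow.pointwise_smul_def]
    exact Subgroup.smul_mem_pointwise_smul x ψ (Q : Subgroup G) hx
  have hle : ∀ Q : Sylow r G, P ≤ (Q : Subgroup G) ↔ P ≤ ((φ • Q : Sylow r G) : Subgroup G) := by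
    intro Q
    constructor
    · intro h x hx
      have := hmem φ Q x (h hx)
      rwa [hfix x hx] at this
    · intro h x hx
      have h8 := hmem φ⁻¹ (φ • Q) x (h hx)
      rw [inv_smul_smul] at h8
      have h9 : φ⁻¹ x = x := by
        have h10 : (φ⁻¹ * φ) x = φ⁻¹ x := congrArg (fun y => (φ⁻¹ : MulAut G) y) (hfix x hx)
        rw [inv_mul_cancel, MulAut.one_apply] at h10
        exact h10.symm
      rwa [h9] at h8
  let σ : Equiv.Perm {Q : Sylow r G // P ≤ (Q : Subgroup G)} := (MulAction.toPerm φ).subtypePerm fun Q => (hle Q).symm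
  have hσ : σ ^ r ^ 1 = 1 := by
    rw [pow_one]
    have h2 : ∀ (k : ℕ) (Q : {Q : Sylow r G // P ≤ (Q : Subgroup G)}), ((σ ^ k) Q : Sylow r G) = φ ^ k • (Q : Sylow r G) := by
      intro k
      induction k with
      | zero => intro Q; rw [pow_zero, pow_zero, one_smul]; rfl
      | succ k ih =>
        intro Q
        rw [pow_succ, Equiv.Perm.mul_apply, ih, pow_succ, mul_smul]
        rfl
    apply Equiv.ext
    intro Q
    apply Subtype.ext
    rw [h2, hφ, one_smul]
    rfl
  obtain ⟨⟨Q, hQ⟩, hQ2⟩ := Equiv.Perm.exists_fixed_point_of_prime h1 hσ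
  refine ⟨Q, hQ, fun x hx => ?_⟩
  have h3 : φ • Q = Q := congrArg Subtype.val hQ2
  have h4 := hmem φ Q x hx
  rwa [h3] at h4

end stable

end Cfsg.Agent.ChevF
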