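import Mathlib.NumberTheory.Padics.PadicVal.Basic
import Mathlib.NumberTheory.Multiplicity
import Mathlib.RingTheory.Polynomial.Cyclotomic.Basic
import Mathlib.FieldTheory.Finite.Basic

set_option autoImplicit false

/-!
`r`-parts of `q ^ e - 1` (helper19).
-/

namespace Cfsg.Agent.ChevF

open Polynomial

section

variable {r q d : ℕ} [hr : Fact r.Prime]

lemma dvd_pow_sub_one_iff (hq : 0 < q) (hd : orderOf (q : ZMod r) = d) (e : ℕ) : r ∣ q ^ e - 1 ↔ d ∣ e := by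
  rw [← hd, orderOf_dvd_iff_pow_eq_one, ← ZMod.natCast_eq_zero_iff, Nat.cast_sub (Nat.one_le_pow _ _ hq)]
  push_cast
  rw [sub_eq_zero]

lemma padic_of_not_dvd (hq : 0 < q) (hd : orderOf (q : ZMod r) = d) {e : ℕ} (he : ¬ d ∣ e) : padicValNat r (q ^ e - 1) = 0 :=
  padicValNat.eq_zero_of_not_dvd fun h => he ((dvd_pow_sub_one_iff hq hd e).1 h)

lemma padic_of_dvd (hr2 : Odd r) (hq : 1 < q) (hrq : ¬ r ∣ q) (hd : orderOf (q : ZMod r) = d) (hd0 : 0 < d) {k : ℕ} (hk : k ≠ 0) :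
    padicValNat r (q ^ (d * k) - 1) = padicValNat r (q ^ d - 1) + padicValNat r k := by
  have h1 : r ∣ q ^ d - 1 := (dvd_pow_sub_one_iff (by omega) hd d).2 dvd_rfl
  have h2 := padicValNat.pow_sub_pow (p := r) (x := q ^ d) (y := 1) hr2 (Nat.one_lt_pow hd0.ne' hq) h1
    (fun h => hrq (hr.out.dvd_of_dvd_pow h)) hk
  rwa [one_pow, ← pow_mul] at h2

lemma order_pos (hrq : ¬ r ∣ q) (hd : orderOf (q : ZMod r) = d) : 0 < d ∧ d ∣ r - 1 := by
  have h0 : (q : ZMod r) ≠ 0 := fun h => hrq ((ZMod.natCast_eq_zero_iff _ _).1 h)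
  have h1 : (q : ZMod r) ^ (r - 1) = 1 := ZMod.pow_card_sub_one_eq_one h0
  have h2 := orderOf_dvd_of_pow_eq_one h1
  rw [hd] at h2
  exact ⟨Nat.pos_of_dvd_of_pos h2 (Nat.sub_pos_of_lt hr.out.one_lt), h2⟩

lemma order_coprime (hrq : ¬ r ∣ q) (hd : orderOf (q : ZMod r) = d) : Nat.Coprime d r := by
  obtain ⟨h1, h2⟩ := order_pos hrq hd
  have h3 : d < r := by
    have := Nat.le_of_dvd (Nat.sub_pos_of_lt hr.out.one_lt) h2
    have := hr.out.one_lt
    omega
  exact Nat.Coprime.symm ((Nat.Prime.coprime_iff_not_dvd hr.out).2 fun h => by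
    have := Nat.le_of_dvd h1 h; omega)

lemma order_frob (hrq : ¬ r ∣ q) (hd : orderOf (q : ZMod r) = d) : orderOf ((q ^ r : ℕ) : ZMod r) = d := by
  rw [Nat.cast_pow, orderOf_pow' _ hr.out.ne_zero, hd, (order_coprime hrq hd), Nat.div_one]

/-- the `r`-part of the value of the cyclotomic polynomial -/
lemma padic_cyclotomic (hq : 1 < q) (hrq : ¬ r ∣ q) (hd : orderOf (q : ZMod r) = d) :
    padicValNat r ((cyclotomic d ℤ).eval (q : ℤ)).natAbs = padicValNat r (q ^ d - 1) := by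
  obtain ⟨hd0, -⟩ := order_pos hrq hd
  have h1 := congrArg (fun p : ℤ[X] => (p.eval (q : ℤ)).natAbs) (prod_cyclotomic_eq_X_pow_sub_one hd0 ℤ)
  simp only [eval_prod, eval_sub, eval_pow, eval_X, eval_one] at h1
  have h2 : ((q : ℤ) ^ d - 1).natAbs = q ^ d - 1 := by
    have : ((q : ℤ) ^ d - 1) = ((q ^ d - 1 : ℕ) : ℤ) := by
      rw [Nat.cast_sub (Nat.one_le_pow _ _ (by omega))]; push_cast; ring
    rw [this, Int.natAbs_natCast]
  rw [h2] at h1
  have h3 : d ∈ Nat.divisors d := Nat.mem_divisors_self _ hd0.ne'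
  rw [← Finset.mul_prod_erase _ _ h3, Int.natAbs_mul] at h1
  have h4 : q ^ d - 1 ≠ 0 := by
    have := Nat.one_lt_pow hd0.ne' hq
    omega
  rw [← h1]
  rw [← h1] at h4
  obtain ⟨h5, h6⟩ := mul_ne_zero_iff.1 h4
  rw [padicValNat.mul h5 h6]
  have h7 : padicValNat r (∏ i ∈ d.divisors.erase d, (cyclotomic i ℤ).eval (q : ℤ)).natAbs = 0 := by
    apply padicValNat.eq_zero_of_not_dvd
    intro h8
    rw [← Int.natCast_dvd, Prime.dvd_finset_prod_iff (Nat.prime_iff_prime_int.1 hr.out)] at h8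
    obtain ⟨i, hi, h9⟩ := h8
    rw [Finset.mem_erase, Nat.mem_divisors] at hi
    have hi0 : 0 < i := Nat.pos_of_dvd_of_pos hi.2.1 hd0
    have h10 := h9.trans (eval_dvd (x := (q : ℤ)) (cyclotomic.dvd_X_pow_sub_one i ℤ))
    have h11 : r ∣ q ^ i - 1 := by
      have : (X ^ i - 1 : ℤ[X]).eval (q : ℤ) = ((q ^ i - 1 : ℕ) : ℤ) := by
        rw [Nat.cast_sub (Nat.one_le_pow _ _ (by omega))]; simp
      rw [this] at h10
      exact_mod_cast h10
    rw [dvd_pow_sub_one_iff (by omega) hd] at h11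
    exact hi.1 (Nat.dvd_antisymm hi.2.1 h11)
  rw [h7, add_zero]

/-- the `r`-part of the product -/
lemma padic_prod (Q m : ℕ) (l : List ℕ) (h1 : ∀ e ∈ l, d ∣ e → padicValNat r (Q ^ e - 1) = m)
    (h2 : ∀ e ∈ l, ¬ d ∣ e → padicValNat r (Q ^ e - 1) = 0) (h3 : ∀ e ∈ l, Q ^ e - 1 ≠ 0) :
    padicValNat r ((l.map (fun e => Q ^ e - 1)).prod) = (l.filter (fun e => d ∣ e)).length * m ∧
      (l.map (fun e => Q ^ e - 1)).prod ≠ 0 := by
  induction l with
  | nil => simp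
  | cons e l ih =>
    obtain ⟨h4, h5⟩ := ih (fun e' he' => h1 e' (List.mem_cons_of_mem _ he')) (fun e' he' => h2 e' (List.mem_cons_of_mem _ he'))
      (fun e' he' => h3 e' (List.mem_cons_of_mem _ he'))
    have h6 := h3 e List.mem_cons_self
    rw [List.map_cons, List.prod_cons]
    refine ⟨?_, mul_ne_zero h6 h5⟩
    rw [padicValNat.mul h6 h5, h4, List.filter_cons]
    by_cases he : d ∣ e
    · rw [h1 e List.mem_cons_self he, if_pos (by simpa using he), List.length_cons]; ring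
    · rw [h2 e List.mem_cons_self he, if_neg (by simpa using he), zero_add]

/-- the `r`-part of the order of a group with the given degrees over the fields of order `q` and `q ^ r` -/
theorem padic_order (hr2 : Odd r) (hq : 1 < q) (hrq : ¬ r ∣ q) (hd : orderOf (q : ZMod r) = d) (l : List ℕ)
    (hl : ¬ r ∣ l.prod) {δ N n : ℕ} (hδ : ¬ r ∣ δ) (hn : δ * n = q ^ N * (l.map (fun e => q ^ e - 1)).prod) :
    padicValNat r n = (l.filter (fun e => d ∣ e)).length * padicValNat r (q ^ d - 1) ∧ n ≠ 0 := by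
  obtain ⟨hd0, -⟩ := order_pos hrq hd
  have hl0 : ∀ e ∈ l, ¬ r ∣ e := fun e he h => hl (h.trans (List.dvd_prod he))
  obtain ⟨h1, h2⟩ := padic_prod (r := r) (d := d) q (padicValNat r (q ^ d - 1)) l (by
      rintro e he ⟨k, rfl⟩
      have h3 : k ≠ 0 := by
        rintro rfl
        exact hl0 _ he (by simp)
      rw [padic_of_dvd hr2 hq hrq hd hd0 h3, padicValNat.eq_zero_of_not_dvd (fun h => hl0 _ he (h.mul_left _)), add_zero])
    (fun e he h => padic_of_not_dvd (by omega) hd h) (fun e he => by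
      have h3 : e ≠ 0 := by
        rintro rfl
        exact hl0 _ he (by simp)
      have := Nat.one_lt_pow h3 hq
      omega)
  have h4 : q ^ N ≠ 0 := pow_ne_zero _ (by omega)
  have h5 : δ * n ≠ 0 := by rw [hn]; exact mul_ne_zero h4 h2
  obtain ⟨h6, h7⟩ := mul_ne_zero_iff.1 h5
  refine ⟨?_, h7⟩
  have h8 := congrArg (padicValNat r) hn
  rw [padicValNat.mul h6 h7, padicValNat.mul h4 h2, padicValNat.eq_zero_of_not_dvd hδ, zero_add, h1,
    padicValNat.eq_zero_of_not_dvd (fun h => hrq (hr.out.dvd_of_dvd_pow h)), zero_add] at h8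
  exact h8

theorem padic_order_ext (hr2 : Odd r) (hq : 1 < q) (hrq : ¬ r ∣ q) (hd : orderOf (q : ZMod r) = d) (l : List ℕ)
    (hl : ¬ r ∣ l.prod) {δ N n : ℕ} (hδ : ¬ r ∣ δ) (hn : δ * n = (q ^ r) ^ N * (l.map (fun e => (q ^ r) ^ e - 1)).prod) :
    padicValNat r n = (l.filter (fun e => d ∣ e)).length * (padicValNat r (q ^ d - 1) + 1) ∧ n ≠ 0 := by
  obtain ⟨hd0, -⟩ := order_pos hrq hd
  have h1 := padic_order (q := q ^ r) hr2 (Nat.one_lt_pow hr.out.ne_zero hq) (fun h => hrq (hr.out.dvd_of_dvd_pow h))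
    (order_frob hrq hd) l hl hδ hn
  rw [← pow_mul, mul_comm r d, padic_of_dvd hr2 hq hrq hd hd0 hr.out.ne_zero, padicValNat_self] at h1
  exact h1

end

end Cfsg.Agent.ChevF
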