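import Cfsg.Agent.ChevF.TorMain
import Cfsg.Agent.ChevF.SylNum
import Cfsg.Agent.ChevF.SylGrp
import Cfsg.Agent.ChevU.Norm

set_option autoImplicit false

/-!
Sylow subgroups of Chevalley groups for primes not dividing the order of the Weyl group (helper19).
-/

namespace Cfsg.Agent.ChevF

open Cfsg.Lie Cfsg.Agent.Chev Cfsg.Agent.ChevGrp Matrix Polynomial

variable {D : ChevalleyDatum} (E : DData D)

section torus

variable {F₀ F : Type*} [Field F₀] [Field F]

/-- powers of torus elements lie in the diagonal subgroup -/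
theorem torHom_pow_mem (hD : D ∈ data) [Fintype F] {δ : ℕ}
    (hc : δ * Nat.card (D.diagonalSubgroup F) = (Fintype.card F - 1) ^ D.rank)
    (χ : ℕ → Fˣ) : ChevU.torHom D F χ ^ δ ∈ D.diagonalSubgroup F := by
  set f : (Fin D.rank → Fˣ) →* GL D.Idx F := (ChevU.torHom D F).comp (ChevU.extHom D F) with hf
  have hinj : Function.Injective f := ChevU.torHom_ext_injective (good_of_mem hD)
  have h1 : D.diagonalSubgroup F ≤ f.range := by
    intro g hg
    obtain ⟨χ, rfl⟩ := ChevU.diag_le_range (ChevU.rootFacts hD) (good_of_mem hD) hg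
    exact ⟨fun i => χ i, ChevU.torHom_congr fun j hj => by rw [ChevU.extHom_apply hj]⟩
  set H' := (D.diagonalSubgroup F).comap f with hH'
  have h2 : Nat.card H' = Nat.card (D.diagonalSubgroup F) := by
    have h3 : H'.map f = D.diagonalSubgroup F := by
      rw [hH', Subgroup.map_comap_eq, inf_eq_right]
      exact h1
    rw [← h3]
    exact Nat.card_congr (Subgroup.equivMapOfInjective H' f hinj).toEquiv
  have h4 : Nat.card (Fin D.rank → Fˣ) = (Fintype.card F - 1) ^ D.rank := by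
    rw [Nat.card_fun, Nat.card_units, Nat.card_eq_fintype_card, Nat.card_eq_fintype_card, Fintype.card_fin]
  have h5 : H'.index = δ := by
    have h6 := Subgroup.index_mul_card H'
    rw [h2, h4, ← hc] at h6
    exact Nat.eq_of_mul_eq_mul_right Nat.card_pos h6
  have h7 := Subgroup.pow_index_mem H' (fun i => χ i)
  rw [h5] at h7
  have h8 : f ((fun i : Fin D.rank => χ i) ^ δ) = ChevU.torHom D F χ ^ δ := by
    rw [map_pow]
    congr 1
    exact ChevU.torHom_congr fun j hj => by rw [ChevU.extHom_apply hj]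
  rw [← h8]
  exact h7

theorem torHom_conj_mem (hD : D ∈ data) (χ : ℕ → Fˣ) {g : GL D.Idx F} (hg : g ∈ D.group F) :
    ChevU.torHom D F χ * g * (ChevU.torHom D F χ)⁻¹ ∈ D.group F := by
  have h1 := ChevU.torus_le_normalizer (F := F) (ChevU.rootFacts hD) (good_of_mem hD) (P := fun s => s < D.nroots) (fun s hs => hs)
  have h2 := h1 ⟨χ, rfl⟩
  rw [Subgroup.mem_normalizer_iff] at h2
  rw [ChevU.group_eq_clo] at hg ⊢
  exact (h2 g).1 hg

/-- fixed points of a field automorphism: a power comes from the small group -/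
theorem fixed_group_pow (hD : D ∈ data) (E : DData D) (ι : F₀ →+* F) (σ : F →+* F) (hι : ∀ t, σ t = t → ∃ t₀, ι t₀ = t)
    {δ : ℕ} (hT : ∀ χ : ℕ → F₀ˣ, ChevU.torHom D F₀ χ ^ δ ∈ D.diagonalSubgroup F₀)
    {g : GL D.Idx F} (hg : g ∈ D.group F) (hfix : glMap D.Idx σ g = g) : ∃ g₀ ∈ D.group F₀, glMap D.Idx ι g₀ = g ^ δ := by
  have G := good_of_mem hD
  rw [← chev_Grp E G] at hg
  obtain ⟨v, hv, h1, h, hh, h2, L, x, hx, h3, rfl⟩ := fixed_form_GL E G σ hg hfix
  obtain ⟨v₀, hv₀, rfl⟩ := fixed_U hD ι σ hι hv h1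
  obtain ⟨x₀, hx₀, rfl⟩ := fixed_U hD ι σ hι hx h3
  obtain ⟨χ, rfl⟩ := fixed_H hD ι σ hι hh h2
  set T := ChevU.torHom D F₀ χ with hTdef
  have hv1 : v₀ ∈ D.group F₀ := by
    rw [← chev_Grp E G]
    exact RGrp.B_le_Grp (RGrp.U_le_B _ (by rw [chev_U]; exact hv₀))
  have hn1 : (chev E G F₀).nd L ∈ D.group F₀ := by
    rw [← chev_Grp E G]
    exact RGrp.N_le_Grp (RGrp.nd_mem_N L)
  have hx1 : x₀ ∈ D.group F₀ := by
    rw [← chev_Grp E G]
    exact RGrp.B_le_Grp (RGrp.U_le_B _ (by rw [chev_U]; exact hx₀))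
  have h4 : ∀ k : ℕ, ∀ s ∈ D.group F₀, ∃ s' ∈ D.group F₀, (s * T) ^ k = s' * T ^ k := by
    intro k
    induction k with
    | zero => intro s hs; exact ⟨1, one_mem _, by simp⟩
    | succ k ih =>
      intro s hs
      obtain ⟨s', hs', h5⟩ := ih s hs
      have h6 : T ^ k * s * (T ^ k)⁻¹ ∈ D.group F₀ := by
        rw [hTdef, ← map_pow]
        exact torHom_conj_mem hD _ hs
      refine ⟨s' * (T ^ k * s * (T ^ k)⁻¹), mul_mem hs' h6, ?_⟩
      rw [pow_succ, h5, pow_succ]
      group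
  obtain ⟨s', hs', h5⟩ := h4 δ (v₀ * (T * ((chev E G F₀).nd L * x₀) * T⁻¹)) (mul_mem hv1 (torHom_conj_mem hD χ (mul_mem hn1 hx1)))
  refine ⟨s' * T ^ δ, mul_mem hs' (H_le_group E G (hT χ)), ?_⟩
  rw [← h5, map_pow]
  congr 1
  rw [← glMap_nd E G ι, ← map_mul, ← map_mul, ← map_mul]
  congr 1
  group

end torus

section frame

variable {F K : Type*} [Field F] [Field K] [Fintype K]

/-- an `r`-subgroup which is stable under the Frobenius map, inside a maximal torus -/
theorem exists_frame' (hD : D ∈ data) {r : ℕ} [hr : Fact r.Prime] (hr1 : r ∣ Fintype.card K - 1)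
    (hW : ¬ r ∣ Nat.card E.rp.wsys.W) (ι : F →+* K) {σ : K →+* K} {σ' : F →+* F} {q : ℕ} (hσ : ∀ t, σ t = t ^ q)
    (hι : ∀ t, σ (ι t) = ι (σ' t)) {P : Subgroup (GL D.Idx F)} (hP : P ≤ D.group F) (hPr : IsPGroup r ↥P)
    (hst : ∀ y ∈ P, glMap D.Idx σ' y ∈ P) :
    ∃ g ∈ D.group K, (∀ y ∈ P, g⁻¹ * glMap D.Idx ι y * g ∈ D.diagonalSubgroup K) ∧
      ∃ u ∈ E.rp.wsys.W, ∀ y ∈ P, ∀ s, ev (g⁻¹ * glMap D.Idx ι (glMap D.Idx σ' y) * g) (u s) =
        ev (g⁻¹ * glMap D.Idx ι y * g) s ^ q := by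
  obtain ⟨g, hg, h1⟩ := exists_conj_diag E hD hr1 hW (V := P.map (glMap D.Idx ι)) (by
      rintro _ ⟨y, hy, rfl⟩
      exact glMap_mem ι (hP hy)) (hPr.map _)
  have h2 : ∀ y ∈ P, g⁻¹ * glMap D.Idx ι y * g ∈ D.diagonalSubgroup K := fun y hy => h1 _ ⟨y, hy, rfl⟩
  have hc : g⁻¹ * glMap D.Idx σ g ∈ D.group K := mul_mem (inv_mem hg) (glMap_mem σ hg)
  obtain ⟨b, hb, n, hn, x, hx, e, h3⟩ := fusion E hD hc
  obtain ⟨u, hu⟩ := RGrp.exists_act hn
  refine ⟨g, hg, h2, u, hu.mem, fun y hy s => ?_⟩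
  set t := g⁻¹ * glMap D.Idx ι y * g with ht
  have ht1 : t ∈ D.diagonalSubgroup K := h2 y hy
  have hfix : glMap D.Idx σ (glMap D.Idx ι y) = glMap D.Idx ι (glMap D.Idx σ' y) := by
    apply Units.ext
    rw [glMap_coe, glMap_coe, glMap_coe, glMap_coe]
    ext i j
    simp [hι]
  have h4 : (g⁻¹ * glMap D.Idx σ g) * t ^ q * (g⁻¹ * glMap D.Idx σ g)⁻¹ = g⁻¹ * glMap D.Idx ι (glMap D.Idx σ' y) * g := by
    rw [← glMap_frob hD hσ ht1, ht]
    simp only [map_mul, map_inv, hfix]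
    group
  obtain ⟨h5, h6, h7⟩ := h3 (t ^ q) (pow_mem ht1 q) (by rw [h4]; exact h2 _ (hst y hy))
  rw [h4] at h5
  have h8 := N_conj_ev E hD hn hu (pow_mem ht1 q) s
  rw [h5, ev_pow hD ht1] at h8
  exact h8

end frame

section powers

variable {r : ℕ} [hr : Fact r.Prime]

/-- for an element of `r`-power order only the `r`-part of the exponent matters -/
lemma pow_eq_one_iff_padic {A : Type*} [Group A] {y : A} {n : ℕ} (hy : y ^ r ^ n = 1) {m : ℕ} (hm : m ≠ 0) :
    y ^ m = 1 ↔ y ^ r ^ padicValNat r m = 1 := by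
  obtain ⟨j, -, hj⟩ := (Nat.dvd_prime_pow hr.out).1 (orderOf_dvd_of_pow_eq_one hy)
  rw [← orderOf_dvd_iff_pow_eq_one, ← orderOf_dvd_iff_pow_eq_one, hj, padicValNat_dvd_iff_le hm,
    Nat.pow_dvd_pow_iff_le_right hr.out.one_lt]

end powers

section main

variable {F F' K : Type*} [Field F] [Fintype F] [Field F'] [Fintype F'] [Field K] [Fintype K]

theorem sylow_main (hD : D ∈ data) (ι' : F →+* F') (σ' : F' →+* F') (ι : F' →+* K) (σ : K →+* K)
    {q M d δ μ a r : ℕ} [hr : Fact r.Prime] (hr2 : Odd r) (hq1 : 1 < q) (hF : Fintype.card F = q) (hF' : Fintype.card F' = q ^ r)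
    (hK : Fintype.card K = q ^ (r * M)) (hdM : d ∣ M)
    (hσ' : ∀ t, σ' t = t ^ q) (hσ : ∀ t, σ t = t ^ q) (hι' : ∀ t, σ' t = t → ∃ t₀, ι' t₀ = t)
    (hrq : ¬ r ∣ q) (hord : orderOf (q : ZMod r) = d)
    (hT : ∀ χ : ℕ → Fˣ, ChevU.torHom D F χ ^ δ ∈ D.diagonalSubgroup F) (hδ : ¬ r ∣ δ)
    (hW : ¬ r ∣ Nat.card E.rp.wsys.W) (hdW : d ∣ Nat.card E.rp.wsys.W) (hN1 : 1 < Nat.card E.rp.wsys.W)
    (hμ : padicValNat r (q ^ d - 1) = μ) (hμ1 : 1 ≤ μ)
    (hcG : padicValNat r (Nat.card (D.group F)) = a * μ) (hcG' : padicValNat r (Nat.card (D.group F')) = a * (μ + 1))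
    (P : Sylow r ↥(D.group F)) :
    Nonempty (↥(P : Subgroup ↥(D.group F)) ≃* (Fin a → Multiplicative (ZMod (r ^ μ)))) := by
  classical
  have G := good_of_mem hD
  have : Finite (GL D.Idx F) := inferInstance
  have : Finite (GL D.Idx F') := inferInstance
  have : Finite (GL D.Idx K) := inferInstance
  obtain ⟨hd0, -⟩ := order_pos hrq hord
  set N := Nat.card E.rp.wsys.W with hN
  have hN0 : 0 < N := Nat.card_pos
  obtain ⟨k₀, hk₀⟩ := hdW
  have hk0 : k₀ ≠ 0 := by rintro rfl; rw [mul_zero] at hk₀; omega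
  have hrk : ¬ r ∣ k₀ := fun h => hW (by rw [hk₀]; exact h.mul_left _)
  -- field facts
  have hσι : ∀ t, σ (ι t) = ι (σ' t) := fun t => by rw [hσ, hσ', map_pow]
  have hσι' : ∀ t, σ' (ι' t) = ι' t := fun t => by rw [hσ', ← map_pow, ← hF, FiniteField.pow_card]
  have hqinj : ∀ x y : K, x ^ q = y ^ q → x = y := by
    intro x y hxy
    rw [← hσ, ← hσ] at hxy
    exact σ.injective hxy
  have hr1 : r ∣ Fintype.card K - 1 := by
    rw [hK, dvd_pow_sub_one_iff (by omega) hord]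
    exact hdM.mul_left r
  -- the Frobenius map
  set ψ := glMap D.Idx σ' with hψ
  have hψk : ∀ (k : ℕ) (y : GL D.Idx F') i j, ((ψ^[k] y : GL D.Idx F') : Matrix D.Idx D.Idx F') i j = ((y : Matrix D.Idx D.Idx F') i j) ^ q ^ k := by
    intro k
    induction k with
    | zero => intro y i j; simp
    | succ k ih =>
      intro y i j
      rw [Function.iterate_succ_apply, ih, hψ, glMap_coe, Matrix.map_apply, hσ', ← pow_mul, pow_succ']
  have hψr : ∀ k, ∀ y : GL D.Idx F', ψ^[r * k] y = y := by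
    intro k y
    apply Units.ext
    ext i j
    rw [hψk, pow_mul, ← hF', FiniteField.pow_card_pow]
  have hψ1 : ∀ y : GL D.Idx F', ψ^[r] y = y := by
    intro y
    have := hψr 1 y
    rwa [mul_one] at this
  let φ : MulAut ↥(D.group F') :=
    { toFun := fun y => ⟨ψ y, glMap_mem σ' y.2⟩
      invFun := fun y => ⟨ψ^[r - 1] y, by
        have h1 : ∀ k, ∀ y ∈ D.group F', ψ^[k] y ∈ D.group F' := by
          intro k
          induction k with
          | zero => intro y hy; exact hy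
          | succ k ih => intro y hy; rw [Function.iterate_succ_apply]; exact ih _ (glMap_mem σ' hy)
        exact h1 _ _ y.2⟩
      left_inv := fun y => by
        apply Subtype.ext
        show ψ^[r - 1] (ψ y) = y
        rw [← Function.iterate_succ_apply, Nat.succ_eq_add_one, Nat.sub_add_cancel hr.out.one_lt.le, hψ1]
      right_inv := fun y => by
        apply Subtype.ext
        show ψ (ψ^[r - 1] y) = y
        rw [← Function.iterate_succ_apply' ψ, Nat.succ_eq_add_one, Nat.sub_add_cancel hr.out.one_lt.le, hψ1]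
      map_mul' := fun y y' => Subtype.ext (map_mul ψ (y : GL D.Idx F') y') }
  have hφ : ∀ y : ↥(D.group F'), ((φ y : ↥(D.group F')) : GL D.Idx F') = ψ y := fun y => rfl
  have hφk : ∀ (k : ℕ) (y : ↥(D.group F')), (((φ ^ k) y : ↥(D.group F')) : GL D.Idx F') = ψ^[k] y := by
    intro k
    induction k with
    | zero => intro y; rfl
    | succ k ih => intro y; rw [pow_succ, MulAut.mul_apply, ih, hφ, Function.iterate_succ_apply]
  have hφr : φ ^ r = 1 := by
    apply MulEquiv.ext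
    intro y
    apply Subtype.ext
    rw [hφk, hψ1]; rfl
  -- the embedding
  let j : ↥(D.group F) →* ↥(D.group F') :=
    { toFun := fun y => ⟨glMap D.Idx ι' y, glMap_mem ι' y.2⟩
      map_one' := Subtype.ext (map_one _)
      map_mul' := fun y y' => Subtype.ext (map_mul (glMap D.Idx ι') (y : GL D.Idx F) y') }
  have hj : ∀ y : ↥(D.group F), ((j y : ↥(D.group F')) : GL D.Idx F') = glMap D.Idx ι' y := fun y => rfl
  have hjinj : Function.Injective j := by
    intro y y' h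
    apply Subtype.ext
    apply glMap_injective ι'
    exact congrArg Subtype.val h
  have hjfix : ∀ y, φ (j y) = j y := by
    intro y
    apply Subtype.ext
    rw [hφ, hj, hψ]
    apply Units.ext
    rw [glMap_coe, glMap_coe]
    ext i k
    simp [hσι']
  -- the stable Sylow subgroup
  obtain ⟨Q, hPQ, hQst⟩ := exists_stable_sylow φ hφr (P := (P : Subgroup ↥(D.group F)).map j) (P.isPGroup'.map j) (by
    rintro _ ⟨y, -, rfl⟩
    exact hjfix y)
  set Q' : Subgroup (GL D.Idx F') := (Q : Subgroup ↥(D.group F')).map (D.group F').subtype with hQ'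
  have hQG : Q' ≤ D.group F' := by
    rintro _ ⟨y, -, rfl⟩
    exact y.2
  have hQ'mem : ∀ y : ↥(D.group F'), (y : GL D.Idx F') ∈ Q' ↔ y ∈ (Q : Subgroup ↥(D.group F')) := by
    intro y
    constructor
    · rintro ⟨y', hy', h⟩
      have : y' = y := Subtype.ext h
      rwa [← this]
    · intro hy; exact ⟨y, hy, rfl⟩
  have hQst' : ∀ y ∈ Q', ψ y ∈ Q' := by
    rintro _ ⟨y, hy, rfl⟩
    exact ⟨φ y, hQst y hy, rfl⟩
  obtain ⟨g, hg, h1, u, hu, h2⟩ := exists_frame' E hD hr1 hW ι hσ hσι hQG (Q.isPGroup'.map _) hQst'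
  set t : GL D.Idx F' → GL D.Idx K := fun y => g⁻¹ * glMap D.Idx ι y * g with ht
  have ht1 : ∀ y ∈ Q', t y ∈ D.diagonalSubgroup K := h1
  have ht2 : ∀ y ∈ Q', ∀ s, ev (t (ψ y)) (u s) = ev (t y) s ^ q := h2
  have htmul : ∀ y y', t (y * y') = t y * t y' := by
    intro y y'
    simp only [ht, map_mul]; group
  have htpow : ∀ y (k : ℕ), t (y ^ k) = t y ^ k := by
    intro y k
    induction k with
    | zero => simp [ht]
    | succ k ih => rw [pow_succ, htmul, ih, pow_succ]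
  have htinj : Function.Injective t := by
    intro y y' h
    simp only [ht, mul_left_inj, mul_right_inj] at h
    exact glMap_injective ι h
  have hcomm : ∀ y ∈ Q', ∀ y' ∈ Q', y * y' = y' * y := by
    intro y hy y' hy'
    apply htinj
    rw [htmul, htmul]
    exact diag_comm hD (ht1 y hy) (ht1 y' hy')
  have hst : ∀ k, ∀ y ∈ Q', ψ^[k] y ∈ Q' := by
    intro k
    induction k with
    | zero => intro y hy; exact hy
    | succ k ih => intro y hy; rw [Function.iterate_succ_apply]; exact ih _ (hQst' y hy)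
  have hiter : ∀ k, ∀ y ∈ Q', ∀ s, ev (t (ψ^[k] y)) ((u ^ k) s) = ev (t y) s ^ q ^ k := by
    intro k
    induction k with
    | zero => intro y hy s; simp
    | succ k ih =>
      intro y hy s
      rw [Function.iterate_succ_apply', pow_succ' u, Equiv.Perm.mul_apply, ht2 _ (hst k y hy), ih y hy, ← pow_mul, pow_succ]
  have huN : u ^ N = 1 := by
    have := pow_card_eq_one' (x := (⟨u, hu⟩ : E.rp.wsys.W))
    exact congrArg Subtype.val this
  have hpow1 : ∀ y ∈ Q', ∀ m : ℕ, y ^ m = 1 ↔ ∀ s, ev (t y) s ^ m = 1 := by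
    intro y hy m
    constructor
    · intro h s
      rw [← ev_pow hD (ht1 y hy), ← htpow, h]
      have : t 1 = 1 := by simp [ht]
      rw [this, ev_one]
    · intro h
      apply htinj
      have h3 : t 1 = 1 := by simp [ht]
      rw [h3, htpow]
      apply ev_ext E hD (pow_mem (ht1 y hy) m) (one_mem _)
      intro i
      rw [ev_pow hD (ht1 y hy), h, ev_one]
  have hsub : ∀ (x : K) (k : ℕ), x ≠ 0 → (x ^ (q ^ k - 1) = 1 ↔ x ^ q ^ k = x) := by
    intro x k hx
    have h3 : q ^ k = (q ^ k - 1) + 1 := (Nat.sub_add_cancel (Nat.one_le_pow _ _ (by omega))).symm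
    constructor
    · intro h; rw [h3, pow_succ, h, one_mul]
    · intro h
      rw [h3, pow_succ] at h
      exact mul_right_cancel₀ hx (by rw [h, one_mul])
  have hQn : ∀ y ∈ Q', ∃ n, y ^ r ^ n = 1 := by
    rintro _ ⟨y, hy, rfl⟩
    obtain ⟨n, hn⟩ := Q.isPGroup' ⟨y, hy⟩
    refine ⟨n, ?_⟩
    rw [← map_pow]
    have := congrArg (fun z : ↥(Q : Subgroup ↥(D.group F')) => ((z : ↥(D.group F')) : GL D.Idx F')) hn
    simpa using this
  -- the exponent
  have hexp : ∀ y ∈ Q', y ^ r ^ (μ + 1) = 1 := by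
    intro y hy
    obtain ⟨n, hn⟩ := hQn y hy
    have h3 : y ^ (q ^ (r * N) - 1) = 1 := by
      rw [hpow1 y hy]
      intro s
      rw [hsub _ _ (ev_ne_zero hD (ht1 y hy) _)]
      have h4 := hiter (r * N) y hy s
      rw [hψr, mul_comm r N, pow_mul u, huN, one_pow, Equiv.Perm.one_apply] at h4
      rw [mul_comm r N]
      exact h4.symm
    have h5 : q ^ (r * N) - 1 ≠ 0 := by
      have := Nat.one_lt_pow (Nat.mul_pos hr.out.pos hN0).ne' hq1
      omega
    rw [pow_eq_one_iff_padic hn h5] at h3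
    have h6 : padicValNat r (q ^ (r * N) - 1) = μ + 1 := by
      rw [hk₀, show r * (d * k₀) = d * (r * k₀) by ring, padic_of_dvd hr2 hq1 hrq hord hd0 (mul_ne_zero hr.out.ne_zero hk0),
        padicValNat.mul hr.out.ne_zero hk0, padicValNat_self, padicValNat.eq_zero_of_not_dvd hrk, hμ]
    rwa [h6] at h3
  -- fixed points
  obtain ⟨b, c, hbc⟩ : ∃ b c, r * b = N * c + 1 := by
    obtain ⟨m, -, hm⟩ := Nat.exists_mul_mod_eq_one_of_coprime (n := r) (k := N) ((Nat.Prime.coprime_iff_not_dvd hr.out).2 hW) hN1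
    exact ⟨m, r * m / N, by rw [← hm]; exact (Nat.div_add_mod _ _).symm⟩
  have hc0 : c ≠ 0 := by
    rintro rfl
    rw [mul_zero, zero_add] at hbc
    exact hr.out.one_lt.ne' (Nat.dvd_one.1 (Dvd.intro _ hbc))
  have hrc : ¬ r ∣ c := by
    rintro ⟨c', rfl⟩
    have h3 : r ∣ 1 := by
      have h4 : r ∣ N * (r * c') := (Dvd.intro _ rfl : r ∣ r * c').mul_left N
      rw [← Nat.dvd_add_right h4, ← hbc]
      exact Dvd.intro _ rfl
    exact hr.out.one_lt.ne' (Nat.dvd_one.1 h3)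
  have hfixpt : ∀ y ∈ Q', ψ y = y ↔ y ^ r ^ μ = 1 := by
    intro y hy
    obtain ⟨n, hn⟩ := hQn y hy
    have h5 : q ^ (N * c) - 1 ≠ 0 := by
      have := Nat.one_lt_pow (mul_ne_zero hN0.ne' hc0) hq1
      omega
    have h6 : padicValNat r (q ^ (N * c) - 1) = μ := by
      rw [hk₀, mul_assoc, padic_of_dvd hr2 hq1 hrq hord hd0 (mul_ne_zero hk0 hc0),
        padicValNat.mul hk0 hc0, padicValNat.eq_zero_of_not_dvd hrk, padicValNat.eq_zero_of_not_dvd hrc, hμ]
      omega
    have h7 := pow_eq_one_iff_padic (r := r) hn h5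
    rw [h6] at h7
    rw [← h7, hpow1 y hy]
    have h8 : ∀ s, ev (t y) (u s) = (ev (t y) s ^ q ^ (N * c)) ^ q := by
      intro s
      have h9 := hiter (r * b) y hy s
      rw [hψr, hbc, pow_succ u, pow_mul u, huN, one_pow, one_mul] at h9
      rw [h9, ← pow_mul, pow_succ]
    constructor
    · intro h s
      rw [hsub _ _ (ev_ne_zero hD (ht1 y hy) _)]
      have h9 := ht2 y hy s
      rw [h, h8] at h9
      exact hqinj _ _ h9
    · intro h
      apply htinj
      apply ev_ext E hD (ht1 _ (hQst' y hy)) (ht1 y hy)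
      intro i
      have h9 := h (u⁻¹ (E.rp.wsys.p i))
      rw [hsub _ _ (ev_ne_zero hD (ht1 y hy) _)] at h9
      have h10 := ht2 y hy (u⁻¹ (E.rp.wsys.p i))
      have h11 := h8 (u⁻¹ (E.rp.wsys.p i))
      rw [show u (u⁻¹ (E.rp.wsys.p i)) = E.rp.wsys.p i from u.apply_symm_apply _] at h10 h11
      rw [h10, h11, h9]
  -- the groups
  letI cgQ : CommGroup ↥(Q : Subgroup ↥(D.group F')) :=
    { (inferInstance : Group ↥(Q : Subgroup ↥(D.group F'))) with
      mul_comm := fun y y' => by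
        apply Subtype.ext
        apply Subtype.ext
        exact hcomm _ ((hQ'mem _).2 y.2) _ ((hQ'mem _).2 y'.2) }
  have hPj : ∀ x ∈ (P : Subgroup ↥(D.group F)), j x ∈ (Q : Subgroup ↥(D.group F')) := fun x hx => hPQ ⟨x, hx, rfl⟩
  letI cgP : CommGroup ↥(P : Subgroup ↥(D.group F)) :=
    { (inferInstance : Group ↥(P : Subgroup ↥(D.group F))) with
      mul_comm := fun y y' => by
        apply Subtype.ext
        apply hjinj
        apply Subtype.ext
        exact (congrArg Subtype.val (map_mul j (y : ↥(D.group F)) y')).trans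
          ((hcomm _ ((hQ'mem _).2 (hPj _ y.2)) _ ((hQ'mem _).2 (hPj _ y'.2))).trans
            (congrArg Subtype.val (map_mul j (y' : ↥(D.group F)) y)).symm) }
  have hQpow : ∀ (y : ↥(Q : Subgroup ↥(D.group F'))) (m : ℕ), y ^ m = 1 ↔ ((y : ↥(D.group F')) : GL D.Idx F') ^ m = 1 := by
    intro y m
    constructor
    · intro h
      have := congrArg (fun z : ↥(Q : Subgroup ↥(D.group F')) => ((z : ↥(D.group F')) : GL D.Idx F')) h
      simpa using this
    · intro h
      apply Subtype.ext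
      apply Subtype.ext
      simpa using h
  have hQfix : ∀ y : ↥(Q : Subgroup ↥(D.group F')), y ^ r ^ μ = 1 ↔ φ (y : ↥(D.group F')) = y := by
    intro y
    rw [hQpow, ← hfixpt _ ((hQ'mem _).2 y.2)]
    constructor
    · intro h; exact Subtype.ext h
    · intro h; exact congrArg Subtype.val h
  -- the isomorphism with the torsion subgroup
  set S := (powMonoidHom (r ^ μ) : ↥(Q : Subgroup ↥(D.group F')) →* ↥(Q : Subgroup ↥(D.group F'))).ker with hS
  have hSmem : ∀ y : ↥(Q : Subgroup ↥(D.group F')), y ∈ S ↔ y ^ r ^ μ = 1 := fun y => Iff.rfl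
  let e₀ : ↥(P : Subgroup ↥(D.group F)) →* ↥S :=
    { toFun := fun x => ⟨⟨j x, hPj x x.2⟩, by
        rw [hSmem, hQfix]
        exact hjfix _⟩
      map_one' := Subtype.ext (Subtype.ext (map_one j))
      map_mul' := fun x y => Subtype.ext (Subtype.ext (map_mul j (x : ↥(D.group F)) y)) }
  have he₀ : ∀ x, (((e₀ x : ↥S) : ↥(Q : Subgroup ↥(D.group F'))) : ↥(D.group F')) = j x := fun x => rfl
  have he₀inj : Function.Injective e₀ := by
    intro x y h
    apply Subtype.ext
    apply hjinj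
    rw [← he₀, ← he₀, h]
  have he₀surj : Function.Surjective e₀ := by
    rintro ⟨y, hy⟩
    rw [hSmem, hQfix] at hy
    obtain ⟨g₀, hg₀, hg₀2⟩ := fixed_group_pow hD E ι' σ' hι' hT (g := ((y : ↥(D.group F')) : GL D.Idx F')) (y : ↥(D.group F')).2
      (congrArg Subtype.val hy)
    obtain ⟨n, hn⟩ := hQn _ ((hQ'mem _).2 y.2)
    -- a power of `g₀` gives `y`
    obtain ⟨x, hx⟩ : ∃ x : ↥(D.group F), j x = (y : ↥(D.group F')) := by
      have h3 : Nat.Coprime δ (r ^ n) := by
        apply Nat.Coprime.pow_right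
        exact Nat.Coprime.symm ((Nat.Prime.coprime_iff_not_dvd hr.out).2 hδ)
      have h4 : ∃ m : ℕ, ((y : ↥(D.group F')) : GL D.Idx F') ^ (δ * m) = y := by
        rcases Nat.eq_zero_or_pos n with h | h
        · refine ⟨0, ?_⟩
          rw [h, pow_zero, pow_one] at hn
          rw [hn, one_pow]
        · obtain ⟨m, -, hm⟩ := Nat.exists_mul_mod_eq_one_of_coprime h3 (Nat.one_lt_pow h.ne' hr.out.one_lt)
          refine ⟨m, ?_⟩
          rw [← Nat.div_add_mod (δ * m) (r ^ n), hm, pow_add, pow_mul, hn, one_pow, one_mul, pow_one]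
      obtain ⟨m, hm⟩ := h4
      refine ⟨⟨g₀ ^ m, pow_mem hg₀ m⟩, ?_⟩
      apply Subtype.ext
      rw [hj]
      show glMap D.Idx ι' (g₀ ^ m) = _
      rw [map_pow, hg₀2, ← pow_mul, hm]
    have hxP : x ∈ (P : Subgroup ↥(D.group F)) := by
      have h3 : IsPGroup r ↥((Q : Subgroup ↥(D.group F')).comap j) := Q.isPGroup'.comap_of_injective j hjinj
      have h4 : (P : Subgroup ↥(D.group F)) ≤ (Q : Subgroup ↥(D.group F')).comap j := fun x hx => hPj x hx
      have h5 := P.is_maximal' h3 h4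
      rw [← h5]
      show j x ∈ (Q : Subgroup ↥(D.group F'))
      rw [hx]
      exact y.2
    refine ⟨⟨x, hxP⟩, ?_⟩
    apply Subtype.ext
    apply Subtype.ext
    rw [he₀]
    exact hx
  let e : ↥(P : Subgroup ↥(D.group F)) ≃* ↥S := MulEquiv.ofBijective e₀ ⟨he₀inj, he₀surj⟩
  have hcP : Nat.card ↥(P : Subgroup ↥(D.group F)) = r ^ (a * μ) := by
    rw [P.card_eq_multiplicity, Nat.factorization_def _ hr.out, hcG]
  have hcQ : Nat.card ↥(Q : Subgroup ↥(D.group F')) = r ^ (a * (μ + 1)) := by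
    rw [Q.card_eq_multiplicity, Nat.factorization_def _ hr.out, hcG']
  have hcS : Nat.card ↥S = r ^ (a * μ) := by
    rw [← hcP]; exact (Nat.card_congr e.toEquiv).symm
  have hexpQ : ∀ y : ↥(Q : Subgroup ↥(D.group F')), y ^ r ^ (μ + 1) = 1 := by
    intro y
    rw [hQpow]
    exact hexp _ ((hQ'mem _).2 y.2)
  have hrank := card_torsion_of hμ1 hexpQ hcQ hcS
  have hexpS : ∀ y : ↥S, y ^ r ^ μ = 1 := fun y => Subtype.ext y.2
  have hexpP : ∀ x : ↥(P : Subgroup ↥(D.group F)), x ^ r ^ μ = 1 := by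
    intro x
    apply e.injective
    rw [map_pow, map_one]
    exact hexpS _
  have hrankP : Nat.card (powMonoidHom r : ↥(P : Subgroup ↥(D.group F)) →* ↥(P : Subgroup ↥(D.group F))).ker = r ^ a := by
    rw [card_ker_pow_congr e, ← hrank]
    apply Nat.card_congr
    refine ⟨fun y => ⟨(y : ↥S), congrArg Subtype.val y.2⟩, fun y => ⟨⟨(y : ↥(Q : Subgroup ↥(D.group F'))), ?_⟩, ?_⟩, ?_, ?_⟩
    · rw [hSmem]
      have h3 : (y : ↥(Q : Subgroup ↥(D.group F'))) ^ r = 1 := y.2
      obtain ⟨k, rfl⟩ : ∃ k, μ = k + 1 := ⟨μ - 1, by omega⟩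
      rw [pow_succ', pow_mul, h3, one_pow]
    · rw [MonoidHom.mem_ker]
      apply Subtype.ext
      exact y.2
    · intro y; rfl
    · intro y; rfl
  exact homocyclic_of hμ1 hexpP hcP hrankP

end main

end Cfsg.Agent.ChevF
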