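import Cfsg.Agent.ChevF.SylMain
import Cfsg.Agent.ChevF.TorRows
import Cfsg.Agent.ChevTw.Fld
import Cfsg.Agent.S1059
import Cfsg.Agent.S1060
import Cfsg.Agent.S1061
import Cfsg.Agent.S1062
import Cfsg.Agent.S1063
import Cfsg.Agent.S1064
import Cfsg.Agent.S1065

set_option autoImplicit false
set_option maxRecDepth 100000

/-!
Sylow subgroups of Chevalley groups for primes not dividing the order of the Weyl group: the instances (helper19).
-/

namespace Cfsg.Agent.ChevF

open Cfsg.Lie Cfsg.Agent.Chev Cfsg.Agent.ChevGrp Cfsg.Agent.ChevWeyl Matrix Polynomial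

/-- the types with their degrees -/
def degData : List (ChevalleyDatum × List ℕ) :=
  [(chevG2, [2, 6]), (chevB2, [2, 4]), (chevD4, [2, 4, 4, 6]), (chevF4, [2, 6, 8, 12]),
      (chevE6, [2, 5, 6, 8, 9, 12]), (chevE7, [2, 6, 8, 10, 12, 14, 18]), (chevE8, [2, 8, 12, 14, 18, 20, 24, 30])]

lemma degData_mem {c : ChevalleyDatum × List ℕ} (hc : c ∈ degData) : c.1 ∈ data := by
  simp only [degData, List.mem_cons, List.not_mem_nil, or_false] at hc
  rcases hc with rfl | rfl | rfl | rfl | rfl | rfl | rfl <;> simp [data]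

lemma degData_card {c : ChevalleyDatum × List ℕ} (hc : c ∈ degData) (E : DData c.1) :
    Nat.card E.rp.wsys.W = c.2.prod := by
  simp only [degData, List.mem_cons, List.not_mem_nil, or_false] at hc
  rcases hc with rfl | rfl | rfl | rfl | rfl | rfl | rfl
  · exact card_W_G2 E
  · exact card_W_B2 E
  · exact card_W_D4 E
  · exact card_W_F4 E
  · exact card_W_E6 E
  · exact card_W_E7 E
  · exact card_W_E8 E

lemma degData_even {c : ChevalleyDatum × List ℕ} (hc : c ∈ degData) : 2 ∣ c.2.prod ∧ 1 < c.2.prod := by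
  simp only [degData, List.mem_cons, List.not_mem_nil, or_false] at hc
  rcases hc with rfl | rfl | rfl | rfl | rfl | rfl | rfl <;> norm_num

/-- the orders of the groups -/
theorem degData_order {F : Type*} [Field F] [Fintype F] {q : ℕ} (hq : Fintype.card F = q)
    {c : ChevalleyDatum × List ℕ} (hc : c ∈ degData) :
    ∃ δ N : ℕ, δ ∣ c.2.prod ∧ δ * Nat.card (c.1.diagonalSubgroup F) = (q - 1) ^ c.1.rank ∧
      δ * Nat.card (c.1.group F) = q ^ N * (c.2.map (fun e => q ^ e - 1)).prod := by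
  simp only [degData, List.mem_cons, List.not_mem_nil, or_false] at hc
  rcases hc with rfl | rfl | rfl | rfl | rfl | rfl | rfl
  · refine ⟨1, 6, one_dvd _, ChevU.card_diag hq (chevG2, 1) (by simp), ?_⟩
    have h := Cfsg.Agent.S1059.result hq
    rw [one_mul, h]; simp [mul_assoc]
  · refine ⟨Nat.gcd 2 (q - 1), 4, (Nat.gcd_dvd_left 2 (q - 1)).trans (by norm_num),
      ChevU.card_diag hq (chevB2, Nat.gcd 2 (q - 1)) (by simp), ?_⟩
    have h := Cfsg.Agent.S1060.result hq
    rw [h]; simp [mul_assoc]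
  · refine ⟨Nat.gcd 2 (q - 1) ^ 2, 12, (pow_dvd_pow_of_dvd (Nat.gcd_dvd_left 2 (q - 1)) 2).trans (by norm_num),
      ChevU.card_diag hq (chevD4, Nat.gcd 2 (q - 1) ^ 2) (by simp), ?_⟩
    have h := Cfsg.Agent.S1061.result hq
    rw [h]; simp [mul_assoc]
  · refine ⟨1, 24, one_dvd _, ChevU.card_diag hq (chevF4, 1) (by simp), ?_⟩
    have h := Cfsg.Agent.S1062.result hq
    rw [one_mul, h]; simp [mul_assoc]
  · refine ⟨Nat.gcd 3 (q - 1), 36, (Nat.gcd_dvd_left 3 (q - 1)).trans (by norm_num),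
      ChevU.card_diag hq (chevE6, Nat.gcd 3 (q - 1)) (by simp), ?_⟩
    have h := Cfsg.Agent.S1063.result hq
    rw [h]; simp [mul_assoc]
  · refine ⟨Nat.gcd 2 (q - 1), 63, (Nat.gcd_dvd_left 2 (q - 1)).trans (by norm_num),
      ChevU.card_diag hq (chevE7, Nat.gcd 2 (q - 1)) (by simp), ?_⟩
    have h := Cfsg.Agent.S1064.result hq
    rw [h]; simp [mul_assoc]
  · refine ⟨1, 120, one_dvd _, ChevU.card_diag hq (chevE8, 1) (by simp), ?_⟩
    have h := Cfsg.Agent.S1065.result hq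
    rw [one_mul, h]; simp [mul_assoc]

theorem sylow_homocyclic {F : Type*} [Field F] [Fintype F] {q : ℕ} (hq : Fintype.card F = q)
    (c : ChevalleyDatum × List ℕ) (hc : c ∈ degData)
    (r : ℕ) [hr : Fact r.Prime] (hrq : ¬ r ∣ q) (hrW : ¬ r ∣ c.2.prod) (hrG : r ∣ Nat.card ↥(c.1.group F)) (P : Sylow r ↥(c.1.group F)) :
    Nonempty (↥(P : Subgroup ↥(c.1.group F)) ≃*
      (Fin (c.2.filter (fun e => orderOf (q : ZMod r) ∣ e)).length →
        Multiplicative (ZMod (r ^ padicValNat r ((Polynomial.cyclotomic (orderOf (q : ZMod r)) ℤ).eval (q : ℤ)).natAbs)))) := by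
  classical
  have hD := degData_mem hc
  obtain ⟨E⟩ := DData.nonempty_of_mem (D := c.1) hD
  have hWc := degData_card hc E
  obtain ⟨hW2, hW1⟩ := degData_even hc
  have hq1 : 1 < q := by rw [← hq]; exact Fintype.one_lt_card
  have hr2 : Odd r := by
    rcases hr.out.eq_two_or_odd' with h | h
    · exact absurd (h ▸ hW2) hrW
    · exact h
  generalize hord : orderOf (q : ZMod r) = d
  obtain ⟨hd0, -⟩ := order_pos hrq hord
  rw [padic_cyclotomic hq1 hrq hord]
  generalize hμ : padicValNat r (q ^ d - 1) = μ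
  have hμ1 : 1 ≤ μ := by
    rw [← hμ]
    have h1 : q ^ d - 1 ≠ 0 := by
      have := Nat.one_lt_pow hd0.ne' hq1
      omega
    exact one_le_padicValNat_of_dvd h1 ((dvd_pow_sub_one_iff (by omega) hord d).2 dvd_rfl)
  -- the orders
  obtain ⟨δ, N, hδ, hH, hG⟩ := degData_order hq hc
  have hδr : ¬ r ∣ δ := fun h => hrW (h.trans hδ)
  obtain ⟨hcG, hG0⟩ := padic_order hr2 hq1 hrq hord c.2 hrW hδr hG
  rw [hμ] at hcG
  -- `d` divides some degree
  have hdW : d ∣ c.2.prod := by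
    have h1 : 1 ≤ padicValNat r (Nat.card ↥(c.1.group F)) := one_le_padicValNat_of_dvd hG0 hrG
    rw [hcG] at h1
    have h2 : (c.2.filter (fun e => d ∣ e)).length ≠ 0 := by
      intro h0
      rw [h0, zero_mul] at h1
      omega
    obtain ⟨e, he⟩ := List.exists_mem_of_length_pos (Nat.pos_of_ne_zero h2)
    rw [List.mem_filter] at he
    exact (of_decide_eq_true he.2).trans (List.dvd_prod he.1)
  -- the fields
  obtain ⟨F', i1, i2, ι', σ', h1, h2, h3, h4⟩ := exists_ext hq hr.out.pos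
  have hq' : 0 < c.2.prod * d := Nat.mul_pos (by omega) hd0
  obtain ⟨K, i3, i4, ι, σ₁, h5, -, -, -⟩ := exists_ext h1 hd0
  have hpp : IsPrimePow q := by
    rw [← hq]; exact FiniteField.isPrimePow_card F
  obtain ⟨φ, hφ⟩ := ChevTw.exists_frob (K := K) (q := q) (m := r * d) hpp (Nat.mul_pos hr.out.pos hd0).ne' (by rw [h5, ← pow_mul])
  obtain ⟨δ', N', hδ', hH', hG'⟩ := degData_order h1 hc
  have hδr' : ¬ r ∣ δ' := fun h => hrW (h.trans hδ')
  obtain ⟨hcG', hG0'⟩ := padic_order_ext hr2 hq1 hrq hord c.2 hrW hδr' hG'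
  rw [hμ] at hcG'
  exact sylow_main E hD ι' σ' ι (φ : K →+* K) (q := q) (M := d) (d := d) (δ := δ) (μ := μ) hr2 hq1 hq h1
    (by rw [h5, ← pow_mul]) dvd_rfl h2 hφ h4 hrq hord (torHom_pow_mem hD (by rw [hq]; exact hH)) hδr
    (by rw [hWc]; exact hrW) (by rw [hWc]; exact hdW) (by rw [hWc]; exact hW1) hμ hμ1 hcG hcG' P

end Cfsg.Agent.ChevF
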