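import Cfsg.Agent.ChevF.SL2h
import Cfsg.Agent.ChevF.FixAut
import Cfsg.Agent.ChevF.TorRows
import Cfsg.Agent.Tw3.RowsD4

set_option autoImplicit false
set_option maxRecDepth 100000

/-!
A cyclic torus of the twisted group of type D4 (helper19).
-/

namespace Cfsg.Agent.ChevF

open Cfsg.Lie Cfsg.Agent.Chev Cfsg.Agent.ChevGrp Cfsg.Agent.ChevGrp.DData Cfsg.Agent.ChevTw Matrix
open Cfsg.Agent.ChevU (SL2Sys)

lemma hD4 : chevD4 ∈ data := by simp [data]

section tau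

variable {K : Type*} [Field K] (φ : K ≃+* K)

/-- the triality automorphism combined with a field automorphism -/
noncomputable def tau : ↥(chevD4.group K) ≃* ↥(chevD4.group K) := sgm (good_of_mem hD4) gok_D4_1 piok_D4_1 pj_D4_1 φ

lemma tau_x {r : ℕ} (hr : r < chevD4.nroots) (t : K) :
    tau φ (xG (good_of_mem hD4).toGood2 r t) = xG (good_of_mem hD4).toGood2 (wv gpD4_1 r) (((gs gpD4_1 r : ℤ) : K) * φ t) :=
  sgm_xG (good_of_mem hD4) _ _ _ φ hr t

theorem tri_tab : (wv gpD4_1 18 = 13 ∧ wv gpD4_1 13 = 12 ∧ wv gpD4_1 12 = 18 ∧ wv gpD4_1 14 = 14) ∧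
    (wv gpD4_1 5 = 10 ∧ wv gpD4_1 10 = 11 ∧ wv gpD4_1 11 = 5 ∧ wv gpD4_1 9 = 9) ∧
    (gs gpD4_1 18 = 1 ∧ gs gpD4_1 13 = 1 ∧ gs gpD4_1 12 = 1 ∧ gs gpD4_1 14 = 1) ∧
    (gs gpD4_1 5 = 1 ∧ gs gpD4_1 10 = 1 ∧ gs gpD4_1 11 = 1 ∧ gs gpD4_1 9 = 1) := by decide +kernel

lemma tau_x' {r s : ℕ} (hr : r < chevD4.nroots) (h1 : wv gpD4_1 r = s) (h2 : gs gpD4_1 r = 1) (t : K) :
    tau φ (xG (good_of_mem hD4).toGood2 r t) = xG (good_of_mem hD4).toGood2 s (φ t) := by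
  rw [tau_x φ hr, h1, h2, Int.cast_one, one_mul]

lemma tri_comm {r s : ℕ} (h : (r, s) ∈ [(18, 13), (18, 12), (13, 12), (5, 10), (5, 11), (10, 11)]) (t u : K) :
    xG (good_of_mem hD4).toGood2 r t * xG (good_of_mem hD4).toGood2 s u =
      xG (good_of_mem hD4).toGood2 s u * xG (good_of_mem hD4).toGood2 r t := by
  have h1 : ∀ p ∈ [(18, 13), (18, 12), (13, 12), (5, 10), (5, 11), (10, 11)], p.1 < chevD4.nroots ∧ p.2 < chevD4.nroots ∧
      p.2 ≠ p.1 ∧ p.2 ≠ chevD4.neg p.1 ∧ chevD4.commTerms p.1 p.2 = [] := by decide +kernel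
  obtain ⟨h2, h3, h4, h5, h6⟩ := h1 _ h
  exact xG_comm (good_of_mem hD4) h2 h3 h4 h5 h6 t u

/-- the elements of the twisted group are fixed -/
theorem tau_tw {L : Type*} [Field L] (ι : L →+* K) {q : ℕ} (hφ : ∀ t, φ t = t ^ q) (hL : ∀ t : L, t ^ (q ^ 3) = t)
    {y : GL chevD4.Idx L} (hy : y ∈ twistedD4 L q) :
    ∃ hy' : y ∈ chevD4.group L, tau φ (fHom chevD4 ι ⟨y, hy'⟩) = fHom chevD4 ι ⟨y, hy'⟩ := by
  have G := good_of_mem hD4
  set S : Subgroup ↥(chevD4.group L) :=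
    (((tau φ).toMonoidHom).eqLocus (MonoidHom.id ↥(chevD4.group K))).comap (fHom chevD4 ι) with hS
  have hSmem : ∀ x : ↥(chevD4.group L), x ∈ S ↔ tau φ (fHom chevD4 ι x) = fHom chevD4 ι x := fun x => Iff.rfl
  have h1 : twistedD4 L q ≤ S.map (chevD4.group L).subtype := by
    unfold twistedD4 ChevalleyDatum.genSubgroup
    rw [Subgroup.closure_le]
    rintro g ⟨w, hw, hg⟩
    obtain ⟨⟨a1, a2, a3, a4⟩, ⟨b1, b2, b3, b4⟩, ⟨c1, c2, c3, c4⟩, ⟨d1, d2, d3, d4⟩⟩ := tri_tab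
    have hq2 : ∀ t : L, ι (t ^ q ^ 2) ^ q = ι t := by
      intro t
      rw [← map_pow, ← pow_mul]
      have : q ^ 2 * q = q ^ 3 := by ring
      rw [this, hL]
    rcases hw with ⟨t, ht, r, hr, rfl⟩ | ⟨t, rs, hrs, rfl⟩
    · refine ⟨xG G.toGood2 r t, ?_, ?_⟩
      · show xG G.toGood2 r t ∈ S
        rw [hSmem, fHom_xG]
        have h2 : φ (ι t) = ι t := by rw [hφ, ← map_pow, ht]
        simp only [d4p2, d4m2, List.mem_cons, List.not_mem_nil, or_false] at hr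
        rcases hr with rfl | rfl
        · rw [tau_x' φ (by decide) a4 c4, h2]
        · rw [tau_x' φ (by decide) b4 d4, h2]
      · apply Units.ext
        rw [hg]
        simp [ChevalleyDatum.wordMat, xG_coe]
    · refine ⟨xG G.toGood2 rs.1 t * xG G.toGood2 rs.2.1 (t ^ q) * xG G.toGood2 rs.2.2 (t ^ q ^ 2), ?_, ?_⟩
      · show _ ∈ S
        rw [hSmem]
        simp only [map_mul, fHom_xG]
        simp only [d4p1, d4p3, d4p4, d4m1, d4m3, d4m4, List.mem_cons, List.not_mem_nil, or_false] at hrs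
        have h2 : φ (ι t) = ι (t ^ q) := by rw [hφ, ← map_pow]
        have h3 : φ (ι (t ^ q)) = ι (t ^ q ^ 2) := by rw [hφ, ← map_pow, ← pow_mul, sq]
        have h4 : φ (ι (t ^ q ^ 2)) = ι t := by rw [hφ, hq2]
        rcases hrs with rfl | rfl
        · rw [tau_x' φ (by decide) a1 c1, tau_x' φ (by decide) a2 c2, tau_x' φ (by decide) a3 c3, h2, h3, h4]
          rw [tri_comm (r := 18) (s := 13) (by simp), mul_assoc _ (xG G.toGood2 18 _), tri_comm (r := 18) (s := 12) (by simp),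
            ← mul_assoc]
        · rw [tau_x' φ (by decide) b1 d1, tau_x' φ (by decide) b2 d2, tau_x' φ (by decide) b3 d3, h2, h3, h4]
          rw [tri_comm (r := 5) (s := 10) (by simp), mul_assoc _ (xG G.toGood2 5 _), tri_comm (r := 5) (s := 11) (by simp),
            ← mul_assoc]
      · apply Units.ext
        rw [hg]
        simp [ChevalleyDatum.wordMat, xG_coe, mul_assoc]
  obtain ⟨x, hx, rfl⟩ := h1 hy
  exact ⟨x.2, (hSmem x).1 hx⟩

/-- values of the image of a diagonal element -/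
theorem ev_tau {k : ↥(chevD4.group K)} (hk : (k : GL chevD4.Idx K) ∈ chevD4.diagonalSubgroup K) (s : Fin chevD4.nroots)
    (hs : wv gpD4_1 s < chevD4.nroots) :
    ((tau φ k : ↥(chevD4.group K)) : GL chevD4.Idx K) ∈ chevD4.diagonalSubgroup K ∧
    ev ((tau φ k : ↥(chevD4.group K)) : GL chevD4.Idx K) ⟨wv gpD4_1 s, hs⟩ = φ (ev (k : GL chevD4.Idx K) s) := by
  have G := good_of_mem hD4
  have h0 : ((tau φ k : ↥(chevD4.group K)) : GL chevD4.Idx K) ∈ chevD4.diagonalSubgroup K :=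
    sgm_H G gok_D4_1 piok_D4_1 pj_D4_1 φ (x := k) hk
  refine ⟨h0, ?_⟩
  have h1 : k * xG G.toGood2 s 1 * k⁻¹ = xG G.toGood2 s (ev (k : GL chevD4.Idx K) s) := by
    apply Subtype.ext
    have := diag_mul_xU hD4 hk s (1 : K)
    rw [mul_one] at this
    exact this
  have h2 := congrArg (tau φ) h1
  rw [map_mul, map_mul, map_inv, tau_x φ s.2, tau_x φ s.2, map_one, mul_one] at h2
  have h3 := diag_mul_xU hD4 h0 ⟨wv gpD4_1 s, hs⟩ ((gs gpD4_1 s : ℤ) : K)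
  have h4 := congrArg (fun x : ↥(chevD4.group K) => (x : GL chevD4.Idx K)) h2
  have h5 := xU_inj G hs (h3.symm.trans h4)
  have h6 : ((gs gpD4_1 s : ℤ) : K) ≠ 0 := by
    rcases gs_or gpD4_1 s with h | h
    · rw [h]; simp
    · rw [h]; simp
  rw [mul_comm] at h5
  exact mul_left_cancel₀ h6 h5

/-- the automorphism on the middle `SL₂` -/
theorem tau_th (h : (14 : ℕ) < chevD4.nroots) (A : SpecialLinearGroup (Fin 2) K) (hm : th hD4 K ⟨14, h⟩ A ∈ chevD4.group K) :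
    ((tau φ ⟨th hD4 K ⟨14, h⟩ A, hm⟩ : ↥(chevD4.group K)) : GL chevD4.Idx K) =
      th hD4 K ⟨14, h⟩ (SpecialLinearGroup.map (φ : K →+* K) A) := by
  have G := good_of_mem hD4
  obtain ⟨⟨a1, a2, a3, a4⟩, ⟨b1, b2, b3, b4⟩, ⟨c1, c2, c3, c4⟩, ⟨d1, d2, d3, d4⟩⟩ := tri_tab
  have h9 : chevD4.neg 14 = 9 := by decide +kernel
  let f : SpecialLinearGroup (Fin 2) K →* ↥(chevD4.group K) :=
    (th hD4 K ⟨14, h⟩).codRestrict (chevD4.group K) (fun A => th_mem hD4 _ A)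
  have : ((tau φ).toMonoidHom).comp f = f.comp (SpecialLinearGroup.map (φ : K →+* K)) := by
    apply sl_hom_ext
    · intro t
      have e1 : ∀ t, f (SL2Sys.X t) = xG G.toGood2 14 t := fun t => Subtype.ext (th_X hD4 ⟨14, h⟩ t)
      show tau φ (f (SL2Sys.X t)) = f (SpecialLinearGroup.map (φ : K →+* K) (SL2Sys.X t))
      rw [sl_map_X, e1, e1, tau_x' φ h a4 c4]; rfl
    · intro t
      have e1 : ∀ t, f (SL2Sys.Y t) = xG G.toGood2 9 t := fun t => Subtype.ext (by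
        have := th_Y hD4 (K := K) ⟨14, h⟩ t
        rw [h9] at this; exact this)
      show tau φ (f (SL2Sys.Y t)) = f (SpecialLinearGroup.map (φ : K →+* K) (SL2Sys.Y t))
      rw [sl_map_Y, e1, e1, tau_x' φ (by decide) b4 d4]; rfl
  exact congrArg Subtype.val (DFunLike.congr_fun this A)

end tau

end Cfsg.Agent.ChevF
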