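import Cfsg.Agent.ChevF.Tri
import Cfsg.Agent.ChevF.Stab

set_option autoImplicit false
set_option maxRecDepth 100000

/-!
A cyclic torus of the twisted group of type D4: combinatorics (helper19).
-/

namespace Cfsg.Agent.ChevF

open Cfsg.Lie Cfsg.Agent.Chev Cfsg.Agent.ChevGrp Cfsg.Agent.ChevGrp.DData Cfsg.Agent.ChevTw Matrix
open Cfsg.Agent.ChevU (SL2Sys)

lemma dig_step {q c e : ℤ} (hq : 3 ≤ q) (hc : |c| ≤ 2) (h : c + q * e = 0) : c = 0 ∧ e = 0 := by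
  have h1 : q ∣ c := ⟨-e, by linarith⟩
  have h2 : c = 0 := Int.eq_zero_of_abs_lt_dvd h1 (by omega)
  refine ⟨h2, ?_⟩
  rw [h2, zero_add] at h
  rcases mul_eq_zero.1 h with h3 | h3
  · omega
  · exact h3

lemma dig {q : ℤ} (hq : 3 ≤ q) {c0 c1 c2 c3 : ℤ} (h0 : |c0| ≤ 2) (h1 : |c1| ≤ 2) (h2 : |c2| ≤ 2) (h3 : |c3| ≤ 2)
    (h : (q ^ 3 - 1) * (q + 1) ∣ c0 + c1 * q + c2 * q ^ 2 + c3 * q ^ 3) : c0 = 0 ∧ c1 = 0 ∧ c2 = 0 ∧ c3 = 0 := by
  have hE : c0 + c1 * q + c2 * q ^ 2 + c3 * q ^ 3 = 0 := by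
    apply Int.eq_zero_of_abs_lt_dvd h
    rw [abs_le] at h0 h1 h2 h3
    have hq1 : (0 : ℤ) ≤ q := by omega
    have hq2 : (0 : ℤ) ≤ q ^ 2 := by positivity
    have hq3 : (0 : ℤ) ≤ q ^ 3 := by positivity
    have e1 : c1 * q ≤ 2 * q := by nlinarith
    have e1' : -(2 * q) ≤ c1 * q := by nlinarith
    have e2 : c2 * q ^ 2 ≤ 2 * q ^ 2 := by nlinarith
    have e2' : -(2 * q ^ 2) ≤ c2 * q ^ 2 := by nlinarith
    have e3 : c3 * q ^ 3 ≤ 2 * q ^ 3 := by nlinarith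
    have e3' : -(2 * q ^ 3) ≤ c3 * q ^ 3 := by nlinarith
    have hm : 2 + 2 * q + 2 * q ^ 2 + 2 * q ^ 3 < (q ^ 3 - 1) * (q + 1) := by
      obtain ⟨p, rfl⟩ : ∃ p : ℤ, q = p + 3 := ⟨q - 3, by ring⟩
      have hp : 0 ≤ p := by omega
      have hp2 : 0 ≤ p ^ 2 := by positivity
      have hp3 : 0 ≤ p ^ 3 := by positivity
      have hp4 : 0 ≤ p ^ 4 := by positivity
      nlinarith
    rw [abs_lt]
    constructor <;> linarith
  have f1 : c0 + q * (c1 + q * (c2 + q * c3)) = 0 := by linear_combination hE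
  obtain ⟨g0, f2⟩ := dig_step hq h0 f1
  obtain ⟨g1, f3⟩ := dig_step hq h1 f2
  obtain ⟨g2, f4⟩ := dig_step hq h2 f3
  refine ⟨g0, g1, g2, f4⟩

/-- digits of a root -/
def dg0 (s : ℕ) : ℤ := vec chevD4 s 0 - vec chevD4 s 1 + vec chevD4 s 2
def dg1 (s : ℕ) : ℤ := vec chevD4 s 2
def dg2 (s : ℕ) : ℤ := vec chevD4 s 3
def dg3 (s : ℕ) : ℤ := vec chevD4 s 1 - vec chevD4 s 2

theorem dig_tab : ∀ s < 24, |dg0 s| ≤ 1 ∧ |dg1 s| ≤ 1 ∧ |dg2 s| ≤ 1 ∧ |dg3 s| ≤ 1 := by decide +kernel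

theorem dig_inj' : ∀ s : Fin 24, ∀ r : Fin 24, (dg0 s = dg0 r ∧ dg1 s = dg1 r ∧ dg2 s = dg2 r ∧ dg3 s = dg3 r) → s = r := by
  decide +kernel

theorem dig_inj (s : ℕ) (hs : s < 24) (r : ℕ) (hr : r < 24) (h0 : dg0 s = dg0 r) (h1 : dg1 s = dg1 r)
    (h2 : dg2 s = dg2 r) (h3 : dg3 s = dg3 r) : s = r :=
  congrArg Fin.val (dig_inj' ⟨s, hs⟩ ⟨r, hr⟩ ⟨h0, h1, h2, h3⟩)

/-- residues modulo 21 -/
def rd (s : ℕ) : ℤ := (dg0 s + dg1 s * 2 + dg2 s * 4 + dg3 s * 8) % 21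

theorem rd_18 : ∀ s : Fin 24, rd s = rd 18 → (s : ℕ) = 18 := by decide +kernel
theorem rd_13 : ∀ s : Fin 24, rd s = rd 13 → (s : ℕ) = 13 := by decide +kernel
theorem rd_12 : ∀ s : Fin 24, rd s = rd 12 → (s : ℕ) = 12 := by decide +kernel
theorem rd_14 : ∀ s : Fin 24, rd s = rd 14 → (s : ℕ) = 14 ∨ (s : ℕ) = 22 ∨ (s : ℕ) = 0 := by decide +kernel

/-- the exponent of a root -/
def ex (q : ℤ) (s : ℕ) : ℤ := dg0 s + dg1 s * q + dg2 s * q ^ 2 + dg3 s * q ^ 3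

lemma ex_eq (q : ℤ) (s : ℕ) : ex q s = vec chevD4 s 0 + vec chevD4 s 1 * (q ^ 3 - 1) + vec chevD4 s 2 * (q - (q ^ 3 - 1)) +
    vec chevD4 s 3 * q ^ 2 := by
  unfold ex dg0 dg1 dg2 dg3; ring

lemma ex_inj {q : ℤ} (hq : 3 ≤ q) {s r : ℕ} (hs : s < 24) (hr : r < 24) (h : (q ^ 3 - 1) * (q + 1) ∣ ex q s - ex q r) : s = r := by
  obtain ⟨a1, a2, a3, a4⟩ := dig_tab s hs
  obtain ⟨b1, b2, b3, b4⟩ := dig_tab r hr
  have h1 : ex q s - ex q r = (dg0 s - dg0 r) + (dg1 s - dg1 r) * q + (dg2 s - dg2 r) * q ^ 2 + (dg3 s - dg3 r) * q ^ 3 := by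
    unfold ex; ring
  rw [h1] at h
  rw [abs_le] at a1 a2 a3 a4 b1 b2 b3 b4
  obtain ⟨c0, c1, c2, c3⟩ := dig hq (by rw [abs_le]; constructor <;> linarith) (by rw [abs_le]; constructor <;> linarith)
    (by rw [abs_le]; constructor <;> linarith) (by rw [abs_le]; constructor <;> linarith) h
  exact dig_inj s hs r hr (by linarith) (by linarith) (by linarith) (by linarith)

theorem vec_no : ∀ s < 24, ¬ (vec chevD4 s 0 = 2 ∧ vec chevD4 s 1 = 1) ∧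
    ¬ (vec chevD4 s 0 = 0 ∧ vec chevD4 s 1 = -2) := by decide +kernel

theorem vec_19 : vec chevD4 19 0 = 1 ∧ vec chevD4 19 1 = 1 ∧ vec chevD4 19 2 = 0 ∧ vec chevD4 19 3 = 0 ∧
    vec chevD4 18 0 = 1 ∧ vec chevD4 18 1 = 0 ∧ vec chevD4 22 0 = 1 ∧ vec chevD4 22 1 = 1 ∧
    vec chevD4 0 0 = -1 ∧ vec chevD4 0 1 = -2 := by decide +kernel

section stab

variable {K : Type*} [Field K]

lemma ev4 {h : GL chevD4.Idx K} (hh : h ∈ chevD4.diagonalSubgroup K) (s : Fin chevD4.nroots) (p0 p1 p2 p3 : Fin chevD4.nroots)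
    (h0 : (p0 : ℕ) = 18) (h1 : (p1 : ℕ) = 14) (h2 : (p2 : ℕ) = 13) (h3 : (p3 : ℕ) = 12) :
    ev h s = ev h p0 ^ vec chevD4 s 0 * ev h p1 ^ vec chevD4 s 1 * ev h p2 ^ vec chevD4 s 2 * ev h p3 ^ vec chevD4 s 3 := by
  rw [ev_eq_prod dD4 hD4 hh]
  have e : ∀ i : Fin 4, ((dD4.rp.wsys.p i : Fin chevD4.nroots) : ℕ) = chevD4.simple i := fun i => p_val dD4 i
  have e0 : dD4.rp.wsys.p (0 : Fin 4) = p0 := Fin.ext (by rw [e, h0]; rfl)
  have e1 : dD4.rp.wsys.p (1 : Fin 4) = p1 := Fin.ext (by rw [e, h1]; rfl)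
  have e2 : dD4.rp.wsys.p (2 : Fin 4) = p2 := Fin.ext (by rw [e, h2]; rfl)
  have e3 : dD4.rp.wsys.p (3 : Fin 4) = p3 := Fin.ext (by rw [e, h3]; rfl)
  have h4 := Fin.prod_univ_four (fun i : Fin 4 => ev h (dD4.rp.wsys.p i) ^ vec chevD4 s i)
  rw [e0, e1, e2, e3] at h4
  exact h4

/-- the stabilizer of the torus element -/
theorem tri_stab {q : ℕ} (hq : 2 ≤ q) {t : GL chevD4.Idx K} (ht : t ∈ chevD4.diagonalSubgroup K) {a : K}
    (ha : IsPrimitiveRoot a ((q ^ 3 - 1) * (q + 1))) (p0 p1 p2 p3 : Fin chevD4.nroots)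
    (h0 : (p0 : ℕ) = 18) (h1 : (p1 : ℕ) = 14) (h2 : (p2 : ℕ) = 13) (h3 : (p3 : ℕ) = 12)
    (e0 : ev t p0 = a) (e1 : ev t p1 = a ^ (q ^ 3 - 1)) (e2 : ev t p2 = a ^ q * (a ^ (q ^ 3 - 1))⁻¹)
    (e3 : ev t p3 = a ^ q ^ 2) {v : Equiv.Perm (Fin chevD4.nroots)} (hv : v ∈ dD4.rp.wsys.W)
    (hvt : ∀ s, ev t (v s) = ev t s) : v = 1 := by
  have G := good_of_mem hD4
  have hq3 : 1 ≤ q ^ 3 := Nat.one_le_pow _ _ (by omega)
  have hq31 : 1 < q ^ 3 := Nat.one_lt_pow (by omega) (by omega)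
  set m := (q ^ 3 - 1) * (q + 1) with hm
  have hm0 : m ≠ 0 := Nat.mul_ne_zero (by omega) (by omega)
  have ha0 : a ≠ 0 := ha.ne_zero hm0
  have hev : ∀ s : Fin chevD4.nroots, ev t s = a ^ ex q s := by
    intro s
    rw [ev4 ht s p0 p1 p2 p3 h0 h1 h2 h3, e0, e1, e2, e3, ex_eq]
    have f1 : a ^ (q ^ 3 - 1) = a ^ ((q : ℤ) ^ 3 - 1) := by
      rw [← zpow_natCast, Nat.cast_sub hq3]; push_cast; rfl
    have f2 : a ^ q = a ^ (q : ℤ) := (zpow_natCast a q).symm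
    have f3 : a ^ q ^ 2 = a ^ ((q : ℤ) ^ 2) := by
      rw [← zpow_natCast]; push_cast; rfl
    rw [f1, f2, f3, ← _root_.zpow_neg, ← zpow_add₀ ha0, ← _root_.zpow_mul, ← _root_.zpow_mul, ← _root_.zpow_mul, ← zpow_add₀ ha0,
      ← zpow_add₀ ha0, ← zpow_add₀ ha0]
    congr 1
    ring
  have hmz : ((m : ℕ) : ℤ) = ((q : ℤ) ^ 3 - 1) * (q + 1) := by
    rw [hm]; push_cast [Nat.cast_sub hq3]; ring
  have hdvd : ∀ s : Fin chevD4.nroots, ((q : ℤ) ^ 3 - 1) * (q + 1) ∣ ex q (v s) - ex q s := by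
    intro s
    have f1 := hvt s
    rw [hev, hev, zpow_eq_iff ha hm0] at f1
    rw [← hmz, ← ZMod.intCast_zmod_eq_zero_iff_dvd]
    push_cast
    rw [f1, sub_self]
  rcases Nat.lt_or_ge q 3 with hq2 | hq3'
  · have hq2' : q = 2 := by omega
    subst hq2'
    have f : ∀ s : Fin chevD4.nroots, rd (v s) = rd s := by
      intro s
      have f1 := hdvd s
      unfold ex at f1
      norm_num at f1
      unfold rd
      exact Int.emod_eq_emod_iff_emod_sub_eq_zero.2 (Int.emod_eq_zero_of_dvd f1)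
    have g0 : ((v p0 : Fin _) : ℕ) = 18 := rd_18 (v p0) (by rw [f, h0])
    have g2 : ((v p2 : Fin _) : ℕ) = 13 := rd_13 (v p2) (by rw [f, h2])
    have g3 : ((v p3 : Fin _) : ℕ) = 12 := rd_12 (v p3) (by rw [f, h3])
    have g1 := rd_14 (v p1) (by rw [f, h1])
    have g1' : ((v p1 : Fin _) : ℕ) = 14 := by
      obtain ⟨i1, i2, i3, i4, i5, i6, i7, i8, i9, i10⟩ := vec_19
      -- linearity at the root 19
      have hlin : ∀ i : Fin 4, vec chevD4 (v ⟨19, by decide⟩ : Fin _) i =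
          vec chevD4 (v p0 : Fin _) i + vec chevD4 (v p1 : Fin _) i := by
        intro i
        have k1 := congrFun (rv_W dD4 G hv ⟨19, by decide⟩) i
        have k2 : ∀ j : Fin 4, ((dD4.rp.wsys.p j : Fin chevD4.nroots) : ℕ) = chevD4.simple j := fun i => p_val dD4 i
        have k3 : dD4.rp.wsys.p (0 : Fin 4) = p0 := Fin.ext (by rw [k2, h0]; rfl)
        have k4 : dD4.rp.wsys.p (1 : Fin 4) = p1 := Fin.ext (by rw [k2, h1]; rfl)
        have k5 : (wm dD4 v *ᵥ rv chevD4 19) i = ∑ j : Fin 4, vec chevD4 (v (dD4.rp.wsys.p j)) i * vec chevD4 19 j := rfl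
        rw [k5, Fin.sum_univ_four, k3, k4] at k1
        have k6 : vec chevD4 19 ((0 : Fin 4) : ℕ) = 1 := i1
        have k7 : vec chevD4 19 ((1 : Fin 4) : ℕ) = 1 := i2
        have k8 : vec chevD4 19 ((2 : Fin 4) : ℕ) = 0 := i3
        have k9 : vec chevD4 19 ((3 : Fin 4) : ℕ) = 0 := i4
        rw [k6, k7, k8, k9, mul_one, mul_one, mul_zero, mul_zero, add_zero, add_zero] at k1
        exact k1
      have k0 := hlin 0
      have k1 := hlin 1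
      obtain ⟨n1, n2⟩ := vec_no _ (v ⟨19, by decide⟩).2
      rcases g1 with g1 | g1 | g1
      · exact g1
      · exfalso
        apply n1
        rw [g0, g1] at k0 k1
        have k0' : vec chevD4 (v ⟨19, by decide⟩ : Fin _) 0 = vec chevD4 18 0 + vec chevD4 22 0 := k0
        have k1' : vec chevD4 (v ⟨19, by decide⟩ : Fin _) 1 = vec chevD4 18 1 + vec chevD4 22 1 := k1
        rw [k0', k1', i5, i6, i7, i8]
        constructor <;> norm_num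
      · exfalso
        apply n2
        rw [g0, g1] at k0 k1
        have k0' : vec chevD4 (v ⟨19, by decide⟩ : Fin _) 0 = vec chevD4 18 0 + vec chevD4 0 0 := k0
        have k1' : vec chevD4 (v ⟨19, by decide⟩ : Fin _) 1 = vec chevD4 18 1 + vec chevD4 0 1 := k1
        rw [k0', k1', i5, i6, i9, i10]
        constructor <;> norm_num
    apply wm_inj dD4 G hv (one_mem _)
    ext i j
    have k2 : ∀ j : Fin 4, ((dD4.rp.wsys.p j : Fin chevD4.nroots) : ℕ) = chevD4.simple j := fun i => p_val dD4 i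
    have k : ∀ j : Fin 4, v (dD4.rp.wsys.p j) = dD4.rp.wsys.p j := by
      intro j
      apply Fin.ext
      fin_cases j
      · have : dD4.rp.wsys.p (0 : Fin 4) = p0 := Fin.ext (by rw [k2, h0]; rfl)
        show ((v (dD4.rp.wsys.p (0 : Fin 4)) : Fin _) : ℕ) = ((dD4.rp.wsys.p (0 : Fin 4) : Fin _) : ℕ)
        rw [this, g0, h0]
      · have : dD4.rp.wsys.p (1 : Fin 4) = p1 := Fin.ext (by rw [k2, h1]; rfl)
        show ((v (dD4.rp.wsys.p (1 : Fin 4)) : Fin _) : ℕ) = ((dD4.rp.wsys.p (1 : Fin 4) : Fin _) : ℕ)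
        rw [this, g1', h1]
      · have : dD4.rp.wsys.p (2 : Fin 4) = p2 := Fin.ext (by rw [k2, h2]; rfl)
        show ((v (dD4.rp.wsys.p (2 : Fin 4)) : Fin _) : ℕ) = ((dD4.rp.wsys.p (2 : Fin 4) : Fin _) : ℕ)
        rw [this, g2, h2]
      · have : dD4.rp.wsys.p (3 : Fin 4) = p3 := Fin.ext (by rw [k2, h3]; rfl)
        show ((v (dD4.rp.wsys.p (3 : Fin 4)) : Fin _) : ℕ) = ((dD4.rp.wsys.p (3 : Fin 4) : Fin _) : ℕ)
        rw [this, g3, h3]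
    show vec chevD4 (v (dD4.rp.wsys.p j)) i = vec chevD4 ((1 : Equiv.Perm (Fin chevD4.nroots)) (dD4.rp.wsys.p j)) i
    rw [k j]; rfl
  · apply Equiv.ext
    intro s
    apply Fin.ext
    exact ex_inj (by exact_mod_cast hq3') (v s).2 s.2 (hdvd s)

end stab

end Cfsg.Agent.ChevF
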