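import Cfsg.Agent.ChevF.Tri3
import Cfsg.Agent.ChevTw.Fld

set_option autoImplicit false
set_option maxRecDepth 100000

/-!
A cyclic torus of the twisted group of type D4: the theorem (helper19).
-/

namespace Cfsg.Agent.ChevF

open Cfsg.Lie Cfsg.Agent.Chev Cfsg.Agent.ChevGrp Cfsg.Agent.ChevGrp.DData Cfsg.Agent.ChevTw Matrix
open Cfsg.Agent.ChevU (SL2Sys)

theorem tri_pr : pr chevD4 18 14 = -1 ∧ pr chevD4 13 14 = -1 ∧ pr chevD4 12 14 = -1 ∧ pr chevD4 14 18 = -1 ∧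
    pr chevD4 18 18 = 2 ∧ pr chevD4 13 18 = 0 ∧ pr chevD4 12 18 = 0 := by decide +kernel

theorem tri_w : chevD4.reflectRoot 1 13 = 16 ∧ chevD4.reflectRoot 1 12 = 15 ∧ chevD4.reflectRoot 1 18 = 19 ∧
    chevD4.reflectRoot 1 14 = 9 := by decide +kernel

theorem tri_vec : (vec chevD4 16 0 = 0 ∧ vec chevD4 16 1 = 1 ∧ vec chevD4 16 2 = 1 ∧ vec chevD4 16 3 = 0) ∧
    (vec chevD4 15 0 = 0 ∧ vec chevD4 15 1 = 1 ∧ vec chevD4 15 2 = 0 ∧ vec chevD4 15 3 = 1) ∧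
    (vec chevD4 19 0 = 1 ∧ vec chevD4 19 1 = 1 ∧ vec chevD4 19 2 = 0 ∧ vec chevD4 19 3 = 0) ∧
    (vec chevD4 9 0 = 0 ∧ vec chevD4 9 1 = -1 ∧ vec chevD4 9 2 = 0 ∧ vec chevD4 9 3 = 0) := by decide +kernel

section rel

variable {K : Type*} [Field K]

/-- the relations -/
theorem tri_alg {q : ℕ} (hq : 1 ≤ q) {k : GL chevD4.Idx K} (hk : k ∈ chevD4.diagonalSubgroup K)
    (h : ∀ (s : Fin chevD4.nroots) (hs : wv gpD4_1 s < chevD4.nroots),
      ev k (dD4.rp.wsys.w (1 : Fin 4) ⟨wv gpD4_1 s, hs⟩) = ev k s ^ q) :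
    ev k r14 = ev k r18 ^ (q ^ 3 - 1) ∧ ev k r13 = ev k r18 ^ q * (ev k r18 ^ (q ^ 3 - 1))⁻¹ ∧
      ev k r12 = ev k r18 ^ q ^ 2 ∧ ev k r18 ^ ((q ^ 3 - 1) * (q + 1)) = 1 := by
  obtain ⟨⟨a1, a2, a3, a4⟩, -, -, -⟩ := tri_tab
  obtain ⟨w1, w2, w3, w4⟩ := tri_w
  obtain ⟨⟨b1, b2, b3, b4⟩, ⟨c1, c2, c3, c4⟩, ⟨d1, d2, d3, d4⟩, ⟨e1, e2, e3, e4⟩⟩ := tri_vec
  have hw : ∀ (s : Fin chevD4.nroots), ((dD4.rp.wsys.w (1 : Fin 4) s : Fin chevD4.nroots) : ℕ) = chevD4.reflectRoot 1 s :=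
    fun s => w_val dD4 (1 : Fin 4) s
  have hv : ∀ s : Fin chevD4.nroots, ev k s = ev k r18 ^ vec chevD4 s 0 * ev k r14 ^ vec chevD4 s 1 *
      ev k r13 ^ vec chevD4 s 2 * ev k r12 ^ vec chevD4 s 3 := fun s => ev4 hk s r18 r14 r13 r12 rfl rfl rfl rfl
  have n0 : ev k r18 ≠ 0 := ev_ne_zero hD4 hk _
  have n1 : ev k r14 ≠ 0 := ev_ne_zero hD4 hk _
  have g1 : ev k r14 * ev k r13 = ev k r18 ^ q := by
    have h1 := h r18 (by rw [show ((r18 : Fin _) : ℕ) = 18 from rfl, a1]; decide)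
    rw [← h1, hv (dD4.rp.wsys.w (1 : Fin 4) _), hw]
    simp only [show ((r18 : Fin _) : ℕ) = 18 from rfl, a1, w1, b1, b2, b3, b4]
    simp
  have g2 : ev k r14 * ev k r12 = ev k r13 ^ q := by
    have h1 := h r13 (by rw [show ((r13 : Fin _) : ℕ) = 13 from rfl, a2]; decide)
    rw [← h1, hv (dD4.rp.wsys.w (1 : Fin 4) _), hw]
    simp only [show ((r13 : Fin _) : ℕ) = 13 from rfl, a2, w2, c1, c2, c3, c4]
    simp
  have g3 : ev k r18 * ev k r14 = ev k r12 ^ q := by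
    have h1 := h r12 (by rw [show ((r12 : Fin _) : ℕ) = 12 from rfl, a3]; decide)
    rw [← h1, hv (dD4.rp.wsys.w (1 : Fin 4) _), hw]
    simp only [show ((r12 : Fin _) : ℕ) = 12 from rfl, a3, w3, d1, d2, d3, d4]
    simp
  have g4 : (ev k r14)⁻¹ = ev k r14 ^ q := by
    have h1 := h r14 (by rw [show ((r14 : Fin _) : ℕ) = 14 from rfl, a4]; decide)
    rw [← h1, hv (dD4.rp.wsys.w (1 : Fin 4) _), hw]
    simp only [show ((r14 : Fin _) : ℕ) = 14 from rfl, a4, w4, e1, e2, e3, e4]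
    simp
  have hq3 : 1 ≤ q ^ 3 := Nat.one_le_pow _ _ hq
  generalize ev k r18 = a at *
  generalize ev k r14 = b at *
  generalize ev k r13 = c at *
  generalize ev k r12 = d at *
  have k1 : b ^ (q + 1) = 1 := by rw [pow_succ, ← g4, inv_mul_cancel₀ n1]
  have k2 : c = a ^ q * b⁻¹ := by rw [← g1]; field_simp
  have k3 : d = a ^ q ^ 2 := by
    have : b * d = a ^ q ^ 2 * b := by
      rw [g2, k2, mul_pow, ← pow_mul, ← sq, inv_pow, ← g4, inv_inv]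
    rw [mul_comm] at this
    exact mul_right_cancel₀ n1 this
  have k4 : b = a ^ (q ^ 3 - 1) := by
    have : a * b = a * a ^ (q ^ 3 - 1) := by
      rw [g3, k3, ← pow_mul, ← pow_succ', Nat.sub_add_cancel hq3]
      congr 1
    exact mul_left_cancel₀ n0 this
  refine ⟨k4, by rw [← k4]; exact k2, k3, by rw [pow_mul, ← k4]; exact k1⟩

end rel

/-- arithmetic -/
lemma tri_coprime {q : ℕ} (hq : 2 ≤ q) : Nat.Coprime ((q ^ 3 - 1) * (q + 1)) (q ^ 2 - q - 1) := by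
  obtain ⟨p, rfl⟩ : ∃ p, q = p + 2 := ⟨q - 2, by omega⟩
  have e1 : (p + 2) ^ 2 - (p + 2) - 1 = p ^ 2 + 3 * p + 1 := by
    have : (p + 2) ^ 2 = (p ^ 2 + 3 * p + 1) + 1 + (p + 2) := by ring
    omega
  have e2 : (p + 2) ^ 3 - 1 = (p + 1) * (p ^ 2 + 5 * p + 7) := by
    have : (p + 2) ^ 3 = (p + 1) * (p ^ 2 + 5 * p + 7) + 1 := by ring
    omega
  rw [e1, e2]
  have c1 : Nat.Coprime (p + 1) (p ^ 2 + 3 * p + 1) := by
    rw [← Nat.isCoprime_iff_coprime]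
    refine ⟨(p : ℤ) + 2, -1, ?_⟩
    push_cast; ring
  have c2 : Nat.Coprime (p + 2 + 1) (p ^ 2 + 3 * p + 1) := by
    rw [← Nat.isCoprime_iff_coprime]
    refine ⟨-(p : ℤ), 1, ?_⟩
    push_cast; ring
  have c3 : Nat.Coprime (p ^ 2 + 5 * p + 7) (p ^ 2 + 3 * p + 1) := by
    have hodd : Nat.Coprime 2 (p ^ 2 + 5 * p + 7) := by
      rw [Nat.coprime_two_left]
      have : Even (p ^ 2 + 5 * p) := by
        rcases Nat.even_or_odd p with h | h
        · exact ((Nat.even_pow.2 ⟨h, by norm_num⟩)).add (h.mul_left 5)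
        · exact (Odd.pow h).add_odd (Odd.mul (by decide) h)
      exact Even.add_odd this (by decide)
    apply Nat.Coprime.symm
    rw [Nat.coprime_iff_gcd_eq_one]
    set g := Nat.gcd (p ^ 2 + 3 * p + 1) (p ^ 2 + 5 * p + 7) with hg
    have g1 : (g : ℤ) ∣ ((p : ℤ) ^ 2 + 3 * p + 1) := by exact_mod_cast Nat.gcd_dvd_left _ _
    have g2 : (g : ℤ) ∣ ((p : ℤ) ^ 2 + 5 * p + 7) := by exact_mod_cast Nat.gcd_dvd_right _ _
    have g3 : (g : ℤ) ∣ 2 := by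
      have : (2 : ℤ) = (-(p : ℤ)) * (p ^ 2 + 5 * p + 7) + (p + 2) * (p ^ 2 + 3 * p + 1) := by ring
      rw [this]
      exact dvd_add (g2.mul_left _) (g1.mul_left _)
    have g4 : g ∣ 2 := by exact_mod_cast g3
    have g5 : g ∣ p ^ 2 + 5 * p + 7 := Nat.gcd_dvd_right _ _
    have g6 : g ∣ Nat.gcd 2 (p ^ 2 + 5 * p + 7) := Nat.dvd_gcd g4 g5
    rw [hodd] at g6
    exact Nat.dvd_one.1 g6
  exact Nat.Coprime.mul_left (Nat.Coprime.mul_left c1 c3) c2

section main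

theorem tri_main {L : Type*} [Field L] [Fintype L] (q : ℕ) (hq : IsPrimePow q) (hL : Fintype.card L = q ^ 3) :
    ∃ H : Subgroup ↥(twistedD4 L q), IsCyclic ↥H ∧ Nat.card ↥H = (q ^ 3 - 1) * (q + 1) ∧
      Subgroup.centralizer (H : Set ↥(twistedD4 L q)) = H := by
  classical
  have G := good_of_mem hD4
  have hq2 : 2 ≤ q := hq.two_le
  obtain ⟨K, i1, i2, ι, σ, h1, h2, -, h4⟩ := exists_ext hL (N := 2) (by norm_num)
  have hK : Fintype.card K = q ^ 6 := by rw [h1, ← pow_mul]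
  obtain ⟨φ, hφ⟩ := ChevTw.exists_frob (K := K) hq (m := 6) (by norm_num) hK
  obtain ⟨φL, hφL⟩ := ChevTw.exists_frob (K := L) hq (m := 3) (by norm_num) hL
  have hLq : ∀ t : L, t ^ q ^ 3 = t := fun t => by rw [← hL]; exact FiniteField.pow_card t
  obtain ⟨e, he⟩ := IsCyclic.exists_generator (α := Kˣ)
  have hoe : orderOf e = q ^ 6 - 1 := by
    rw [orderOf_eq_card_of_forall_mem_zpowers he, Nat.card_units, Nat.card_eq_fintype_card, hK]
  have hq6 : 1 ≤ q ^ 6 := Nat.one_le_pow _ _ (by omega)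
  have hq3 : 1 ≤ q ^ 3 := Nat.one_le_pow _ _ (by omega)
  have hq21 : 1 ≤ q ^ 2 := Nat.one_le_pow _ _ (by omega)
  have hqq : q ≤ q ^ 2 := Nat.le_self_pow (by norm_num) q
  have hqq2 : q + 1 < q ^ 2 := by nlinarith
  -- `f` of order `m`
  set m := (q ^ 3 - 1) * (q + 1) with hm
  have hm0 : m ≠ 0 := Nat.mul_ne_zero (by have := Nat.one_lt_pow (n := 3) (by norm_num) hq2; omega) (by omega)
  have hfac : (q ^ 2 - q + 1) * m = q ^ 6 - 1 := by
    rw [hm]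
    zify [hq3, hq6, hqq]
    ring
  set f : Kˣ := e ^ (q ^ 2 - q + 1) with hf
  have hof : orderOf f = m := by
    rw [hf, orderOf_pow_of_dvd (by omega) (by rw [hoe, ← hfac]; exact Dvd.intro _ rfl), hoe, ← hfac,
      Nat.mul_div_cancel_left _ (by omega)]
  set b : Kˣ := e ^ (1 + q ^ 2 + q ^ 4) with hb
  set c' : Kˣ := e ^ (1 + q ^ 3) with hc'
  have hee : e ^ (q ^ 6 - 1) = 1 := by rw [← hoe]; exact pow_orderOf_eq_one e
  have hb2 : b ^ q ^ 2 = b := by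
    have : b ^ (q ^ 2 - 1) = 1 := by
      rw [hb, ← pow_mul]
      have : (1 + q ^ 2 + q ^ 4) * (q ^ 2 - 1) = q ^ 6 - 1 := by zify [hq21, hq6]; ring
      rw [this, hee]
    calc b ^ q ^ 2 = b ^ (q ^ 2 - 1) * b := by rw [← pow_succ, Nat.sub_add_cancel hq21]
      _ = b := by rw [this, one_mul]
  have hbq : b ^ q ≠ b := by
    intro h0
    have h5 : b ^ (q - 1) = 1 := by
      have : b ^ (q - 1) * b = 1 * b := by rw [← pow_succ, Nat.sub_add_cancel (by omega), h0, one_mul]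
      exact mul_right_cancel this
    rw [hb, ← pow_mul] at h5
    have h6 := orderOf_dvd_of_pow_eq_one h5
    rw [hoe] at h6
    have h7 : 0 < (1 + q ^ 2 + q ^ 4) * (q - 1) := Nat.mul_pos (by omega) (by omega)
    have h8 := Nat.le_of_dvd h7 h6
    have h9 : (1 + q ^ 2 + q ^ 4) * (q - 1) * (q + 1) = q ^ 6 - 1 := by
      zify [hq6, (show 1 ≤ q by omega)]; ring
    have h10 : (1 + q ^ 2 + q ^ 4) * (q - 1) < (1 + q ^ 2 + q ^ 4) * (q - 1) * (q + 1) := by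
      calc (1 + q ^ 2 + q ^ 4) * (q - 1) = (1 + q ^ 2 + q ^ 4) * (q - 1) * 1 := (mul_one _).symm
        _ < _ := Nat.mul_lt_mul_of_pos_left (by omega) h7
    omega
  have hc3 : c' ^ q ^ 3 = c' := by
    have : c' ^ (q ^ 3 - 1) = 1 := by
      rw [hc', ← pow_mul]
      have : (1 + q ^ 3) * (q ^ 3 - 1) = q ^ 6 - 1 := by zify [hq3, hq6]; ring
      rw [this, hee]
    calc c' ^ q ^ 3 = c' ^ (q ^ 3 - 1) * c' := by rw [← pow_succ, Nat.sub_add_cancel hq3]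
      _ = c' := by rw [this, one_mul]
  have hbc : c' * (c' ^ q * c' ^ q ^ 2) = b * b ^ q := by
    rw [hb, hc', ← pow_mul, ← pow_mul, ← pow_mul, ← pow_add, ← pow_add, ← pow_add]
    congr 1; ring
  have hoa : orderOf (b⁻¹ * c' ^ 2) = m := by
    have h5 : b⁻¹ * c' ^ 2 = (f ^ (q ^ 2 - q - 1))⁻¹ := by
      rw [eq_inv_iff_mul_eq_one, mul_assoc, inv_mul_eq_one, hb, hc', hf, ← pow_mul, ← pow_mul, ← pow_add]
      congr 1
      have h6 : 1 ≤ q ^ 2 - q := by omega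
      zify [h6, hqq]
      ring
    rw [h5, orderOf_inv, Nat.Coprime.orderOf_pow, hof]
    rw [hof]
    exact tri_coprime hq2
  clear_value b c' f
  have hσQ : ∀ t : K, t ^ q ^ 3 = t → ∃ t₀, ι t₀ = t := fun t ht => h4 t (by rw [h2]; exact ht)
  -- elements of `L`
  obtain ⟨c₀, hc₀⟩ := hσQ (c' : K) (by exact_mod_cast congrArg Units.val hc3)
  have hc₀0 : c₀ ≠ 0 := by rintro rfl; rw [map_zero] at hc₀; exact c'.ne_zero hc₀.symm
  set c : Lˣ := Units.mk0 c₀ hc₀0 with hc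
  have hcc : Units.map (ι : L →* K) c = c' := Units.ext hc₀
  have hbK : (b : K) ^ q ^ 2 = b := by exact_mod_cast congrArg Units.val hb2
  have hbqK : (b : K) ^ q ≠ b := fun h => hbq (Units.ext (by exact_mod_cast h))
  have hTq : φ ((b : K) + (b : K) ^ q) = (b : K) + (b : K) ^ q := by
    rw [map_add, hφ, hφ, ← pow_mul, ← sq, hbK, add_comm]
  obtain ⟨T₀, hT₀⟩ := hσQ ((b : K) + (b : K) ^ q) (by
    have : ∀ t : K, t ^ q ^ 3 = φ (φ (φ t)) := fun t => by rw [hφ, hφ, hφ, ← pow_mul, ← pow_mul]; congr 1; ring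
    rw [this, hTq, hTq, hTq])
  have hT₀q : T₀ ^ q = T₀ := by
    apply ι.injective
    rw [map_pow, hT₀, ← hφ, hTq]
  -- the element of the twisted group
  obtain ⟨A₀, hA₀⟩ : ∃ A₀ : SpecialLinearGroup (Fin 2) L, A₀ = SL2Sys.X (T₀ - 1) * SL2Sys.Y 1 * SL2Sys.X (-1) := ⟨_, rfl⟩
  have hfix14 : ∀ t : L, t ^ q = t → xU G.toGood2 14 t ∈ twistedD4 L q := by
    intro t ht
    refine Subgroup.subset_closure ⟨[(d4p2, t)], Or.inl ⟨t, ht, d4p2, by simp, rfl⟩, ?_⟩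
    simp [ChevalleyDatum.wordMat]; rfl
  have hfix9 : ∀ t : L, t ^ q = t → xU G.toGood2 9 t ∈ twistedD4 L q := by
    intro t ht
    refine Subgroup.subset_closure ⟨[(d4m2, t)], Or.inl ⟨t, ht, d4m2, by simp, rfl⟩, ?_⟩
    simp [ChevalleyDatum.wordMat]; rfl
  obtain ⟨n1, n2, n3, n4⟩ := tri_negs
  have e9 : chevD4.neg (r14 : ℕ) = 9 := n4
  have hA₀mem : th hD4 L r14 A₀ ∈ twistedD4 L q := by
    rw [hA₀, map_mul, map_mul, th_X, th_Y, th_X, e9]
    refine mul_mem (mul_mem (hfix14 _ ?_) (hfix9 _ (one_pow _))) (hfix14 _ ?_)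
    · have := congrArg (fun x : L => φL x) hT₀q
      rw [← hφL, map_sub, map_one, hφL, hT₀q]
    · rw [← hφL, map_neg, map_one]
  set y₀ : GL chevD4.Idx L := th hD4 L r14 A₀ * (th hD4 L r18 (dgs c) *
    th hD4 L r13 (SpecialLinearGroup.map (φL : L →+* L) (dgs c)) *
    th hD4 L r12 (SpecialLinearGroup.map (φL : L →+* L) (SpecialLinearGroup.map (φL : L →+* L) (dgs c)))) with hy₀
  have hy₀mem : y₀ ∈ twistedD4 L q := mul_mem hA₀mem (tri_psi (φL : L →+* L) hφL _)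
  -- the frame
  set γ : K := ((b : K) - (b : K) ^ q)⁻¹ with hγ
  have hbb : (b : K) - (b : K) ^ q ≠ 0 := sub_ne_zero.2 (Ne.symm hbqK)
  have hγ0 : γ ≠ 0 := inv_ne_zero hbb
  have hφγ : φ γ = -γ := by
    rw [hγ, map_inv₀, map_sub, hφ, hφ, ← pow_mul, ← sq, hbK, ← neg_sub, inv_neg]
  set g₀ : SpecialLinearGroup (Fin 2) K := ⟨!![(b : K), (b : K) ^ q * γ; 1, γ], by
    rw [Matrix.det_fin_two_of]
    have : (b : K) * γ - (b : K) ^ q * γ * 1 = ((b : K) - (b : K) ^ q) * γ := by ring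
    rw [this, hγ, mul_inv_cancel₀ hbb]⟩ with hg₀
  set g : GL chevD4.Idx K := th hD4 K r14 g₀ with hg
  have hgG : g ∈ chevD4.group K := th_mem hD4 _ _
  -- the torus element
  set χ : ℕ → Kˣ := chiH chevD4 18 c' * chiH chevD4 13 (c' ^ q) * chiH chevD4 12 (c' ^ q ^ 2) with hχ
  obtain ⟨q1, q2, q3, q4, q5, q6, q7⟩ := tri_pr
  have hchr : ∀ (s : ℕ), s < chevD4.nroots → chr chevD4 χ s = c' ^ pr chevD4 18 s * (c' ^ q) ^ pr chevD4 13 s * (c' ^ q ^ 2) ^ pr chevD4 12 s := by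
    intro s hs
    have : ∀ (χ ψ : ℕ → Kˣ), chr chevD4 (χ * ψ) s = chr chevD4 χ s * chr chevD4 ψ s := fun χ ψ => chr_mul' χ ψ s
    rw [hχ, this, this, chr_chiH G.toGood1 _ _ hs, chr_chiH G.toGood1 _ _ hs, chr_chiH G.toGood1 _ _ hs]
  have hι : ∀ (r : Fin chevD4.nroots) (B : SpecialLinearGroup (Fin 2) L),
      glMap chevD4.Idx ι (th hD4 L r B) = th hD4 K r (SpecialLinearGroup.map ι B) := fun r B => th_map hD4 r ι B
  set A : SpecialLinearGroup (Fin 2) K := SpecialLinearGroup.map ι A₀ with hA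
  have hAval : A.1 = !![(b : K) + (b : K) ^ q, -1; 1, 0] := by
    have : A = SL2Sys.X ((b : K) + (b : K) ^ q - 1) * SL2Sys.Y 1 * SL2Sys.X (-1) := by
      rw [hA, hA₀, map_mul, map_mul, sl_map_X, sl_map_Y, sl_map_X, map_sub, hT₀, map_neg, map_one]
    rw [this]
    show (SL2Sys.X ((b : K) + (b : K) ^ q - 1)).1 * (SL2Sys.Y 1).1 * (SL2Sys.X (-1)).1 = _
    simp only [SL2Sys.X, SL2Sys.Y]
    ext i j
    fin_cases i <;> fin_cases j <;> simp [Matrix.mul_apply, Fin.sum_univ_two] <;> ring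
  have hmap2 : ∀ (u : Lˣ), Units.map (ι : L →* K) (Units.map ((φL : L →+* L) : L →* L) u) = (Units.map (ι : L →* K) u) ^ q := by
    intro u
    apply Units.ext
    simp [hφL]
  have hιy₀ : glMap chevD4.Idx ι y₀ = th hD4 K r14 A * ChevU.torHom chevD4 K χ := by
    rw [hy₀, map_mul, map_mul, map_mul, hι, hι, hι, hι, map_dgs, map_dgs, map_dgs, map_dgs, map_dgs, hmap2, hmap2, hmap2, hcc,
      th_dgs, th_dgs, th_dgs, hχ, map_mul, map_mul, ← pow_mul, ← sq]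
    rfl
  have hχmem : ChevU.torHom chevD4 K χ ∈ chevD4.diagonalSubgroup K := by
    rw [hχ, map_mul, map_mul]
    exact mul_mem (mul_mem (chiH_mem hD4 r18 _) (chiH_mem hD4 r13 _)) (chiH_mem hD4 r12 _)
  set t : GL chevD4.Idx K := ChevU.torHom chevD4 K (chiH chevD4 14 b) * ChevU.torHom chevD4 K χ with ht
  have htmem : t ∈ chevD4.diagonalSubgroup K := mul_mem (chiH_mem hD4 r14 _) hχmem
  have hgt : g⁻¹ * glMap chevD4.Idx ι y₀ * g = t := by
    have hN : ((chr chevD4 χ 14 : Kˣ) : K) = ((b : K) * (b : K) ^ q)⁻¹ := by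
      rw [hchr 14 (by decide), q1, q2, q3, _root_.zpow_neg, _root_.zpow_neg, _root_.zpow_neg, _root_.zpow_one,
        _root_.zpow_one, _root_.zpow_one]
      have : (c')⁻¹ * (c' ^ q)⁻¹ * (c' ^ q ^ 2)⁻¹ = (b * b ^ q)⁻¹ := by
        rw [← hbc]
        rw [mul_inv, mul_inv, mul_assoc]
      rw [this]
      push_cast; rfl
    have e1 : A * slc (chr chevD4 χ 14) g₀ = g₀ * dgs b := by
      apply Subtype.ext
      show A.1 * slcM (chr chevD4 χ 14) g₀.1 = g₀.1 * (dgs b).1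
      rw [hAval, dgs_val]
      have hb0 : (b : K) ≠ 0 := b.ne_zero
      have hbq0 : (b : K) ^ q ≠ 0 := pow_ne_zero _ hb0
      unfold slcM
      rw [hN]
      ext i j
      fin_cases i <;> fin_cases j <;> simp [hg₀, Matrix.mul_apply, Fin.sum_univ_two] <;> field_simp <;> ring
    have e2 : ChevU.torHom chevD4 K χ * g = th hD4 K r14 (slc (chr chevD4 χ 14) g₀) * ChevU.torHom chevD4 K χ := by
      have := torHom_th hD4 r14 χ g₀
      rw [mul_inv_eq_iff_eq_mul] at this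
      exact this
    rw [hιy₀, mul_assoc, mul_assoc, e2, ← mul_assoc (th hD4 K r14 A), ← map_mul, e1, map_mul, th_dgs, ht]
    show g⁻¹ * (g * _ * _) = _
    rw [← mul_assoc, inv_mul_cancel_left]
    rfl
  -- Frobenius on the frame
  set W : SpecialLinearGroup (Fin 2) K := ⟨!![0, -γ; γ⁻¹, 0], by
    rw [Matrix.det_fin_two_of]; field_simp; ring⟩ with hW
  have hgW : SpecialLinearGroup.map (φ : K →+* K) g₀ = g₀ * W := by
    apply Subtype.ext
    show g₀.1.map φ = g₀.1 * W.1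
    ext i j
    fin_cases i <;> fin_cases j <;> simp [hg₀, hW, Matrix.mul_apply, Fin.sum_univ_two, hφ]
    · field_simp
    · rw [mul_pow, ← pow_mul, ← sq, hbK, ← hφ γ, hφγ]; ring
    · field_simp
    · rw [← hφ γ, hφγ]
  have hτg : ∀ (hm : g ∈ chevD4.group K), ((tau φ ⟨g, hm⟩ : ↥(chevD4.group K)) : GL chevD4.Idx K) = g * th hD4 K r14 W := by
    intro hm
    refine (tau_th φ (by decide) g₀ hm).trans ?_
    show th hD4 K r14 (SpecialLinearGroup.map (φ : K →+* K) g₀) = th hD4 K r14 g₀ * th hD4 K r14 W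
    rw [hgW, map_mul]
  have hW2 : W = dgs (Units.mk0 (-γ) (neg_ne_zero.2 hγ0)) * SL2Sys.w K := by
    apply Subtype.ext
    show W.1 = (dgs (Units.mk0 (-γ) (neg_ne_zero.2 hγ0))).1 * (SL2Sys.w K).1
    rw [dgs_val]
    ext i j
    fin_cases i <;> fin_cases j <;> simp [hW, SL2Sys.w, Matrix.mul_apply, Fin.sum_univ_two]
  have hnn : th hD4 K r14 (SL2Sys.w K) = Inst.nn G K 1 := by
    rw [sl_w_eq, map_mul, map_mul, th_X, th_Y, e9]
    unfold Inst.nn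
    rw [Inst.nU_eq, inv_one]
    rfl
  -- the relations for conjugates of fixed elements
  have hrel : ∀ y ∈ twistedD4 L q, g⁻¹ * glMap chevD4.Idx ι y * g ∈ chevD4.diagonalSubgroup K →
      ∀ (s : Fin chevD4.nroots) (hs : wv gpD4_1 s < chevD4.nroots),
        ev (g⁻¹ * glMap chevD4.Idx ι y * g) (dD4.rp.wsys.w (1 : Fin 4) ⟨wv gpD4_1 s, hs⟩) =
          ev (g⁻¹ * glMap chevD4.Idx ι y * g) s ^ q := by
    intro y hy hk s hs
    obtain ⟨hyG, hfix⟩ := tau_tw φ ι hφ hLq hy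
    set k : GL chevD4.Idx K := g⁻¹ * glMap chevD4.Idx ι y * g with hkdef
    have hkG : k ∈ chevD4.group K := H_le_group dD4 G hk
    set kk : ↥(chevD4.group K) := ⟨k, hkG⟩ with hkk
    have h5 : kk = (⟨g, hgG⟩ : ↥(chevD4.group K))⁻¹ * fHom chevD4 ι ⟨y, hyG⟩ * ⟨g, hgG⟩ := Subtype.ext rfl
    obtain ⟨h6, h7⟩ := ev_tau φ (k := kk) hk s hs
    set k' := ((tau φ kk : ↥(chevD4.group K)) : GL chevD4.Idx K) with hk'
    -- `k = W k' W⁻¹`
    have h8 : k = th hD4 K r14 W * k' * (th hD4 K r14 W)⁻¹ := by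
      have h9 : k' = (g * th hD4 K r14 W)⁻¹ * glMap chevD4.Idx ι y * (g * th hD4 K r14 W) := by
        rw [hk', h5, map_mul, map_mul, map_inv, hfix, Subgroup.coe_mul, Subgroup.coe_mul, Subgroup.coe_inv, hτg]
        rfl
      rw [h9, hkdef]
      group
    have h10 : k = Inst.nn G K 1 * k' * (Inst.nn G K 1)⁻¹ := by
      have h11 : Inst.nn G K 1 * k' * (Inst.nn G K 1)⁻¹ ∈ chevD4.diagonalSubgroup K := Inst.nn_norm_H (F := K) G (by decide) h6
      have h12 := diag_comm hD4 h11 (chiH_mem hD4 r14 (Units.mk0 (-γ) (neg_ne_zero.2 hγ0)))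
      rw [hW2, map_mul, th_dgs, hnn] at h8
      rw [h8]
      calc _ = ChevU.torHom chevD4 K (chiH chevD4 r14 (Units.mk0 (-γ) (neg_ne_zero.2 hγ0))) *
            (Inst.nn G K 1 * k' * (Inst.nn G K 1)⁻¹) * (ChevU.torHom chevD4 K (chiH chevD4 r14 (Units.mk0 (-γ) (neg_ne_zero.2 hγ0))))⁻¹ := by group
        _ = _ := by rw [← h12]; group
    have h13 := nn_conj_ev dD4 hD4 (1 : Fin 4) h6 ⟨wv gpD4_1 s, hs⟩
    have h14 : Inst.nn (good_of_mem hD4) K ((1 : Fin 4) : ℕ) = Inst.nn G K 1 := rfl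
    rw [h14, ← h10, h7, hφ] at h13
    exact h13
  -- the element `t`
  have hrt : ∀ (s : Fin chevD4.nroots) (hs : wv gpD4_1 s < chevD4.nroots),
      ev t (dD4.rp.wsys.w (1 : Fin 4) ⟨wv gpD4_1 s, hs⟩) = ev t s ^ q := by
    have := hrel y₀ hy₀mem (by rw [hgt]; exact htmem)
    rw [hgt] at this; exact this
  obtain ⟨t1, t2, t3, t4⟩ := tri_alg (by omega) htmem hrt
  have hta : ev t r18 = ((b⁻¹ * c' ^ 2 : Kˣ) : K) := by
    have hb14 : ChevU.torHom chevD4 K (chiH chevD4 14 b) ∈ chevD4.diagonalSubgroup K := chiH_mem hD4 r14 b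
    rw [ht, ev_mul hD4 hb14 hχmem, ev_torHom, ev_torHom, ← Units.val_mul]
    congr 1
    have h5 : chr chevD4 (chiH chevD4 14 b) (r18 : ℕ) = b ^ pr chevD4 14 18 := chr_chiH G.toGood1 _ _ (by decide)
    have h6 : chr chevD4 χ (r18 : ℕ) = c' ^ pr chevD4 18 18 * (c' ^ q) ^ pr chevD4 13 18 * (c' ^ q ^ 2) ^ pr chevD4 12 18 :=
      hchr 18 (by decide)
    rw [h5, h6, q4, q5, q6, q7, _root_.zpow_zero, _root_.zpow_zero, mul_one, mul_one, _root_.zpow_neg, _root_.zpow_one]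
    rfl
  have hprim : IsPrimitiveRoot (ev t r18) m := by
    rw [hta, IsPrimitiveRoot.coe_units_iff, ← hoa]
    exact IsPrimitiveRoot.orderOf _
  have hst : ∀ v ∈ dD4.rp.wsys.W, (∀ s, ev t (v s) = ev t s) → v = 1 := fun v hv hvt =>
    tri_stab hq2 htmem hprim r18 r14 r13 r12 rfl rfl rfl rfl rfl t1 t2 t3 hv hvt
  have hpow : ∀ n : ℕ, g⁻¹ * glMap chevD4.Idx ι (y₀ ^ n) * g = t ^ n := by
    intro n
    rw [map_pow, ← hgt]
    have := conj_pow (i := n) (a := g⁻¹) (b := glMap chevD4.Idx ι y₀)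
    rw [inv_inv] at this
    exact this.symm
  have hinj : ∀ x y : GL chevD4.Idx L, g⁻¹ * glMap chevD4.Idx ι x * g = g⁻¹ * glMap chevD4.Idx ι y * g → x = y := by
    intro x y h
    rw [mul_left_inj, mul_right_inj] at h
    exact glMap_injective ι h
  -- diagonal elements with the relations are determined by one value
  have hext : ∀ k ∈ chevD4.diagonalSubgroup K, ∀ k' ∈ chevD4.diagonalSubgroup K,
      (∀ (s : Fin chevD4.nroots) (hs : wv gpD4_1 s < chevD4.nroots),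
        ev k (dD4.rp.wsys.w (1 : Fin 4) ⟨wv gpD4_1 s, hs⟩) = ev k s ^ q) →
      (∀ (s : Fin chevD4.nroots) (hs : wv gpD4_1 s < chevD4.nroots),
        ev k' (dD4.rp.wsys.w (1 : Fin 4) ⟨wv gpD4_1 s, hs⟩) = ev k' s ^ q) →
      ev k r18 = ev k' r18 → k = k' := by
    intro k hk k' hk' h5 h6 h7
    obtain ⟨u1, u2, u3, -⟩ := tri_alg (by omega) hk h5
    obtain ⟨v1, v2, v3, -⟩ := tri_alg (by omega) hk' h6
    apply ev_ext dD4 hD4 hk hk'
    intro i
    rw [ev4 hk _ r18 r14 r13 r12 rfl rfl rfl rfl, ev4 hk' _ r18 r14 r13 r12 rfl rfl rfl rfl, u1, u2, u3, v1, v2, v3, h7]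
  have htn : ∀ n : ℕ, ∀ (s : Fin chevD4.nroots) (hs : wv gpD4_1 s < chevD4.nroots),
      ev (t ^ n) (dD4.rp.wsys.w (1 : Fin 4) ⟨wv gpD4_1 s, hs⟩) = ev (t ^ n) s ^ q := by
    intro n s hs
    rw [ev_pow hD4 htmem, ev_pow hD4 htmem, hrt, ← pow_mul, ← pow_mul, mul_comm]
  have h1n : ∀ (s : Fin chevD4.nroots) (hs : wv gpD4_1 s < chevD4.nroots),
      ev (1 : GL chevD4.Idx K) (dD4.rp.wsys.w (1 : Fin 4) ⟨wv gpD4_1 s, hs⟩) = ev (1 : GL chevD4.Idx K) s ^ q := by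
    intro s hs
    rw [ev_one, ev_one, one_pow]
  have horder : orderOf y₀ = m := by
    apply Nat.dvd_antisymm
    · apply orderOf_dvd_of_pow_eq_one
      apply hinj
      rw [hpow, map_one, mul_one, inv_mul_cancel]
      apply hext _ (pow_mem htmem m) _ (one_mem _) (htn m) h1n
      rw [ev_pow hD4 htmem, ev_one, hprim.pow_eq_one]
    · rw [← hprim.pow_eq_one_iff_dvd, ← ev_pow hD4 htmem, ← hpow, pow_orderOf_eq_one, map_one, mul_one, inv_mul_cancel, ev_one]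
  -- the torus
  refine ⟨Subgroup.zpowers ⟨y₀, hy₀mem⟩, inferInstance, ?_, ?_⟩
  · rw [Nat.card_zpowers, ← horder]
    exact Subgroup.orderOf_mk y₀ hy₀mem
  · ext y
    rw [Subgroup.mem_centralizer_iff]
    constructor
    · intro hy
      have h5 := hy ⟨y₀, hy₀mem⟩ (Subgroup.mem_zpowers _)
      have h6 : y₀ * (y : GL chevD4.Idx L) = y * y₀ := congrArg Subtype.val h5
      obtain ⟨hyG, -⟩ := tau_tw φ ι hφ hLq y.2
      have h7 : g⁻¹ * glMap chevD4.Idx ι (y : GL chevD4.Idx L) * g ∈ chevD4.diagonalSubgroup K := by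
        apply cent_eq dD4 hD4 htmem hst (mul_mem (mul_mem (inv_mem hgG) (glMap_mem ι hyG)) hgG)
        rw [← hgt]
        have h6' : glMap chevD4.Idx ι y₀ * glMap chevD4.Idx ι (y : GL chevD4.Idx L) =
            glMap chevD4.Idx ι (y : GL chevD4.Idx L) * glMap chevD4.Idx ι y₀ :=
          (map_mul (glMap chevD4.Idx ι) y₀ (y : GL chevD4.Idx L)).symm.trans
            ((congrArg (glMap chevD4.Idx ι) h6).trans (map_mul (glMap chevD4.Idx ι) (y : GL chevD4.Idx L) y₀))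
        calc g⁻¹ * glMap chevD4.Idx ι (y : GL chevD4.Idx L) * g * (g⁻¹ * glMap chevD4.Idx ι y₀ * g)
            = g⁻¹ * (glMap chevD4.Idx ι (y : GL chevD4.Idx L) * glMap chevD4.Idx ι y₀) * g := by group
          _ = g⁻¹ * (glMap chevD4.Idx ι y₀ * glMap chevD4.Idx ι (y : GL chevD4.Idx L)) * g := by rw [h6']
          _ = _ := by group
      have h8 := hrel _ y.2 h7
      obtain ⟨-, -, -, u4⟩ := tri_alg (by omega) h7 h8
      have : NeZero m := ⟨hm0⟩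
      obtain ⟨n, -, hn⟩ := hprim.eq_pow_of_pow_eq_one u4
      have h9 : g⁻¹ * glMap chevD4.Idx ι (y : GL chevD4.Idx L) * g = g⁻¹ * glMap chevD4.Idx ι (y₀ ^ n) * g := by
        rw [hpow]
        apply hext _ h7 _ (pow_mem htmem n) h8 (htn n)
        rw [ev_pow hD4 htmem, hn]
      have h10 := hinj _ _ h9
      refine ⟨n, ?_⟩
      apply Subtype.ext
      show ((⟨y₀, hy₀mem⟩ : ↥(twistedD4 L q)) ^ (n : ℤ) : ↥(twistedD4 L q)).1 = y.1
      rw [zpow_natCast]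
      exact h10.symm
    · rintro ⟨n, rfl⟩ z ⟨n', rfl⟩
      show (⟨y₀, hy₀mem⟩ : ↥(twistedD4 L q)) ^ n' * (⟨y₀, hy₀mem⟩ : ↥(twistedD4 L q)) ^ n = _
      exact (Commute.refl _).zpow_zpow n' n

end main

end Cfsg.Agent.ChevF
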